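import Cfsg.Agent.H209.TriBasic

/-!
# Arcs (walks without backtracking) in trivalent graphs

Arcs are functions `p : ℤ → V` considered on an interval `[i, j]`.
-/

set_option autoImplicit false

namespace Cfsg.Agent.H209

open MulAction

/-- a subgroup of index at most two, elementwise -/
def Half {G : Type*} [Group G] (H K : Subgroup G) : Prop :=
  H ≤ K ∧ ∀ x ∈ K, ∀ y ∈ K, x ∉ H → y ∉ H → x * y ∈ H

namespace Half

variable {G : Type*} [Group G] {H K L : Subgroup G}

theorem inf_left (h : Half H K) (hL : L ≤ K) : Half (H ⊓ L) L := by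
  refine ⟨inf_le_right, fun x hx y hy hxn hyn => ⟨h.2 x (hL hx) y (hL hy) ?_ ?_, L.mul_mem hx hy⟩⟩
  · exact fun hxH => hxn ⟨hxH, hx⟩
  · exact fun hyH => hyn ⟨hyH, hy⟩

theorem card_le (h : Half H K) (hK : Finite K) : Nat.card K ≤ 2 * Nat.card H := by
  classical
  have hfH : Finite H := Finite.of_injective (Subgroup.inclusion h.1) (Subgroup.inclusion_injective _)
  by_cases hKH : K ≤ H
  · have := Nat.card_le_card_of_injective (Subgroup.inclusion hKH) (Subgroup.inclusion_injective _)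
    omega
  · obtain ⟨x, hxK, hxH⟩ := Set.not_subset.1 hKH
    let f : K → Bool × H := fun y =>
      if hy : (y : G) ∈ H then (true, ⟨y, hy⟩) else (false, ⟨x * y, h.2 x hxK y y.2 hxH hy⟩)
    have hf : Function.Injective f := by
      intro y z hyz
      by_cases hy : (y : G) ∈ H <;> by_cases hz : (z : G) ∈ H
      · simp only [f, hy, hz, dif_pos] at hyz
        have := congrArg (fun t => (t.2 : G)) hyz
        exact Subtype.ext this
      · simp only [f, hy, hz] at hyz
        have := congrArg (fun t => t.1) hyz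
        simp at this
      · simp only [f, hy, hz] at hyz
        have := congrArg (fun t => t.1) hyz
        simp at this
      · simp only [f, hy, hz] at hyz
        have := congrArg (fun t => (t.2 : G)) hyz
        simp at this
        exact this
    have h1 := Nat.card_le_card_of_injective f hf
    rw [Nat.card_prod] at h1
    simpa using h1

theorem mul_not_mem {x y : G} (hxH : x ∈ H) (hy : y ∉ H) : x * y ∉ H := by
  intro hxy
  exact hy ((H.mul_mem_cancel_left hxH).1 hxy)

end Half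

theorem card_le_two_of_forall {G : Type*} [Group G] {K : Subgroup G} (H : Subgroup G) (h : Half H K)
    (hK : Finite K) {m : ℕ} (hH : Nat.card H ≤ m) : Nat.card K ≤ 2 * m :=
  (h.card_le hK).trans (Nat.mul_le_mul_left 2 hH)

theorem card_le_one_of_forall {G : Type*} [Group G] {K : Subgroup G} (h : ∀ x ∈ K, x = 1) : Nat.card K ≤ 1 := by
  have : K = ⊥ := by
    rw [eq_bot_iff]
    intro x hx
    rw [Subgroup.mem_bot]
    exact h x hx
  rw [this]
  simp

/-- the involutions in the center (and the identity) -/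
def OZ {G : Type*} [Group G] (H : Subgroup G) : Subgroup G where
  carrier := {x | x ∈ H ∧ x * x = 1 ∧ ∀ h ∈ H, x * h = h * x}
  mul_mem' := by
    rintro x y ⟨hx, hx2, hxc⟩ ⟨hy, hy2, hyc⟩
    refine ⟨H.mul_mem hx hy, ?_, fun h hh => ?_⟩
    · have := hxc y hy
      calc x * y * (x * y) = x * (y * x) * y := by group
        _ = x * (x * y) * y := by rw [this]
        _ = (x * x) * (y * y) := by group
        _ = 1 := by rw [hx2, hy2, one_mul]
    · rw [mul_assoc, hyc h hh, ← mul_assoc, hxc h hh, mul_assoc]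
  one_mem' := ⟨H.one_mem, by simp, fun h _ => by simp⟩
  inv_mem' := by
    rintro x ⟨hx, hx2, hxc⟩
    have : x⁻¹ = x := by rw [inv_eq_iff_mul_eq_one]; exact hx2
    rw [show x⁻¹ = x from this]
    exact ⟨hx, hx2, hxc⟩

section OZ

variable {G : Type*} [Group G] {H : Subgroup G} {x : G}

theorem mem_OZ : x ∈ OZ H ↔ x ∈ H ∧ x * x = 1 ∧ ∀ h ∈ H, x * h = h * x := Iff.rfl

theorem OZ_le (H : Subgroup G) : OZ H ≤ H := fun _ h => h.1

/-- a nontrivial finite 2-subgroup has a central involution -/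
theorem exists_OZ (hfin : Finite H) (hH : IsPGroup 2 H) (hne : ∃ x ∈ H, x ≠ 1) : ∃ z ∈ OZ H, z ≠ 1 := by
  obtain ⟨x, hx, hx1⟩ := hne
  have : Nontrivial H := ⟨⟨⟨x, hx⟩, 1, fun h => hx1 (congrArg Subtype.val h)⟩⟩
  have hc : Nontrivial (Subgroup.center H) := hH.center_nontrivial
  have hcp : IsPGroup 2 (Subgroup.center H) := hH.to_subgroup _
  have h2 : 2 ∣ Nat.card (Subgroup.center H) := by
    obtain ⟨n, hn⟩ := IsPGroup.iff_card.1 hcp
    rw [hn]
    rcases Nat.eq_zero_or_pos n with h0 | h0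
    · rw [h0, pow_zero] at hn
      have := (Nat.card_eq_one_iff_unique.1 hn).1
      exact absurd this (not_subsingleton_iff_nontrivial.2 hc)
    · exact dvd_pow_self 2 (by omega)
  obtain ⟨z, hz⟩ := exists_prime_orderOf_dvd_card' 2 h2
  refine ⟨((z : H) : G), ⟨(z : H).2, ?_, ?_⟩, ?_⟩
  · have h1 : z ^ 2 = 1 := by rw [← hz]; exact pow_orderOf_eq_one z
    rw [pow_two] at h1
    exact congrArg (fun t : Subgroup.center H => ((t : H) : G)) h1
  · intro h hh
    have := Subgroup.mem_center_iff.1 z.2 ⟨h, hh⟩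
    exact (congrArg (fun t : H => (t : G)) this).symm
  · intro h1
    have : z = 1 := by
      apply Subtype.ext
      apply Subtype.ext
      exact h1
    rw [this, orderOf_one] at hz
    exact absurd hz (by norm_num)

end OZ

namespace Tri

variable {G V : Type*} [Group G] [MulAction G V] (Γ : Tri G V)

/-- `p` is a walk without backtracking on the interval `[i, j]` -/
def Arc (p : ℤ → V) (i j : ℤ) : Prop :=
  (∀ k, i ≤ k → k < j → Γ.A (p k) (p (k + 1))) ∧ ∀ k, i ≤ k → k + 2 ≤ j → p k ≠ p (k + 2)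

variable {Γ} {p : ℤ → V} {i j : ℤ} {u v w : V}

namespace Arc

theorem sub (h : Γ.Arc p i j) {i' j' : ℤ} (hi : i ≤ i') (hj : j' ≤ j) : Γ.Arc p i' j' :=
  ⟨fun k h1 h2 => h.1 k (by omega) (by omega), fun k h1 h2 => h.2 k (by omega) (by omega)⟩

theorem smul (h : Γ.Arc p i j) (g : G) : Γ.Arc (fun k => g • p k) i j :=
  ⟨fun k h1 h2 => Γ.smul g (h.1 k h1 h2), fun k h1 h2 h3 => h.2 k h1 h2 (MulAction.injective g h3)⟩

theorem adj (h : Γ.Arc p i j) {k : ℤ} (h1 : i ≤ k) (h2 : k < j) : Γ.A (p k) (p (k + 1)) := h.1 k h1 h2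

theorem adj' (h : Γ.Arc p i j) {k : ℤ} (h1 : i < k) (h2 : k ≤ j) : Γ.A (p k) (p (k - 1)) := by
  have := h.1 (k - 1) (by omega) (by omega)
  rw [sub_add_cancel] at this
  exact Γ.symm this

theorem ne (h : Γ.Arc p i j) {k l : ℤ} (h1 : i ≤ k) (h2 : l ≤ j) (hkl : l = k + 2) : p k ≠ p l := by
  subst hkl; exact h.2 k h1 h2

theorem ne' (h : Γ.Arc p i j) {k l : ℤ} (h1 : i ≤ k) (h2 : l ≤ j) (hkl : l = k + 2) : p l ≠ p k :=
  (h.ne h1 h2 hkl).symm

theorem rev (h : Γ.Arc p i j) (c : ℤ) : Γ.Arc (fun k => p (c - k)) (c - j) (c - i) := by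
  refine ⟨fun k h1 h2 => ?_, fun k h1 h2 => ?_⟩
  · have := h.adj' (k := c - k) (by omega) (by omega)
    have e : c - k - 1 = c - (k + 1) := by ring
    rwa [e] at this
  · have := h.2 (c - (k + 2)) (by omega) (by omega)
    have e : c - (k + 2) + 2 = c - k := by ring
    rw [e] at this
    exact this.symm

theorem shift (h : Γ.Arc p i j) (c : ℤ) : Γ.Arc (fun k => p (k + c)) (i - c) (j - c) := by
  refine ⟨fun k h1 h2 => ?_, fun k h1 h2 => ?_⟩
  · have := h.1 (k + c) (by omega) (by omega)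
    have e : k + c + 1 = k + 1 + c := by ring
    rwa [e] at this
  · have := h.2 (k + c) (by omega) (by omega)
    have e : k + c + 2 = k + 2 + c := by ring
    rwa [e] at this

/-- extension to the right -/
theorem snoc (h : Γ.Arc p i j) {x : V} (hx : Γ.A (p j) x) (hne : i < j → x ≠ p (j - 1)) :
    Γ.Arc (Function.update p (j + 1) x) i (j + 1) := by
  refine ⟨fun k h1 h2 => ?_, fun k h1 h2 => ?_⟩
  · rw [Function.update_of_ne (by omega)]
    by_cases hk : k = j
    · subst hk
      rw [Function.update_self]; exact hx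
    · rw [Function.update_of_ne (by omega)]
      exact h.1 k h1 (by omega)
  · rw [Function.update_of_ne (by omega)]
    by_cases hk : k + 2 = j + 1
    · rw [hk, Function.update_self]
      have e : k = j - 1 := by omega
      subst e
      exact (hne (by omega)).symm
    · rw [Function.update_of_ne (by omega)]
      exact h.2 k h1 (by omega)

/-- extension to the left -/
theorem cons (h : Γ.Arc p i j) {x : V} (hx : Γ.A (p i) x) (hne : i < j → x ≠ p (i + 1)) :
    Γ.Arc (Function.update p (i - 1) x) (i - 1) j := by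
  refine ⟨fun k h1 h2 => ?_, fun k h1 h2 => ?_⟩
  · by_cases hk : k = i - 1
    · subst hk
      rw [Function.update_self, sub_add_cancel, Function.update_of_ne (by omega)]; exact Γ.symm hx
    · rw [Function.update_of_ne hk, Function.update_of_ne (by omega)]
      exact h.1 k (by omega) (by omega)
  · by_cases hk : k = i - 1
    · subst hk
      have e : i - 1 + 2 = i + 1 := by ring
      rw [Function.update_self, e, Function.update_of_ne (by omega)]
      exact hne (by omega)
    · rw [Function.update_of_ne hk, Function.update_of_ne (by omega)]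
      exact h.2 k (by omega) (by omega)

theorem exists_snoc (h : Γ.Arc p i j) {x : V} (hx : Γ.A (p j) x) (hne : i < j → x ≠ p (j - 1)) :
    ∃ q : ℤ → V, Γ.Arc q i (j + 1) ∧ q (j + 1) = x ∧ ∀ k ≤ j, q k = p k :=
  ⟨_, h.snoc hx hne, Function.update_self _ _ _, fun _ hk => Function.update_of_ne (by omega) _ _⟩

theorem exists_cons (h : Γ.Arc p i j) {x : V} (hx : Γ.A (p i) x) (hne : i < j → x ≠ p (i + 1)) :
    ∃ q : ℤ → V, Γ.Arc q (i - 1) j ∧ q (i - 1) = x ∧ ∀ k ≥ i, q k = p k :=
  ⟨_, h.cons hx hne, Function.update_self _ _ _, fun _ hk => Function.update_of_ne (by omega) _ _⟩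

theorem single (v : V) (i : ℤ) : Γ.Arc (fun _ => v) i i :=
  ⟨fun k h1 h2 => by omega, fun k h1 h2 => by omega⟩

theorem ty_step (h : Γ.Arc p i j) {k : ℤ} (h1 : i ≤ k) (h2 : k < j) : Γ.ty (p (k + 1)) = !Γ.ty (p k) :=
  Γ.ty_adj (h.1 k h1 h2)

theorem ty_two (h : Γ.Arc p i j) {k l : ℤ} (h1 : i ≤ k) (h2 : l ≤ j) (hkl : l = k + 2) :
    Γ.ty (p l) = Γ.ty (p k) := by
  subst hkl
  have h3 := h.ty_step (k := k) h1 (by omega)
  have h4 := h.ty_step (k := k + 1) (by omega) (by omega)
  have e : k + 1 + 1 = k + 2 := by ring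
  rw [e] at h4
  rw [h4, h3, Bool.not_not]

theorem ty_nat (h : Γ.Arc p i j) (n : ℕ) : i + n ≤ j → Γ.ty (p (i + n)) = (if Even n then Γ.ty (p i) else !Γ.ty (p i)) := by
  induction n with
  | zero => intro _; simp
  | succ n ih =>
    intro hn
    have h1 := ih (by push_cast at hn; omega)
    have h2 := h.ty_step (k := i + n) (by omega) (by push_cast at hn; omega)
    have e : i + (n : ℤ) + 1 = i + ((n + 1 : ℕ) : ℤ) := by push_cast; ring
    rw [e] at h2
    rw [h2, h1]
    by_cases hev : Even n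
    · simp [hev, Nat.even_add_one]
    · simp [hev, Nat.even_add_one]

/-- vertices at even distance have the same type -/
theorem ty_even (h : Γ.Arc p i j) {k l : ℤ} (h1 : i ≤ k) (h2 : k ≤ j) (h3 : i ≤ l) (h4 : l ≤ j)
    (hev : (l - k) % 2 = 0) : Γ.ty (p l) = Γ.ty (p k) := by
  have key : ∀ k l : ℤ, i ≤ k → k ≤ l → l ≤ j → (l - k) % 2 = 0 → Γ.ty (p l) = Γ.ty (p k) := by
    intro k l h1 h2 h3 h4
    have h5 := (h.sub h1 le_rfl).ty_nat (l - k).toNat (by omega)
    have e : k + ((l - k).toNat : ℤ) = l := by omega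
    rw [e] at h5
    rw [h5, if_pos]
    rw [Nat.even_iff]
    omega
  rcases le_total k l with hkl | hkl
  · exact key k l h1 hkl h4 hev
  · exact (key l k h3 hkl h2 (by omega)).symm

/-- vertices at odd distance have different types -/
theorem ty_odd (h : Γ.Arc p i j) {k l : ℤ} (h1 : i ≤ k) (h2 : k ≤ j) (h3 : i ≤ l) (h4 : l ≤ j)
    (hodd : (l - k) % 2 = 1) : Γ.ty (p l) = !Γ.ty (p k) := by
  rcases lt_or_ge k j with hk | hk
  · rw [← h.ty_step (k := k) h1 hk]
    exact h.ty_even (by omega) (by omega) h3 h4 (by omega)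
  · have hk' : k = j := le_antisymm h2 hk
    have h5 : Γ.ty (p k) = !Γ.ty (p (k - 1)) := by
      have := h.ty_step (k := k - 1) (by omega) (by omega)
      rwa [sub_add_cancel] at this
    rw [h5, Bool.not_not]
    exact h.ty_even (by omega) (by omega) h3 h4 (by omega)

end Arc

/-- every vertex is the end of an arc -/
theorem exists_arc (v w : V) : ∃ (p : ℤ → V) (n : ℕ), Γ.Arc p 0 n ∧ p 0 = v ∧ p n = w := by
  have key : ∀ w, w ∈ {w : V | ∃ (p : ℤ → V) (n : ℕ), Γ.Arc p 0 n ∧ p 0 = v ∧ p n = w} := by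
    apply Γ.conn
    · refine ⟨v, fun _ => v, 0, ?_, rfl, rfl⟩
      simpa using Arc.single (Γ := Γ) v 0
    · rintro w ⟨p, n, hp, h0, hn⟩ x hx
      by_cases h : 0 < (n : ℤ) → x ≠ p ((n : ℤ) - 1)
      · rw [← hn] at hx
        obtain ⟨q, hq, hqx, hqk⟩ := hp.exists_snoc hx h
        refine ⟨q, n + 1, ?_, ?_, ?_⟩
        · push_cast; exact hq
        · rw [hqk 0 (by omega), h0]
        · push_cast; exact hqx
      · push Not at h
        obtain ⟨hn0, hx'⟩ := h
        refine ⟨p, n - 1, ?_, h0, ?_⟩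
        · refine hp.sub le_rfl (by omega)
        · rw [hx']; congr 1; omega
  exact key w

/-- minimal length of an arc from a vertex `v` of admissible type to `w` with `F v` not in `Q w` -/
theorem exists_min (F : V → Subgroup G) (Pt : Bool → Prop) (v₀ : V) (hv₀ : Pt (Γ.ty v₀)) (hF : ∃ x ∈ F v₀, x ≠ 1) :
    ∃ n : ℤ, 0 ≤ n ∧ (∃ p : ℤ → V, Γ.Arc p 0 n ∧ Pt (Γ.ty (p 0)) ∧ ¬ F (p 0) ≤ Γ.Q (p n)) ∧
      ∀ (p : ℤ → V) (i j : ℤ), i ≤ j → Γ.Arc p i j → Pt (Γ.ty (p i)) → j - i < n → F (p i) ≤ Γ.Q (p j) := by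
  classical
  have hex : ∃ n : ℕ, ∃ p : ℤ → V, Γ.Arc p 0 n ∧ Pt (Γ.ty (p 0)) ∧ ¬ F (p 0) ≤ Γ.Q (p n) := by
    by_contra hcon
    push Not at hcon
    obtain ⟨x, hx, hx1⟩ := hF
    apply hx1
    apply Γ.faith
    intro w
    obtain ⟨p, n, hp, h0, hn⟩ := exists_arc (Γ := Γ) v₀ w
    have := hcon n p hp (by rw [h0]; exact hv₀) (by rw [h0]; exact hx)
    rw [hn] at this
    exact this.1
  refine ⟨(Nat.find hex : ℕ), by omega, Nat.find_spec hex, ?_⟩
  intro p i j hij hp hty hlt
  by_contra hcon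
  refine Nat.find_min hex (m := (j - i).toNat) (by omega) ⟨fun k => p (k + i), ?_, ?_, ?_⟩
  · have := hp.shift i
    have e1 : i - i = 0 := by ring
    have e2 : (((j - i).toNat : ℕ) : ℤ) = j - i := by omega
    rw [e1] at this
    rw [e2]
    exact this
  · simpa using hty
  · have e : (((j - i).toNat : ℕ) : ℤ) + i = j := by omega
    simp only [zero_add, e]
    exact hcon

end Tri

end Cfsg.Agent.H209
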