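import Cfsg.Agent.H209.TriNP

/-!
# Central involutions `r p` at the vertices of one type, and the bound 64 if they do not commute at distance 4
-/

set_option autoImplicit false

namespace Cfsg.Agent.H209

open MulAction

/-- three elements commuting pairwise up to a central involution -/
theorem three_elts {G : Type*} [Group G] {x y w z : G} (sx : x * x = 1) (sy : y * y = 1) (sw : w * w = 1)
    (sz : z * z = 1) (cx : z * x = x * z) (cy : z * y = y * z) (cw : z * w = w * z) (hyx : y * x = z * (x * y))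
    (hwx : w * x = z * (x * w)) (hwy : w * y = z * (y * w)) :
    (x * y * w) * (x * y * w) = z ∧ (x * y * w) * x = x * (x * y * w) ∧ (x * y * w) * y = y * (x * y * w) ∧
      (x * y * w) * w = w * (x * y * w) ∧ w * y * x = z * (x * y * w) := by
  have e1 : (x * y * w) * x = x * (x * y * w) := by
    calc (x * y * w) * x = x * y * (w * x) := by group
      _ = x * y * (z * (x * w)) := by rw [hwx]
      _ = x * (y * z) * x * w := by group
      _ = x * (z * y) * x * w := by rw [cy]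
      _ = (x * z) * (y * x) * w := by group
      _ = (z * x) * (z * (x * y)) * w := by rw [hyx, cx]
      _ = z * (x * z) * (x * y) * w := by group
      _ = z * (z * x) * (x * y) * w := by rw [cx]
      _ = (z * z) * (x * (x * y * w)) := by group
      _ = x * (x * y * w) := by rw [sz, one_mul]
  have e3 : (x * y * w) * w = w * (x * y * w) := by
    calc (x * y * w) * w = (z * z) * (x * y * w * w) := by rw [sz, one_mul]
      _ = z * (z * (x * y)) * w * w := by group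
      _ = z * (z * x * y) * w * w := by group
      _ = z * (x * z * y) * w * w := by rw [cx]
      _ = z * x * (z * (y * w)) * w := by group
      _ = z * x * (w * y) * w := by rw [hwy]
      _ = (z * (x * w)) * y * w := by group
      _ = (w * x) * y * w := by rw [hwx]
      _ = w * (x * y * w) := by group
  have e2 : (x * y * w) * y = y * (x * y * w) := by
    calc (x * y * w) * y = x * y * (w * y) := by group
      _ = x * y * (z * (y * w)) := by rw [hwy]
      _ = x * (y * z) * y * w := by group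
      _ = x * (z * y) * y * w := by rw [cy]
      _ = (x * z) * y * y * w := by group
      _ = (z * x) * y * y * w := by rw [cx]
      _ = (z * (x * y)) * y * w := by group
      _ = (y * x) * y * w := by rw [hyx]
      _ = y * (x * y * w) := by group
  refine ⟨?_, e1, e2, e3, ?_⟩
  · calc (x * y * w) * (x * y * w) = ((x * y * w) * x) * y * w := by group
      _ = (x * (x * y * w)) * y * w := by rw [e1]
      _ = (x * x) * y * (w * y) * w := by group
      _ = y * (z * (y * w)) * w := by rw [sx, one_mul, hwy]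
      _ = (y * z) * y * (w * w) := by group
      _ = (z * y) * y := by rw [sw, cy, mul_one]
      _ = z * (y * y) := by group
      _ = z := by rw [sy, mul_one]
  · calc w * y * x = z * (y * w) * x := by rw [hwy]
      _ = z * y * (w * x) := by group
      _ = z * y * (z * (x * w)) := by rw [hwx]
      _ = z * (y * z) * (x * w) := by group
      _ = z * (z * y) * (x * w) := by rw [cy]
      _ = (z * z) * (y * x) * w := by group
      _ = z * (x * y) * w := by rw [sz, one_mul, hyx]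
      _ = z * (x * y * w) := by group

namespace Tri

variable {G V : Type*} [Group G] [MulAction G V] {Γ : Tri G V}
variable {u v w a b c d p q s l m : V} {g h : G}

/-- central involutions at the vertices of type `τ` -/
structure Pts (Γ : Tri G V) (τ : Bool) (r : V → G) : Prop where
  ne : ∀ p, Γ.ty p = τ → r p ≠ 1
  sq : ∀ p, Γ.ty p = τ → r p * r p = 1
  fixp : ∀ p, Γ.ty p = τ → r p • p = p
  conj : ∀ (p : V) (g : G), Γ.ty p = τ → g * r p * g⁻¹ = r (g • p)
  mul : ∀ l p q s, Γ.A l p → Γ.A l q → Γ.A l s → p ≠ q → p ≠ s → q ≠ s → Γ.ty p = τ → r p * r q = r s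

namespace Pts

variable {τ : Bool} {r : V → G} (R : Pts Γ τ r)

include R

theorem inv (hp : Γ.ty p = τ) : (r p)⁻¹ = r p := inv_eq_of_mul_eq_one_left (R.sq p hp)

theorem comm (hp : Γ.ty p = τ) (hg : g • p = p) : g * r p = r p * g := by
  have := R.conj p g hp
  rw [hg] at this
  calc g * r p = (g * r p * g⁻¹) * g := by group
    _ = r p * g := by rw [this]

theorem inj (hp : Γ.A l p) (hq : Γ.A l q) (hty : Γ.ty p = τ) (h : r p = r q) : p = q := by
  by_contra hne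
  obtain ⟨s, hs, hsp, hsq, -⟩ := exists_third hp hq hne
  have h1 := R.mul l p q s hp hq hs hne hsp.symm hsq.symm hty
  rw [← h, R.sq p hty] at h1
  exact R.ne s (by rw [← hty]; exact (ty_eq_of_adj hs hp)) h1.symm

theorem fix_of_comm (hgl : g • l = l) (hp : Γ.A l p) (hty : Γ.ty p = τ) (h : g * r p = r p * g) : g • p = p := by
  have h1 := R.conj p g hty
  rw [h, mul_inv_cancel_right] at h1
  exact (R.inj hp (A_of_fix hgl hp) hty h1).symm

theorem comm_nbr (hp : Γ.A l p) (hq : Γ.A l q) (hty : Γ.ty p = τ) : r p * r q = r q * r p := by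
  by_cases hpq : p = q
  · rw [hpq]
  obtain ⟨s, hs, hsp, hsq, -⟩ := exists_third hp hq hpq
  have h1 := R.mul l p q s hp hq hs hpq hsp.symm hsq.symm hty
  have h2 := R.mul l q p s hq hp hs (Ne.symm hpq) hsq.symm hsp.symm (by rw [← hty]; exact ty_eq_of_adj hq hp)
  rw [h1, h2]

/-- `r p ∈ Q p` -/
theorem mem_Q_self (hty : Γ.ty p = τ) : r p ∈ Γ.Q p := by
  refine ⟨R.fixp p hty, fun l hl => ?_⟩
  by_contra hne
  have h1 := A_of_fix (R.fixp p hty) hl
  obtain ⟨c, hc, hcl, hcr, -⟩ := exists_third hl h1 (Ne.symm hne)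
  obtain ⟨g, hg1, hg2, hg3, -⟩ := Γ.swap hl h1 hc (Ne.symm hne) hcl.symm hcr.symm
  have h2 := R.comm hty hg1
  have h3 : g • r p • l = r p • l := by
    rw [← mul_smul, h2, mul_smul, hg2]
  rw [hg3] at h3
  exact hcr h3

/-- `r p ∈ Q l` -/
theorem mem_Q (hp : Γ.A l p) (hty : Γ.ty p = τ) : r p ∈ Γ.Q l := by
  have h1 : r p • l = l := (R.mem_Q_self hty).2 l (Γ.symm hp)
  refine ⟨h1, fun q hq => ?_⟩
  exact R.fix_of_comm h1 hq (by rw [← hty]; exact ty_eq_of_adj hq hp) (R.comm_nbr hp hq hty)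

/-- the image of a neighbour under an element fixing `l` and `p` -/
theorem conj_cases (hp : Γ.A l p) (hq : Γ.A l q) (hpq : p ≠ q) (hty : Γ.ty p = τ) (hgl : g • l = l)
    (hgp : g • p = p) : (g • q = q ∧ g * r q = r q * g) ∨ (g • q ≠ q ∧ g * r q * g⁻¹ = r p * r q) := by
  have htyq : Γ.ty q = τ := by rw [← hty]; exact ty_eq_of_adj hq hp
  by_cases h1 : g • q = q
  · exact Or.inl ⟨h1, R.comm htyq h1⟩
  · right
    refine ⟨h1, ?_⟩
    rw [R.conj q g htyq, R.mul l p q (g • q) hp hq (A_of_fix hgl hq) hpq _ (Ne.symm h1) hty]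
    intro h2
    apply hpq
    apply MulAction.injective g
    show g • p = g • q
    rw [hgp]; exact h2

end Pts

section BTwo

variable {τ : Bool} {r : V → G} (H : NP Γ) (R : Pts Γ τ r)
  (hb : ∀ l p q, Γ.A l p → Γ.A l q → Γ.ty p = τ → r q ∈ Γ.Q p)
  (hc : ∀ p l m q s, Γ.A p l → Γ.A p m → l ≠ m → Γ.A l q → q ≠ p → Γ.A m s → s ≠ p → Γ.ty p = τ →
    r q * r s ≠ r s * r q)

include R hb hc

theorem btwo_rel (hl : Γ.A p l) (hm : Γ.A p m) (hlm : l ≠ m) (hq : Γ.A l q) (hqp : q ≠ p) (hs : Γ.A m s)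
    (hsp : s ≠ p) (hty : Γ.ty p = τ) : r s * r q = r p * (r q * r s) := by
  have htyq : Γ.ty q = τ := by rw [← hty]; exact ty_eq_of_adj hq (Γ.symm hl)
  have h1 : r s ∈ Γ.Q p := hb m p s (Γ.symm hm) hs hty
  rcases R.conj_cases (Γ.symm hl) hq hqp.symm hty (h1.2 l hl) h1.1 with ⟨-, h2⟩ | ⟨-, h2⟩
  · exact absurd h2.symm (hc p l m q s hl hm hlm hq hqp hs hsp hty)
  · calc r s * r q = (r s * r q * (r s)⁻¹) * r s := by group
      _ = r p * (r q * r s) := by rw [h2]; group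

/-- facts on the element of order four -/
theorem btwo_y {l1 l2 l3 q1 q2 q3 : V} (h1 : Γ.A p l1) (h2 : Γ.A p l2) (h3 : Γ.A p l3) (h12 : l1 ≠ l2)
    (h13 : l1 ≠ l3) (h23 : l2 ≠ l3) (k1 : Γ.A l1 q1) (k2 : Γ.A l2 q2) (k3 : Γ.A l3 q3) (n1 : q1 ≠ p)
    (n2 : q2 ≠ p) (n3 : q3 ≠ p) (hty : Γ.ty p = τ) :
    (r q1 * r q2 * r q3) * (r q1 * r q2 * r q3) = r p ∧ (r q1 * r q2 * r q3) ∈ Γ.D p ∧
      r q3 * r q2 * r q1 = r p * (r q1 * r q2 * r q3) := by
  have t1 : Γ.ty q1 = τ := by rw [← hty]; exact ty_eq_of_adj k1 (Γ.symm h1)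
  have t2 : Γ.ty q2 = τ := by rw [← hty]; exact ty_eq_of_adj k2 (Γ.symm h2)
  have t3 : Γ.ty q3 = τ := by rw [← hty]; exact ty_eq_of_adj k3 (Γ.symm h3)
  obtain ⟨e1, e2, e3, e4, e5⟩ := three_elts (R.sq q1 t1) (R.sq q2 t2) (R.sq q3 t3) (R.sq p hty)
    (R.comm_nbr (Γ.symm h1) k1 hty) (R.comm_nbr (Γ.symm h2) k2 hty) (R.comm_nbr (Γ.symm h3) k3 hty)
    (btwo_rel R hb hc h1 h2 h12 k1 n1 k2 n2 hty) (btwo_rel R hb hc h1 h3 h13 k1 n1 k3 n3 hty)
    (btwo_rel R hb hc h2 h3 h23 k2 n2 k3 n3 hty)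
  have m1 := hb l1 p q1 (Γ.symm h1) k1 hty
  have m2 := hb l2 p q2 (Γ.symm h2) k2 hty
  have m3 := hb l3 p q3 (Γ.symm h3) k3 hty
  have m : r q1 * r q2 * r q3 ∈ Γ.Q p := mul_mem (mul_mem m1 m2) m3
  refine ⟨e1, ⟨m, fun x hx => ?_⟩, e5⟩
  rcases eq_or h1 h2 h3 hx h12 h13 h23 with rfl | rfl | rfl
  · exact mem_Q_of_two (m.2 _ hx) (Γ.symm hx) k1 n1.symm m.1 (R.fix_of_comm (m.2 _ hx) k1 t1 e2)
  · exact mem_Q_of_two (m.2 _ hx) (Γ.symm hx) k2 n2.symm m.1 (R.fix_of_comm (m.2 _ hx) k2 t2 e3)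
  · exact mem_Q_of_two (m.2 _ hx) (Γ.symm hx) k3 n3.symm m.1 (R.fix_of_comm (m.2 _ hx) k3 t3 e4)

/-- Claim 1 -/
theorem btwo_not_mem {l1 l2 l3 q1 q2 q3 : V} (h1 : Γ.A p l1) (h2 : Γ.A p l2) (h3 : Γ.A p l3) (h12 : l1 ≠ l2)
    (h13 : l1 ≠ l3) (h23 : l2 ≠ l3) (k1 : Γ.A l1 q1) (k2 : Γ.A l2 q2) (k3 : Γ.A l3 q3) (n1 : q1 ≠ p)
    (n2 : q2 ≠ p) (n3 : q3 ≠ p) (hty : Γ.ty p = τ) : (r q1 * r q2 * r q3) ∉ Γ.Q q2 := by
  intro hy
  obtain ⟨e1, e2, -⟩ := btwo_y R hb hc h1 h2 h3 h12 h13 h23 k1 k2 k3 n1 n2 n3 hty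
  set y := r q1 * r q2 * r q3 with hydef
  have t2 : Γ.ty q2 = τ := by rw [← hty]; exact ty_eq_of_adj k2 (Γ.symm h2)
  obtain ⟨l4, h4, h42⟩ := exists_ne (Γ.symm k2)
  obtain ⟨q4, k4, n4⟩ := exists_ne (Γ.symm h4)
  have t4 : Γ.ty q4 = τ := by rw [← t2]; exact ty_eq_of_adj k4 (Γ.symm h4)
  have m4 : r q4 ∈ Γ.Q q2 := hb l4 q2 q4 (Γ.symm h4) k4 t2
  have hmv : r q4 • p ≠ p := by
    intro h5
    exact hc q2 l2 l4 p q4 (Γ.symm k2) h4 h42.symm (Γ.symm h2) n2.symm k4 n4 t2 (R.comm hty h5).symm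
  have hcy : r q2 * y = y * r q2 := (R.comm t2 hy.1).symm
  have hc4 : r q2 * r q4 = r q4 * r q2 := R.comm_nbr (Γ.symm h4) k4 t2
  have key : r q4 * (y * y) * (r q4)⁻¹ = y * y := by
    rcases R.conj_cases (Γ.symm h4) k4 n4.symm t2 (hy.2 l4 h4) hy.1 with ⟨-, h5⟩ | ⟨-, h5⟩
    · calc r q4 * (y * y) * (r q4)⁻¹ = (r q4 * y) * y * (r q4)⁻¹ := by group
        _ = (y * r q4) * y * (r q4)⁻¹ := by rw [h5]
        _ = y * (r q4 * y) * (r q4)⁻¹ := by group
        _ = y * (y * r q4) * (r q4)⁻¹ := by rw [h5]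
        _ = y * y := by group
    · have h6 : y * r q4 = r q2 * r q4 * y := by rw [← h5]; group
      have h7 : r q4 * y = r q2 * y * r q4 := by
        calc r q4 * y = (r q2 * r q2) * r q4 * y := by rw [R.sq q2 t2, one_mul]
          _ = r q2 * (r q2 * r q4 * y) := by group
          _ = r q2 * y * r q4 := by rw [← h6]; group
      calc r q4 * (y * y) * (r q4)⁻¹ = (r q4 * y) * y * (r q4)⁻¹ := by group
        _ = (r q2 * y * r q4) * y * (r q4)⁻¹ := by rw [h7]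
        _ = r q2 * y * (r q4 * y) * (r q4)⁻¹ := by group
        _ = r q2 * y * (r q2 * y * r q4) * (r q4)⁻¹ := by rw [h7]
        _ = r q2 * (y * r q2) * y := by group
        _ = (r q2 * r q2) * y * y := by rw [← hcy]; group
        _ = y * y := by rw [R.sq q2 t2, one_mul]
  rw [e1, R.conj p _ hty] at key
  exact hmv (R.inj (A_of_fix (m4.2 l2 (Γ.symm k2)) (Γ.symm h2)) (Γ.symm h2) (by rw [Γ.ty_smul]; exact hty) key)

omit hb hc in
/-- the centraliser of `D p` -/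
theorem cent_of_mod (hty : Γ.ty p = τ) {y : G} (hy : y • p = p) (hyQ : y ∉ Γ.Q p)
    (h : ∀ d ∈ Γ.D p, y * d * y⁻¹ = d ∨ y * d * y⁻¹ = r p * d) : ∃ g ∈ CC p (Γ.D p), g ∉ Γ.Q p := by
  have hz : r p * r p = 1 := R.sq p hty
  have hzc : ∀ g : G, g • p = p → g * r p = r p * g := fun g hg => R.comm hty hg
  let N : Subgroup G :=
    { carrier := {g | g • p = p ∧ ∀ d ∈ Γ.D p, g * d * g⁻¹ = d ∨ g * d * g⁻¹ = r p * d}
      one_mem' := ⟨one_smul _ _, fun d _ => Or.inl (by group)⟩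
      mul_mem' := by
        rintro g k ⟨hg, hg'⟩ ⟨hk, hk'⟩
        refine ⟨mul_fix hg hk, fun d hd => ?_⟩
        have e : g * k * d * (g * k)⁻¹ = g * (k * d * k⁻¹) * g⁻¹ := by group
        rw [e]
        rcases hk' d hd with h1 | h1
        · rw [h1]; exact hg' d hd
        · rw [h1]
          have e2 : g * (r p * d) * g⁻¹ = r p * (g * d * g⁻¹) := by
            calc g * (r p * d) * g⁻¹ = (g * r p) * d * g⁻¹ := by group
              _ = (r p * g) * d * g⁻¹ := by rw [hzc g hg]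
              _ = r p * (g * d * g⁻¹) := by group
          rw [e2]
          rcases hg' d hd with h2 | h2
          · right; rw [h2]
          · left; rw [h2, ← mul_assoc, hz, one_mul]
      inv_mem' := by
        rintro g ⟨hg, hg'⟩
        refine ⟨inv_fix hg, fun d hd => ?_⟩
        have h1 : g⁻¹ * d * g⁻¹⁻¹ ∈ Γ.D p := conj_mem_D_of_fix hd (inv_fix hg)
        have e : g * (g⁻¹ * d * g⁻¹⁻¹) * g⁻¹ = d := by group
        rcases hg' _ h1 with h2 | h2
        · left; rw [e] at h2; exact h2.symm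
        · right
          rw [e] at h2
          calc g⁻¹ * d * g⁻¹⁻¹ = (r p * r p) * (g⁻¹ * d * g⁻¹⁻¹) := by rw [hz, one_mul]
            _ = r p * (r p * (g⁻¹ * d * g⁻¹⁻¹)) := by group
            _ = r p * d := by rw [← h2] }
  obtain ⟨g, h1, h2, h3⟩ := exists_cent_of_sq (Γ := Γ) (v := p) (N := N) (C := Γ.D p) (fun n hn => hn.1)
    (fun g hg n hn => by
      refine ⟨mul_fix (mul_fix hg hn.1) (inv_fix hg), fun d hd => ?_⟩
      have h1 : g⁻¹ * d * g⁻¹⁻¹ ∈ Γ.D p := conj_mem_D_of_fix hd (inv_fix hg)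
      have e : g * n * g⁻¹ * d * (g * n * g⁻¹)⁻¹ = g * (n * (g⁻¹ * d * g⁻¹⁻¹) * n⁻¹) * g⁻¹ := by group
      rw [e]
      rcases hn.2 _ h1 with h2 | h2
      · left; rw [h2]; group
      · right
        rw [h2]
        calc g * (r p * (g⁻¹ * d * g⁻¹⁻¹)) * g⁻¹ = (g * r p) * g⁻¹ * d := by group
          _ = (r p * g) * g⁻¹ * d := by rw [hzc g hg]
          _ = r p * d := by group)
    ⟨y, ⟨hy, h⟩, hyQ⟩
    (fun n hn d hd => by
      have e : n * n * d = (n * (n * d * n⁻¹) * n⁻¹) * (n * n) := by group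
      rw [e]
      rcases hn.2 d hd with h1 | h1
      · rw [h1, h1]
      · rw [h1]
        have e2 : n * (r p * d) * n⁻¹ = r p * (n * d * n⁻¹) := by
          calc n * (r p * d) * n⁻¹ = (n * r p) * d * n⁻¹ := by group
            _ = (r p * n) * d * n⁻¹ := by rw [hzc n hn.1]
            _ = r p * (n * d * n⁻¹) := by group
        rw [e2, h1, ← mul_assoc (r p), hz, one_mul])
  exact ⟨g, mem_CC.2 ⟨h1, h2⟩, h3⟩

/-- Claims 2 and 3 -/
theorem btwo_claims (hty : Γ.ty p = τ) (hl : Γ.A p l) {p3 : V} (h3 : Γ.A l p3) (hne : p3 ≠ p) :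
    (∃ g ∈ CC p (Γ.D p), g ∉ Γ.Q p) ∧
      ∃ m, Γ.A p3 m ∧ ∀ f ∈ Γ.D p, f ∈ Γ.Q p3 → f ∈ Γ.Q m → f ∈ Γ.D p3 := by
  have ty3 : Γ.ty p3 = τ := by rw [← hty]; exact ty_eq_of_adj h3 (Γ.symm hl)
  obtain ⟨l1, l3, hl1, hl3, nl1, nl3, nl13, -⟩ := exists_others hl
  obtain ⟨q1, k1, n1⟩ := exists_ne (Γ.symm hl1)
  obtain ⟨q3, k3, n3⟩ := exists_ne (Γ.symm hl3)
  obtain ⟨m1, m3, hm1, hm3, nm1, nm3, nm13, -⟩ := exists_others (Γ.symm h3)
  obtain ⟨s1, j1, i1⟩ := exists_ne (Γ.symm hm1)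
  obtain ⟨s3, j3, i3⟩ := exists_ne (Γ.symm hm3)
  have ty1 : Γ.ty q1 = τ := by rw [← hty]; exact ty_eq_of_adj k1 (Γ.symm hl1)
  have tyq3 : Γ.ty q3 = τ := by rw [← hty]; exact ty_eq_of_adj k3 (Γ.symm hl3)
  have tys1 : Γ.ty s1 = τ := by rw [← ty3]; exact ty_eq_of_adj j1 (Γ.symm hm1)
  have tys3 : Γ.ty s3 = τ := by rw [← ty3]; exact ty_eq_of_adj j3 (Γ.symm hm3)
  obtain ⟨a1, a2, a3⟩ := btwo_y R hb hc hl1 hl hl3 nl1 nl13 nl3.symm k1 h3 k3 n1 hne n3 hty
  obtain ⟨b1, b2, b3⟩ := btwo_y R hb hc hm1 (Γ.symm h3) hm3 nm1 nm13 nm3.symm j1 (Γ.symm hl) j3 i1 hne.symm i3 ty3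
  have a4 := btwo_not_mem R hb hc hl1 hl hl3 nl1 nl13 nl3.symm k1 h3 k3 n1 hne n3 hty
  have b4 := btwo_not_mem R hb hc hm1 (Γ.symm h3) hm3 nm1 nm13 nm3.symm j1 (Γ.symm hl) j3 i1 hne.symm i3 ty3
  set y1 := r q1 * r p3 * r q3 with hy1
  set y3 := r s1 * r p * r s3 with hy3
  have hy3l : y3 ∈ Γ.Q l := b2.2 l (Γ.symm h3)
  have hy3p : y3 • p = p := hy3l.2 p (Γ.symm hl)
  have hcz : y3 * r p3 = r p3 * y3 := R.comm ty3 b2.1.1
  have hcp : r p * r p3 = r p3 * r p := R.comm_nbr (Γ.symm hl) h3 hty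
  -- the contradiction
  have hcontra : ∀ f ∈ Γ.D p, f * y3 * f⁻¹ = r p3 * y3 → False := by
    intro f hf he
    have e1 : f * y3 = r p3 * y3 * f := by rw [← he]; group
    have h4 : y3⁻¹ * f * y3⁻¹⁻¹ ∈ Γ.D p := conj_mem_D_of_fix hf (inv_fix hy3p)
    have e2 : y3⁻¹ * f * y3⁻¹⁻¹ = r p3 * f := by
      calc y3⁻¹ * f * y3⁻¹⁻¹ = y3⁻¹ * (f * y3) := by group
        _ = y3⁻¹ * (r p3 * y3 * f) := by rw [e1]
        _ = y3⁻¹ * (r p3 * y3) * f := by group
        _ = y3⁻¹ * (y3 * r p3) * f := by rw [hcz]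
        _ = r p3 * f := by group
    rw [e2] at h4
    have h5 : r p3 ∈ Γ.D p := (mul_mem_cancel_right hf).1 h4
    have h6 : r p3 • q1 = q1 := (h5.2 l1 hl1).2 q1 k1
    exact hc p l1 l q1 p3 hl1 hl nl1 k1 n1 h3 hne hty (R.comm ty1 h6).symm
  -- claim 2
  have hclaim : ∀ f ∈ Γ.D p, f ∈ Γ.Q p3 → f * y3 = y3 * f ∧ (f ∈ Γ.Q m1 → f ∈ Γ.D p3) := by
    intro f hf hf3
    have c0 : f * r p = r p * f := R.comm hty hf.1.1
    have c1 := R.conj_cases (Γ.symm hm1) j1 i1.symm ty3 (hf3.2 m1 hm1) hf3.1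
    have c3 := R.conj_cases (Γ.symm hm3) j3 i3.symm ty3 (hf3.2 m3 hm3) hf3.1
    have cz1 : r s1 * r p3 = r p3 * r s1 := R.comm_nbr j1 (Γ.symm hm1) tys1
    have cz3 : r s3 * r p3 = r p3 * r s3 := R.comm_nbr j3 (Γ.symm hm3) tys3
    have e0 : f * y3 * f⁻¹ = (f * r s1 * f⁻¹) * (f * r p * f⁻¹) * (f * r s3 * f⁻¹) := by rw [hy3]; group
    have e0' : f * r p * f⁻¹ = r p := by rw [c0, mul_inv_cancel_right]
    rw [e0'] at e0
    rcases c1 with ⟨f1, c1⟩ | ⟨f1, c1⟩ <;> rcases c3 with ⟨f3, c3⟩ | ⟨f3, c3⟩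
    · constructor
      · calc f * y3 = (f * r s1) * r p * r s3 := by rw [hy3]; group
          _ = r s1 * (f * r p) * r s3 := by rw [c1]; group
          _ = r s1 * r p * (f * r s3) := by rw [c0]; group
          _ = y3 * f := by rw [c3, hy3]; group
      · intro _
        refine ⟨hf3, fun x hx => ?_⟩
        rcases eq_or hm1 (Γ.symm h3) hm3 hx nm1 nm13 nm3.symm with rfl | rfl | rfl
        · exact mem_Q_of_two (hf3.2 _ hx) (Γ.symm hx) j1 i1.symm hf3.1 f1
        · exact hf.2 _ hl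
        · exact mem_Q_of_two (hf3.2 _ hx) (Γ.symm hx) j3 i3.symm hf3.1 f3
    · exfalso
      apply hcontra f hf
      have c1' : f * r s1 * f⁻¹ = r s1 := by rw [c1, mul_inv_cancel_right]
      rw [e0, c1', c3]
      calc r s1 * r p * (r p3 * r s3) = r s1 * (r p * r p3) * r s3 := by group
        _ = (r s1 * r p3) * r p * r s3 := by rw [hcp]; group
        _ = r p3 * y3 := by rw [cz1, hy3]; group
    · exfalso
      apply hcontra f hf
      have c3' : f * r s3 * f⁻¹ = r s3 := by rw [c3, mul_inv_cancel_right]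
      rw [e0, c3', c1, hy3]; group
    · constructor
      · have e1 : f * y3 * f⁻¹ = y3 := by
          rw [e0, c1, c3]
          calc r p3 * r s1 * r p * (r p3 * r s3) = r p3 * r s1 * (r p * r p3) * r s3 := by group
            _ = r p3 * (r s1 * r p3) * r p * r s3 := by rw [hcp]; group
            _ = (r p3 * r p3) * r s1 * r p * r s3 := by rw [cz1]; group
            _ = y3 := by rw [R.sq p3 ty3, one_mul]
        calc f * y3 = (f * y3 * f⁻¹) * f := by group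
          _ = y3 * f := by rw [e1]
      · intro h4
        exact absurd (h4.2 s1 j1) f1
  refine ⟨?_, m1, hm1, fun f hf hf3 => (hclaim f hf hf3).2⟩
  -- claim 3
  have hcy : y3 * y1 * y3⁻¹ = y1 ∨ y3 * y1 * y3⁻¹ = r p * y1 := by
    have hsw := swap_of_not_mem hy3p hl hl1 hl3 nl1.symm nl3.symm nl13 hy3l.1 b4
    have hp3 : y3 • p3 = p3 := b2.1.1
    have e0 : y3 * y1 * y3⁻¹ = r (y3 • q1) * r p3 * r (y3 • q3) := by
      have e1 := R.conj q1 y3 ty1
      have e2 := R.conj p3 y3 ty3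
      have e3 := R.conj q3 y3 tyq3
      rw [hp3] at e2
      calc y3 * y1 * y3⁻¹ = (y3 * r q1 * y3⁻¹) * (y3 * r p3 * y3⁻¹) * (y3 * r q3 * y3⁻¹) := by rw [hy1]; group
        _ = _ := by rw [e1, e2, e3]
    have A1 : Γ.A l3 (y3 • q1) := by
      have := Γ.smul y3 k1
      rwa [hsw.1] at this
    have A3 : Γ.A l1 (y3 • q3) := by
      have := Γ.smul y3 k3
      rwa [hsw.2] at this
    have N1 : p ≠ y3 • q1 := by
      intro h; exact n1 (MulAction.injective y3 (h.symm.trans hy3p.symm))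
    have N3 : p ≠ y3 • q3 := by
      intro h; exact n3 (MulAction.injective y3 (h.symm.trans hy3p.symm))
    have B1 : r (y3 • q1) = r q3 ∨ r (y3 • q1) = r p * r q3 := by
      by_cases h : q3 = y3 • q1
      · left; rw [h]
      · right; exact (R.mul l3 p q3 _ (Γ.symm hl3) k3 A1 n3.symm N1 h hty).symm
    have B3 : r (y3 • q3) = r q1 ∨ r (y3 • q3) = r p * r q1 := by
      by_cases h : q1 = y3 • q3
      · left; rw [h]
      · right; exact (R.mul l1 p q1 _ (Γ.symm hl1) k1 A3 n1.symm N3 h hty).symm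
    have cq3 : r q3 * r p = r p * r q3 := R.comm_nbr k3 (Γ.symm hl3) tyq3
    have hzz : r p * r p = 1 := R.sq p hty
    rw [e0]
    rcases B1 with B1 | B1 <;> rcases B3 with B3 | B3
    · right; rw [B1, B3, a3]
    · left
      rw [B1, B3]
      calc r q3 * r p3 * (r p * r q1) = r q3 * (r p3 * r p) * r q1 := by group
        _ = (r q3 * r p) * r p3 * r q1 := by rw [← hcp]; group
        _ = r p * (r q3 * r p3 * r q1) := by rw [cq3]; group
        _ = (r p * r p) * y1 := by rw [a3]; group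
        _ = y1 := by rw [hzz, one_mul]
    · left
      rw [B1, B3]
      calc r p * r q3 * r p3 * r q1 = r p * (r q3 * r p3 * r q1) := by group
        _ = (r p * r p) * y1 := by rw [a3]; group
        _ = y1 := by rw [hzz, one_mul]
    · right
      rw [B1, B3]
      calc r p * r q3 * r p3 * (r p * r q1) = r p * r q3 * (r p3 * r p) * r q1 := by group
        _ = r p * (r q3 * r p) * r p3 * r q1 := by rw [← hcp]; group
        _ = (r p * r p) * (r q3 * r p3 * r q1) := by rw [cq3]; group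
        _ = r p * y1 := by rw [hzz, one_mul, a3]
  apply cent_of_mod R hty hy3p b4
  intro d hd
  by_cases hd3 : d ∈ Γ.Q p3
  · left
    have := (hclaim d hd hd3).1
    calc y3 * d * y3⁻¹ = (d * y3) * y3⁻¹ := by rw [this]
      _ = d := by group
  · have h4 : y1 * d ∈ Γ.Q p3 :=
      mul_mem_Q (Γ.symm h3) (Q_le_T' h3 (a2.2 l hl)) (Q_le_T' h3 (hd.2 l hl)) a4 hd3
    have h5 := (hclaim (y1 * d) (mul_mem a2 hd) h4).1
    have e1 : y3 * d * y3⁻¹ = (y3 * y1 * y3⁻¹)⁻¹ * (y1 * d) := by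
      calc y3 * d * y3⁻¹ = (y3 * y1 * y3⁻¹)⁻¹ * (y3 * (y1 * d)) * y3⁻¹ := by group
        _ = (y3 * y1 * y3⁻¹)⁻¹ * (y1 * d * y3) * y3⁻¹ := by rw [h5]
        _ = _ := by group
    rw [e1]
    rcases hcy with h6 | h6
    · left; rw [h6]; group
    · right
      rw [h6, mul_inv_rev, R.inv hty]
      have h7 : y1 * r p = r p * y1 := R.comm hty a2.1.1
      calc y1⁻¹ * r p * (y1 * d) = y1⁻¹ * (r p * y1) * d := by group
        _ = y1⁻¹ * (y1 * r p) * d := by rw [h7]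
        _ = r p * d := by group

include H

/-- the bound in the case of noncommuting four-groups at distance two -/
theorem btwo_card (hvw : Γ.A v w) : Nat.card (T v w : Subgroup G) ≤ 64 := by
  obtain ⟨p, hp⟩ : ∃ p, Γ.ty p = τ := by
    by_cases h : Γ.ty v = τ
    · exact ⟨v, h⟩
    · refine ⟨w, ?_⟩
      rw [Γ.ty_adj hvw]
      cases hv : Γ.ty v <;> cases τ <;> simp_all
  obtain ⟨l, hl⟩ := ex_adj Γ p
  obtain ⟨p3, h3, hne⟩ := exists_ne (Γ.symm hl)
  have ty3 : Γ.ty p3 = τ := by rw [← hp]; exact ty_eq_of_adj h3 (Γ.symm hl)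
  obtain ⟨hC, m, hm, hmf⟩ := btwo_claims R hb hc hp hl h3 hne
  obtain ⟨hC3, -⟩ := btwo_claims R hb hc ty3 (Γ.symm h3) (Γ.symm hl) hne.symm
  rw [card_T_eq hvw hl]
  let N : Subgroup G := Γ.D p ⊓ Γ.D p3
  have hN : ∀ n ∈ N, n = 1 := by
    apply two_bot H hl h3 hne.symm N (CC p (Γ.D p)) (CC p3 (Γ.D p3))
    · intro n hn
      exact ⟨hn.1.1.1, (hn.1.2 l hl).1, hn.2.1.1⟩
    · intro c hc; exact (mem_CC.1 hc).1
    · intro g hg c hc
      exact CC_normal (fun g hg n hn => conj_mem_D_of_fix hn hg) hg hc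
    · exact hC
    · intro c hc; exact (mem_CC.1 hc).1
    · intro g hg c hc
      exact CC_normal (fun g hg n hn => conj_mem_D_of_fix hn hg) hg hc
    · exact hC3
    · intro c hc n hn; exact (mem_CC.1 hc).2 n hn.1
    · intro c hc n hn; exact (mem_CC.1 hc).2 n hn.2
  let F : Subgroup G := Γ.Q p3 ⊓ Γ.D p
  have c0 : Nat.card ↥(Γ.Q m ⊓ F) ≤ 1 := by
    apply card_le_one_of_forall
    intro x hx
    exact hN x ⟨hx.2.2, hmf x hx.2.2 hx.2.1 hx.1⟩
  have f1 : ∀ L : Subgroup G, L ≤ Γ.Q p → Finite L := fun L hL => finSub Γ p fun x hx => (hL hx).1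
  have half1 : Half (Γ.Q m ⊓ F) F := by
    refine (half_Q' (Γ.symm hm)).inf_left (fun n hn => ?_)
    exact Q_le_T hm hn.1
  have half2 : Half F (Γ.D p) := (half_Q' (Γ.symm h3)).inf_left (fun n hn => Q_le_T h3 (hn.2 l hl))
  have c1 := card_le_two_of_forall _ half1 (f1 _ (fun x hx => hx.2.1)) c0
  have c2 := card_le_two_of_forall _ half2 (f1 _ (fun x hx => hx.1)) c1
  -- `Q p` over `D p`
  obtain ⟨a, b, ha, hb', hal, hbl, hab, hall⟩ := exists_others hl
  let E1 : Subgroup G := Γ.Q l ⊓ Γ.Q p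
  let E2 : Subgroup G := Γ.Q a ⊓ E1
  let E3 : Subgroup G := Γ.Q b ⊓ E2
  have c3 : Nat.card E3 ≤ 2 * (2 * 1) := by
    have hle : E3 ≤ Γ.D p := by
      intro x hx
      refine ⟨hx.2.2.2, fun y hy => ?_⟩
      rcases hall y hy with rfl | rfl | rfl
      · exact hx.2.2.1
      · exact hx.2.1
      · exact hx.1
    have : Finite (Γ.D p) := f1 _ (fun x hx => hx.1)
    exact (Nat.card_le_card_of_injective (Subgroup.inclusion hle) (Subgroup.inclusion_injective _)).trans c2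
  have e1 : Half E1 (Γ.Q p) := (half_Q' (Γ.symm hl)).inf_left (Q_le_T hl)
  have e2 : Half E2 E1 := (half_Q' (Γ.symm ha)).inf_left (fun n hn => Q_le_T ha hn.2)
  have e3 : Half E3 E2 := (half_Q' (Γ.symm hb')).inf_left (fun n hn => Q_le_T hb' hn.2.2)
  have c4 := card_le_two_of_forall _ e3 (f1 _ (fun x hx => hx.2.2)) c3
  have c5 := card_le_two_of_forall _ e2 (f1 _ (fun x hx => hx.2)) c4
  have c6 := card_le_two_of_forall _ e1 (f1 _ le_rfl) c5
  have c7 := card_T_le hl c6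
  omega

end BTwo

end Tri

end Cfsg.Agent.H209
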