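import Mathlib

/-!
# Edge-transitive groups on trivalent bipartite graphs (for Goldschmidt's bound)

`Tri G V`: a bipartite graph on the `G`-set `V`, every vertex has exactly three neighbours, the stabilizer of a
vertex induces the full symmetric group on them, the graph is connected, `G` is faithful and transitive on the
edges (preserving types), the vertex stabilizers are finite and the edge stabilizers are 2-groups.

* `Γ.Q v`: the kernel of the action of `G_v` on the neighbours of `v`;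
* `Γ.closure_bot`: the basic tool: a subgroup `N` fixing a set `P` of vertices, such that every neighbour of a
  vertex of `P` is of the form `g • p'` with `p' ∈ P`, `g⁻¹ N g ≤ N`, is trivial.
-/

set_option autoImplicit false

namespace Cfsg.Agent.H209

open MulAction

/-- An edge-transitive action on a connected trivalent bipartite graph. -/
structure Tri (G V : Type*) [Group G] [MulAction G V] where
  /-- adjacency -/
  A : V → V → Prop
  /-- type of a vertex -/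
  ty : V → Bool
  symm : ∀ {v w : V}, A v w → A w v
  smul : ∀ (g : G) {v w : V}, A v w → A (g • v) (g • w)
  ty_smul : ∀ (g : G) (v : V), ty (g • v) = ty v
  ty_adj : ∀ {v w : V}, A v w → ty w = !(ty v)
  trans : ∀ {v w v' w' : V}, A v w → A v' w' → ty v = ty v' → ∃ g : G, g • v = v' ∧ g • w = w'
  three : ∀ v : V, ∃ a b c : V, A v a ∧ A v b ∧ A v c ∧ a ≠ b ∧ a ≠ c ∧ b ≠ c ∧ ∀ w, A v w → w = a ∨ w = b ∨ w = c
  swap : ∀ {v a b c : V}, A v a → A v b → A v c → a ≠ b → a ≠ c → b ≠ c →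
    ∃ g : G, g • v = v ∧ g • a = a ∧ g • b = c ∧ g • c = b
  conn : ∀ S : Set V, S.Nonempty → (∀ v ∈ S, ∀ w, A v w → w ∈ S) → ∀ v, v ∈ S
  faith : ∀ g : G, (∀ v : V, g • v = v) → g = 1
  fin : ∀ v : V, Finite ↥(stabilizer G v)
  two : ∀ {v w : V}, A v w → IsPGroup 2 ↥(stabilizer G v ⊓ stabilizer G w)

namespace Tri

variable {G V : Type*} [Group G] [MulAction G V] (Γ : Tri G V)

section Basic

variable {Γ} {u v w a b c d : V} {g h : G}

theorem smul_iff (g : G) : Γ.A (g • v) (g • w) ↔ Γ.A v w := by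
  constructor
  · intro h
    have := Γ.smul g⁻¹ h
    rwa [inv_smul_smul, inv_smul_smul] at this
  · exact fun h => Γ.smul g h

theorem A_of_fix (hg : g • v = v) (h : Γ.A v w) : Γ.A v (g • w) := by
  have := Γ.smul g h
  rwa [hg] at this

theorem inv_fix (hg : g • v = v) : g⁻¹ • v = v := by
  rw [inv_smul_eq_iff]; exact hg.symm

theorem mul_fix (hg : g • v = v) (hh : h • v = v) : (g * h) • v = v := by
  rw [mul_smul, hh, hg]

theorem ne_of_adj (h : Γ.A v w) : v ≠ w := by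
  rintro rfl
  have := Γ.ty_adj h
  cases hv : Γ.ty v <;> simp [hv] at this

theorem ty_eq_of_adj (h1 : Γ.A v a) (h2 : Γ.A v b) : Γ.ty a = Γ.ty b := by
  rw [Γ.ty_adj h1, Γ.ty_adj h2]

/-- two different neighbours have a third one -/
theorem exists_third (ha : Γ.A v a) (hb : Γ.A v b) (hab : a ≠ b) :
    ∃ c, Γ.A v c ∧ c ≠ a ∧ c ≠ b ∧ ∀ w, Γ.A v w → w = a ∨ w = b ∨ w = c := by
  obtain ⟨x, y, z, hx, hy, hz, hxy, hxz, hyz, hall⟩ := Γ.three v
  rcases hall a ha with rfl | rfl | rfl <;> rcases hall b hb with rfl | rfl | rfl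
  · exact absurd rfl hab
  · exact ⟨z, hz, hxz.symm, hyz.symm, hall⟩
  · refine ⟨y, hy, hxy.symm, hyz, fun w hw => ?_⟩
    rcases hall w hw with h | h | h <;> tauto
  · refine ⟨z, hz, hyz.symm, hxz.symm, fun w hw => ?_⟩
    rcases hall w hw with h | h | h <;> tauto
  · exact absurd rfl hab
  · refine ⟨x, hx, hxy, hxz, fun w hw => ?_⟩
    rcases hall w hw with h | h | h <;> tauto
  · refine ⟨y, hy, hyz, hxy.symm, fun w hw => ?_⟩
    rcases hall w hw with h | h | h <;> tauto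
  · refine ⟨x, hx, hxz, hxy, fun w hw => ?_⟩
    rcases hall w hw with h | h | h <;> tauto
  · exact absurd rfl hab

/-- the other two neighbours -/
theorem exists_others (ha : Γ.A v a) :
    ∃ b c, Γ.A v b ∧ Γ.A v c ∧ b ≠ a ∧ c ≠ a ∧ b ≠ c ∧ ∀ w, Γ.A v w → w = a ∨ w = b ∨ w = c := by
  obtain ⟨x, y, z, hx, hy, hz, hxy, hxz, hyz, hall⟩ := Γ.three v
  rcases hall a ha with rfl | rfl | rfl
  · exact ⟨y, z, hy, hz, hxy.symm, hxz.symm, hyz, hall⟩
  · refine ⟨x, z, hx, hz, hxy, hyz.symm, hxz, fun w hw => ?_⟩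
    rcases hall w hw with h | h | h <;> tauto
  · refine ⟨x, y, hx, hy, hxz, hyz, hxy, fun w hw => ?_⟩
    rcases hall w hw with h | h | h <;> tauto

theorem exists_ne (ha : Γ.A v a) : ∃ b, Γ.A v b ∧ b ≠ a := by
  obtain ⟨b, c, hb, -, hba, -⟩ := exists_others ha
  exact ⟨b, hb, hba⟩

/-- the third neighbour is determined -/
theorem third_unique (ha : Γ.A v a) (hb : Γ.A v b) (hc : Γ.A v c) (hd : Γ.A v d) (hab : a ≠ b)
    (hca : c ≠ a) (hcb : c ≠ b) (hda : d ≠ a) (hdb : d ≠ b) : c = d := by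
  obtain ⟨x, hx, hxa, hxb, hall⟩ := exists_third ha hb hab
  rcases hall c hc with h | h | h
  · exact absurd h hca
  · exact absurd h hcb
  rcases hall d hd with h' | h' | h'
  · exact absurd h' hda
  · exact absurd h' hdb
  rw [h, h']

/-- a third neighbour equals one of the two others -/
theorem eq_or (ha : Γ.A v a) (hb : Γ.A v b) (hc : Γ.A v c) (hd : Γ.A v d) (hab : a ≠ b)
    (hac : a ≠ c) (hbc : b ≠ c) : d = a ∨ d = b ∨ d = c := by
  by_cases h1 : d = a
  · exact Or.inl h1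
  by_cases h2 : d = b
  · exact Or.inr (Or.inl h2)
  · exact Or.inr (Or.inr (third_unique ha hb hd hc hab h1 h2 hac.symm hbc.symm))

end Basic

/-- the kernel of the action on the neighbours -/
def Q (v : V) : Subgroup G where
  carrier := {g | g • v = v ∧ ∀ w, Γ.A v w → g • w = w}
  mul_mem' := by
    rintro g h ⟨hg, hg'⟩ ⟨hh, hh'⟩
    refine ⟨mul_fix hg hh, fun w hw => ?_⟩
    exact mul_fix (hg' w hw) (hh' w hw)
  one_mem' := ⟨one_smul _ _, fun w _ => one_smul _ _⟩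
  inv_mem' := by
    rintro g ⟨hg, hg'⟩
    exact ⟨inv_fix hg, fun w hw => inv_fix (hg' w hw)⟩

/-- the stabilizer of an edge -/
def T (v w : V) : Subgroup G := stabilizer G v ⊓ stabilizer G w

section QLemmas

variable {Γ} {u v w a b c d : V} {g h : G}

theorem mem_Q : g ∈ Γ.Q v ↔ g • v = v ∧ ∀ w, Γ.A v w → g • w = w := Iff.rfl

omit Γ in
theorem mem_T : g ∈ (T v w : Subgroup G) ↔ g • v = v ∧ g • w = w := by
  unfold T; rw [Subgroup.mem_inf, mem_stabilizer_iff, mem_stabilizer_iff]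

omit Γ in
theorem T_comm (v w : V) : (T v w : Subgroup G) = T w v := inf_comm _ _

theorem Q_fix (hg : g ∈ Γ.Q v) : g • v = v := hg.1

theorem Q_fix' (hg : g ∈ Γ.Q v) (hw : Γ.A v w) : g • w = w := hg.2 w hw

theorem Q_le_T (hw : Γ.A v w) : Γ.Q v ≤ T v w := fun _ hg => mem_T.2 ⟨hg.1, hg.2 w hw⟩

theorem Q_le_T' (hw : Γ.A v w) : Γ.Q v ≤ T w v := by
  rw [T_comm]; exact Q_le_T hw

theorem mem_Q_smul : g ∈ Γ.Q (h • v) ↔ h⁻¹ * g * h ∈ Γ.Q v := by
  rw [mem_Q, mem_Q]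
  constructor
  · rintro ⟨h1, h2⟩
    refine ⟨?_, fun w hw => ?_⟩
    · rw [mul_smul, mul_smul, h1, inv_smul_smul]
    · rw [mul_smul, mul_smul, h2 _ (Γ.smul h hw), inv_smul_smul]
  · rintro ⟨h1, h2⟩
    refine ⟨?_, fun w hw => ?_⟩
    · rw [mul_smul, mul_smul, inv_smul_eq_iff] at h1; exact h1
    · have h3 : Γ.A v (h⁻¹ • w) := by
        have := Γ.smul h⁻¹ hw
        rwa [inv_smul_smul] at this
      have := h2 _ h3
      rw [mul_smul, mul_smul, inv_smul_eq_iff, smul_inv_smul] at this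
      exact this

theorem conj_mem_Q (hg : g ∈ Γ.Q v) (h : G) : h * g * h⁻¹ ∈ Γ.Q (h • v) := by
  rw [mem_Q_smul]
  simpa [mul_assoc] using hg

theorem conj_mem_Q_of_fix (hg : g ∈ Γ.Q v) (hh : h • v = v) : h * g * h⁻¹ ∈ Γ.Q v := by
  have := conj_mem_Q hg h
  rwa [hh] at this

theorem conj_mem_Q_of_eq (hg : g ∈ Γ.Q v) (hh : h • v = w) : h * g * h⁻¹ ∈ Γ.Q w := by
  have := conj_mem_Q hg h
  rwa [hh] at this

/-- conjugates of elements fixing a vertex -/
theorem conj_fix (hg : g • v = v) (h : G) : (h * g * h⁻¹) • (h • v) = h • v := by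
  rw [mul_smul, mul_smul, inv_smul_smul, hg]

theorem conj_fix_of_eq (hg : g • v = v) (hh : h • v = w) : (h * g * h⁻¹) • w = w := by
  rw [← hh]; exact conj_fix hg h

/-- an element fixing `v` and two of its neighbours is in `Q v` -/
theorem mem_Q_of_two (hv : g • v = v) (ha : Γ.A v a) (hb : Γ.A v b) (hab : a ≠ b) (hga : g • a = a)
    (hgb : g • b = b) : g ∈ Γ.Q v := by
  refine ⟨hv, fun w hw => ?_⟩
  obtain ⟨c, hc, hca, hcb, hall⟩ := exists_third ha hb hab
  rcases hall w hw with rfl | rfl | rfl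
  · exact hga
  · exact hgb
  · apply (third_unique ha hb hc (A_of_fix hv hc) hab hca hcb _ _).symm
    · intro h; apply hca; rw [← hga] at h; exact (MulAction.injective g h)
    · intro h; apply hcb; rw [← hgb] at h; exact (MulAction.injective g h)

/-- an element fixing `v` and one neighbour, not in `Q v`, swaps the other two -/
theorem swap_of_not_mem (hv : g • v = v) (ha : Γ.A v a) (hb : Γ.A v b) (hc : Γ.A v c) (hab : a ≠ b)
    (hac : a ≠ c) (hbc : b ≠ c) (hga : g • a = a) (hg : g ∉ Γ.Q v) : g • b = c ∧ g • c = b := by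
  have h1 : g • b ≠ a := fun h => hab (MulAction.injective g (h.trans hga.symm)).symm
  have h2 : g • b ≠ b := fun h => hg (mem_Q_of_two hv ha hb hab hga h)
  have h3 : g • c ≠ a := fun h => hac (MulAction.injective g (h.trans hga.symm)).symm
  have h4 : g • c ≠ c := fun h => hg (mem_Q_of_two hv ha hc hac hga h)
  refine ⟨third_unique ha hb (A_of_fix hv hb) hc hab h1 h2 hac.symm hbc.symm,
    third_unique ha hc (A_of_fix hv hc) hb hac h3 h4 hab.symm hbc⟩

/-- two elements of the edge stabilizer outside `Q v` have their product in `Q v` -/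
theorem mul_mem_Q (ha : Γ.A v a) (hg : g ∈ (T v a : Subgroup G)) (hh : h ∈ (T v a : Subgroup G)) (hgQ : g ∉ Γ.Q v)
    (hhQ : h ∉ Γ.Q v) : g * h ∈ Γ.Q v := by
  obtain ⟨hg1, hg2⟩ := mem_T.1 hg
  obtain ⟨hh1, hh2⟩ := mem_T.1 hh
  obtain ⟨b, c, hb, hc, hba, hca, hbc, -⟩ := exists_others ha
  have h1 := swap_of_not_mem hg1 ha hb hc hba.symm hca.symm hbc hg2 hgQ
  have h2 := swap_of_not_mem hh1 ha hb hc hba.symm hca.symm hbc hh2 hhQ
  refine mem_Q_of_two (mul_fix hg1 hh1) ha hb hba.symm (mul_fix hg2 hh2) ?_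
  rw [mul_smul, h2.1, h1.2]

/-- the stabilizer of a vertex is transitive on pairs of different neighbours -/
theorem exists_two_trans (ha : Γ.A v a) (hb : Γ.A v b) (hc : Γ.A v c) (hd : Γ.A v d) (hab : a ≠ b)
    (hcd : c ≠ d) : ∃ g : G, g • v = v ∧ g • a = c ∧ g • b = d := by
  obtain ⟨x, hx, hxa, hxb, hall⟩ := exists_third ha hb hab
  -- first map `a` to `c`
  have h1 : ∃ g : G, g • v = v ∧ g • a = c := by
    obtain ⟨g, h1, h2⟩ := Γ.trans ha hc rfl
    exact ⟨g, h1, h2⟩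
  obtain ⟨g, hgv, hga⟩ := h1
  by_cases h2 : g • b = d
  · exact ⟨g, hgv, hga, h2⟩
  · have h3 : g • b ≠ c := fun h => hab (MulAction.injective g (h.trans hga.symm)).symm
    obtain ⟨k, hkv, hkc, hkb, -⟩ := Γ.swap hc (A_of_fix hgv hb) hd h3.symm hcd h2
    exact ⟨k * g, mul_fix hkv hgv, by rw [mul_smul, hga, hkc], by rw [mul_smul, hkb]⟩

theorem exists_trans (ha : Γ.A v a) (hb : Γ.A v b) : ∃ g : G, g • v = v ∧ g • a = b := by
  obtain ⟨g, h1, h2⟩ := Γ.trans ha hb rfl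
  exact ⟨g, h1, h2⟩

/-- the edge stabilizer swaps the other two neighbours -/
theorem exists_T_not_mem_Q (ha : Γ.A v a) : ∃ g ∈ (T v a : Subgroup G), g ∉ Γ.Q v := by
  obtain ⟨b, c, hb, hc, hba, hca, hbc, -⟩ := exists_others ha
  obtain ⟨g, h1, h2, h3, -⟩ := Γ.swap ha hb hc hba.symm hca.symm hbc
  refine ⟨g, mem_T.2 ⟨h1, h2⟩, fun hQ => hbc ?_⟩
  rw [← h3, hQ.2 b hb]

/-- a normal subgroup of the stabilizer of `v` is in `Q v` or transitive on the neighbours -/
theorem normal_trans {N : Subgroup G} (hNv : ∀ n ∈ N, n • v = v)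
    (hN : ∀ g : G, g • v = v → ∀ n ∈ N, g * n * g⁻¹ ∈ N) (hne : ∃ n ∈ N, n ∉ Γ.Q v) (ha : Γ.A v a)
    (hb : Γ.A v b) : ∃ n ∈ N, n • a = b := by
  obtain ⟨n, hn, hnQ⟩ := hne
  -- `n` moves some neighbour
  have h1 : ∃ x, Γ.A v x ∧ n • x ≠ x := by
    by_contra hcon
    push Not at hcon
    exact hnQ ⟨hNv n hn, hcon⟩
  obtain ⟨x, hx, hnx⟩ := h1
  by_cases hab : a = b
  · exact ⟨1, one_mem _, by rw [one_smul, hab]⟩
  obtain ⟨g, hgv, hgx, hgy⟩ := exists_two_trans hx (A_of_fix (hNv n hn) hx) ha hb hnx.symm hab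
  refine ⟨g * n * g⁻¹, hN g hgv n hn, ?_⟩
  rw [mul_smul, mul_smul, ← hgx, inv_smul_smul, hgy]

/-- **Closure lemma.** -/
theorem closure_bot (Γ : Tri G V) (N : Subgroup G) (P : Set V) (hne : P.Nonempty)
    (hfix : ∀ p ∈ P, ∀ n ∈ N, n • p = p)
    (hcl : ∀ p ∈ P, ∀ w, Γ.A p w → ∃ g : G, (∀ n ∈ N, g⁻¹ * n * g ∈ N) ∧ ∃ p' ∈ P, g • p' = w) :
    ∀ n ∈ N, n = 1 := by
  have key : ∀ v, v ∈ {v : V | ∃ g : G, (∀ n ∈ N, g⁻¹ * n * g ∈ N) ∧ ∃ p ∈ P, g • p = v} := by
    apply Γ.conn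
    · obtain ⟨p, hp⟩ := hne
      exact ⟨p, 1, fun n hn => by simpa using hn, p, hp, one_smul _ _⟩
    · rintro v ⟨g, hg, p, hp, rfl⟩ w hw
      have h1 : Γ.A p (g⁻¹ • w) := by
        have := Γ.smul g⁻¹ hw
        rwa [inv_smul_smul] at this
      obtain ⟨k, hk, p', hp', h2⟩ := hcl p hp _ h1
      refine ⟨g * k, fun n hn => ?_, p', hp', ?_⟩
      · have := hk _ (hg n hn)
        simpa [mul_assoc] using this
      · rw [mul_smul, h2, smul_inv_smul]
  intro n hn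
  apply Γ.faith
  intro v
  obtain ⟨g, hg, p, hp, rfl⟩ := key v
  have h1 := hfix p hp _ (hg n hn)
  rw [mul_smul, mul_smul, inv_smul_eq_iff] at h1
  exact h1

/-- a subgroup of an edge stabilizer normalised by groups transitive on the neighbours of both ends -/
theorem edge_bot (Γ : Tri G V) {v w : V} (hvw : Γ.A v w) (N : Subgroup G) (hN : ∀ n ∈ N, n • v = v ∧ n • w = w)
    (h1 : ∀ a, Γ.A v a → ∃ g : G, (∀ n ∈ N, g⁻¹ * n * g ∈ N) ∧ g • w = a)
    (h2 : ∀ a, Γ.A w a → ∃ g : G, (∀ n ∈ N, g⁻¹ * n * g ∈ N) ∧ g • v = a) : ∀ n ∈ N, n = 1 := by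
  apply closure_bot Γ N {v, w} ⟨v, Or.inl rfl⟩
  · rintro p (rfl | rfl) n hn
    · exact (hN n hn).1
    · exact (hN n hn).2
  · rintro p (rfl | rfl) x hx
    · obtain ⟨g, hg, hgx⟩ := h1 x hx
      exact ⟨g, hg, w, Or.inr rfl, hgx⟩
    · obtain ⟨g, hg, hgx⟩ := h2 x hx
      exact ⟨g, hg, v, Or.inl rfl, hgx⟩

/-- `N` normal in `G_v` and centralised by a group which is transitive on the neighbours of `w` -/
theorem edge_cent_bot (Γ : Tri G V) {v w : V} (hvw : Γ.A v w) (N : Subgroup G)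
    (hN : ∀ n ∈ N, n • v = v ∧ n • w = w) (h1 : ∀ g : G, g • v = v → ∀ n ∈ N, g * n * g⁻¹ ∈ N)
    (h2 : ∀ a, Γ.A w a → ∃ g : G, (∀ n ∈ N, g * n = n * g) ∧ g • v = a) : ∀ n ∈ N, n = 1 := by
  apply edge_bot Γ hvw N hN
  · intro a ha
    obtain ⟨g, hgv, hga⟩ := exists_trans hvw ha
    refine ⟨g, fun n hn => ?_, hga⟩
    have := h1 g⁻¹ (inv_fix hgv) n hn
    rwa [inv_inv] at this
  · intro a ha
    obtain ⟨g, hg, hga⟩ := h2 a ha
    refine ⟨g, fun n hn => ?_, hga⟩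
    rw [mul_assoc, ← hg n hn, inv_mul_cancel_left]
    exact hn

/-- An equivariant family with `F a ≤ F b` for two neighbours `a ≠ b` of a vertex is trivial. -/
theorem fam_bot (Γ : Tri G V) {F : V → Subgroup G} (hF : ∀ (g : G) (v : V), ∀ x ∈ F v, g * x * g⁻¹ ∈ F (g • v))
    {v a b : V} (ha : Γ.A v a) (hb : Γ.A v b) (hab : a ≠ b) (hle : F a ≤ F b)
    (hfix : ∀ x ∈ F a, x • v = v ∧ x • a = a) : ∀ x ∈ F a, x = 1 := by
  have hle' : ∀ c d, Γ.A v c → Γ.A v d → c ≠ d → F c ≤ F d := by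
    intro c d hc hd hcd x hx
    obtain ⟨g, hgv, hgc, hgd⟩ := exists_two_trans ha hb hc hd hab hcd
    have h1 : g⁻¹ * x * g ∈ F a := by
      have := hF g⁻¹ c x hx
      rwa [inv_inv, ← hgc, inv_smul_smul] at this
    have h2 := hF g b _ (hle h1)
    rw [hgd] at h2
    simpa [mul_assoc] using h2
  have hall : ∀ c, Γ.A v c → ∀ x ∈ F a, x ∈ F c := by
    intro c hc x hx
    by_cases hac : a = c
    · rwa [← hac]
    · exact hle' a c ha hc hac hx
  have hall' : ∀ c, Γ.A v c → ∀ x ∈ F c, x ∈ F a := by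
    intro c hc x hx
    by_cases hac : a = c
    · rwa [hac]
    · exact hle' c a hc ha (Ne.symm hac) hx
  apply edge_bot Γ ha (F a) (fun n hn => hfix n hn)
  · intro c hc
    obtain ⟨g, hgv, hgc⟩ := exists_trans ha hc
    refine ⟨g, fun n hn => ?_, hgc⟩
    have h1 := hF g⁻¹ c n (hall c hc n hn)
    rwa [inv_inv, ← hgc, inv_smul_smul] at h1
  · intro c hc
    obtain ⟨g, hga, hgc⟩ := exists_trans (Γ.symm ha) hc
    refine ⟨g, fun n hn => ?_, hgc⟩
    have h1 := hF g⁻¹ a n hn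
    rwa [inv_inv, inv_fix hga] at h1

end QLemmas

end Tri

end Cfsg.Agent.H209
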