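import Cfsg.Agent.H209.TriBTwo

/-!
# The case where the involutions of `Z(T)` are not central in the vertex stabilizers (Case A)
-/

set_option autoImplicit false

namespace Cfsg.Agent.H209

open MulAction

namespace Tri

variable {G V : Type*} [Group G] [MulAction G V] {Γ : Tri G V}
variable {u v w a b c d : V} {g h : G}

omit Γ in
theorem conj_mem_OZ_T {x : G} (hx : x ∈ OZ (T v a : Subgroup G)) (h : G) :
    h * x * h⁻¹ ∈ OZ (T (h • v) (h • a) : Subgroup G) := by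
  obtain ⟨h1, h2, h3⟩ := hx
  refine ⟨?_, ?_, fun y hy => ?_⟩
  · rw [mem_T_smul]
    have : h⁻¹ * (h * x * h⁻¹) * h = x := by group
    rw [this]; exact h1
  · calc h * x * h⁻¹ * (h * x * h⁻¹) = h * (x * x) * h⁻¹ := by group
      _ = 1 := by rw [h2]; group
  · have h4 := h3 _ (mem_T_smul.1 hy)
    calc h * x * h⁻¹ * y = h * (x * (h⁻¹ * y * h)) * h⁻¹ := by group
      _ = h * ((h⁻¹ * y * h) * x) * h⁻¹ := by rw [h4]
      _ = y * (h * x * h⁻¹) := by group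

/-- `ZZ v = ⟨Ω₁ Z(T v a) | a ~ v⟩` -/
def ZZ (Γ : Tri G V) (v : V) : Subgroup G := Subgroup.closure {x | ∃ a, Γ.A v a ∧ x ∈ OZ (T v a : Subgroup G)}

theorem OZ_le_ZZ (ha : Γ.A v a) : OZ (T v a : Subgroup G) ≤ Γ.ZZ v := fun _ hx => Subgroup.subset_closure ⟨a, ha, hx⟩

theorem conj_mem_ZZ {x : G} (hx : x ∈ Γ.ZZ v) (h : G) : h * x * h⁻¹ ∈ Γ.ZZ (h • v) := by
  refine conj_mem_closure h ?_ hx
  rintro y ⟨a, ha, hy⟩
  exact Subgroup.subset_closure ⟨h • a, Γ.smul h ha, conj_mem_OZ_T hy h⟩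

theorem conj_mem_ZZ_of_eq {x : G} (hx : x ∈ Γ.ZZ v) (hh : h • v = w) : h * x * h⁻¹ ∈ Γ.ZZ w := by
  have := conj_mem_ZZ hx h
  rwa [hh] at this

theorem ZZ_comm {x d : G} (hx : x ∈ Γ.ZZ v) (hd : d ∈ Γ.Q v) : x * d = d * x := by
  unfold ZZ at hx
  induction hx using Subgroup.closure_induction with
  | mem x hx =>
    obtain ⟨a, ha, hx⟩ := hx
    exact hx.2.2 d (Q_le_T ha hd)
  | one => simp
  | mul x y _ _ h1 h2 => rw [mul_assoc, h2, ← mul_assoc, h1, mul_assoc]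
  | inv x _ h1 =>
    calc x⁻¹ * d = x⁻¹ * (d * x) * x⁻¹ := by group
      _ = x⁻¹ * (x * d) * x⁻¹ := by rw [h1]
      _ = d * x⁻¹ := by group

/-- `r` is the generator of `[ZZ v, T v a]` -/
def IsRA (Γ : Tri G V) (v a : V) (r : G) : Prop :=
  r ≠ 1 ∧ r ∈ Γ.ZZ v ∧ (∀ x ∈ Γ.ZZ v, ∀ y ∈ (T v a : Subgroup G), y * x * y⁻¹ = x ∨ y * x * y⁻¹ = x * r) ∧
    ∃ x ∈ Γ.ZZ v, ∃ y ∈ (T v a : Subgroup G), y * x * y⁻¹ = x * r

theorem IsRA.unique {r r' : G} (h1 : IsRA Γ v a r) (h2 : IsRA Γ v a r') : r = r' := by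
  obtain ⟨x, hx, y, hy, e⟩ := h2.2.2.2
  rcases h1.2.2.1 x hx y hy with h | h
  · rw [h] at e
    exact absurd (mul_eq_left.1 e.symm) h2.1
  · rw [h] at e
    exact mul_left_cancel e

theorem IsRA.conj {r : G} (h : IsRA Γ v a r) (g : G) : IsRA Γ (g • v) (g • a) (g * r * g⁻¹) := by
  obtain ⟨h1, h2, h3, x, hx, y, hy, e⟩ := h
  refine ⟨?_, conj_mem_ZZ h2 g, ?_, g * x * g⁻¹, conj_mem_ZZ hx g, g * y * g⁻¹, ?_, ?_⟩
  · intro h4
    apply h1
    have : r = g⁻¹ * (g * r * g⁻¹) * g := by group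
    rw [this, h4]; group
  · intro x hx y hy
    have h5 : g⁻¹ * x * g ∈ Γ.ZZ v := by
      have := conj_mem_ZZ hx g⁻¹
      rwa [inv_inv, inv_smul_smul] at this
    rcases h3 _ h5 _ (mem_T_smul.1 hy) with h6 | h6
    · left
      calc y * x * y⁻¹ = g * ((g⁻¹ * y * g) * (g⁻¹ * x * g) * (g⁻¹ * y * g)⁻¹) * g⁻¹ := by group
        _ = x := by rw [h6]; group
    · right
      calc y * x * y⁻¹ = g * ((g⁻¹ * y * g) * (g⁻¹ * x * g) * (g⁻¹ * y * g)⁻¹) * g⁻¹ := by group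
        _ = x * (g * r * g⁻¹) := by rw [h6]; group
  · rw [mem_T_smul]
    have : g⁻¹ * (g * y * g⁻¹) * g = y := by group
    rw [this]; exact hy
  · calc g * y * g⁻¹ * (g * x * g⁻¹) * (g * y * g⁻¹)⁻¹ = g * (y * x * y⁻¹) * g⁻¹ := by group
      _ = g * x * g⁻¹ * (g * r * g⁻¹) := by rw [e]; group

/-- the hypotheses of Case A -/
structure CA (Γ : Tri G V) : Prop where
  np : NP Γ
  cen : ∀ v, ¬ (∀ a, Γ.A v a → ∀ z ∈ OZ (T v a : Subgroup G), ∀ g : G, g • v = v → g * z = z * g)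

namespace CA

variable (H : CA Γ)

include H

theorem OZ_le_Q (ha : Γ.A v a) : OZ (T v a : Subgroup G) ≤ Γ.Q v := by
  intro x hx
  apply H.np.cent v x (mem_T.1 hx.1).1
  intro d hd
  exact hx.2.2 d (Q_le_T ha hd)

theorem ZZ_le_Q : Γ.ZZ v ≤ Γ.Q v := by
  unfold ZZ
  rw [Subgroup.closure_le]
  rintro x ⟨a, ha, hx⟩
  exact H.OZ_le_Q ha hx

theorem ZZ_sq {x : G} (hx : x ∈ Γ.ZZ v) : x * x = 1 := by
  have hx' := hx
  unfold ZZ at hx
  induction hx using Subgroup.closure_induction with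
  | mem x hx =>
    obtain ⟨a, ha, hx⟩ := hx
    exact hx.2.1
  | one => simp
  | mul x y hx hy h1 h2 =>
    have h3 := ZZ_comm hy (H.ZZ_le_Q hx)
    calc x * y * (x * y) = x * (y * x) * y := by group
      _ = (x * x) * (y * y) := by rw [h3]; group
      _ = 1 := by rw [h1 hx, h2 hy, one_mul]
  | inv x hx h1 =>
    have h1' := h1 hx
    rw [← mul_inv_rev, h1', inv_one]

theorem ZZ_inv {x : G} (hx : x ∈ Γ.ZZ v) : x⁻¹ = x := inv_eq_of_mul_eq_one_left (H.ZZ_sq hx)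

/-- the centraliser of `ZZ v` -/
theorem mem_Q_of_comm (hg : g • v = v) (hc : ∀ x ∈ Γ.ZZ v, g * x = x * g) : g ∈ Γ.Q v := by
  by_contra hgQ
  apply H.cen v
  intro a ha z hz k hk
  obtain ⟨c, hc1, hc2, hc3⟩ := cent_trans (N := Γ.ZZ v) (fun k hk n hn => conj_mem_ZZ_of_eq hn hk)
    ⟨g, hg, hc, hgQ⟩ ha (A_of_fix hk ha)
  have h1 : c⁻¹ * k ∈ (T v a : Subgroup G) := by
    rw [mem_T]
    refine ⟨mul_fix (inv_fix hc1) hk, ?_⟩
    rw [mul_smul, ← hc3, inv_smul_smul]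
  have h2 := hz.2.2 _ h1
  have h3 := hc2 z (OZ_le_ZZ ha hz)
  calc k * z = c * ((c⁻¹ * k) * z) := by group
    _ = c * (z * (c⁻¹ * k)) := by rw [h2]
    _ = (c * z) * c⁻¹ * k := by group
    _ = (z * c) * c⁻¹ * k := by rw [h3]
    _ = z * k := by group

omit H in
theorem conj_r {r y : G} (h1 : IsRA Γ v a r) (hrr : r * r = 1) (hy : y ∈ (T v a : Subgroup G)) : y * r * y⁻¹ = r := by
  rcases h1.2.2.1 r h1.2.1 y hy with h | h
  · exact h
  · rw [hrr] at h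
    exact absurd (by calc r = y⁻¹ * (y * r * y⁻¹) * y := by group
                       _ = 1 := by rw [h]; group) h1.1

/-- `[ZZ v, T v a] ≠ [ZZ v, T v b]` -/
theorem IsRA_ne (ha : Γ.A v a) (hb : Γ.A v b) (hab : a ≠ b) {r : G} (h1 : IsRA Γ v a r)
    (h2 : IsRA Γ v b r) : False := by
  obtain ⟨y, hy, hyv⟩ := exists_T_not_mem_Q ha
  obtain ⟨z, hz, hzv⟩ := exists_T_not_mem_Q hb
  obtain ⟨c, hc, hca, hcb, -⟩ := exists_third ha hb hab
  obtain ⟨hy1, hy2⟩ := mem_T.1 hy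
  obtain ⟨hz1, hz2⟩ := mem_T.1 hz
  have ey := swap_of_not_mem hy1 ha hb hc hab hca.symm hcb.symm hy2 hyv
  have ez := swap_of_not_mem hz1 hb ha hc hab.symm hcb.symm hca.symm hz2 hzv
  have hrr : r * r = 1 := H.ZZ_sq h1.2.1
  have cy : y * r * y⁻¹ = r := conj_r h1 hrr hy
  have cz : z * r * z⁻¹ = r := conj_r h2 hrr hz
  -- `(y z)` acts by `x ↦ x` or `x r`
  have h3 : ∀ x ∈ Γ.ZZ v, (y * z) * x * (y * z)⁻¹ = x ∨ (y * z) * x * (y * z)⁻¹ = x * r := by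
    intro x hx
    have e : (y * z) * x * (y * z)⁻¹ = y * (z * x * z⁻¹) * y⁻¹ := by group
    rw [e]
    rcases h2.2.2.1 x hx z hz with h | h
    · rw [h]; exact h1.2.2.1 x hx y hy
    · rw [h]
      have e2 : y * (x * r) * y⁻¹ = (y * x * y⁻¹) * (y * r * y⁻¹) := by group
      rw [e2, cy]
      rcases h1.2.2.1 x hx y hy with h' | h'
      · right; rw [h']
      · left; rw [h', mul_assoc, hrr, mul_one]
  have h3r : (y * z) * r * (y * z)⁻¹ = r := by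
    calc (y * z) * r * (y * z)⁻¹ = y * (z * r * z⁻¹) * y⁻¹ := by group
      _ = r := by rw [cz, cy]
  have h4 : ∀ x ∈ Γ.ZZ v, (y * z * (y * z)) * x = x * (y * z * (y * z)) := by
    intro x hx
    have e : (y * z * (y * z)) * x * (y * z * (y * z))⁻¹ = (y * z) * ((y * z) * x * (y * z)⁻¹) * (y * z)⁻¹ := by group
    have h5 : (y * z * (y * z)) * x * (y * z * (y * z))⁻¹ = x := by
      rw [e]
      rcases h3 x hx with h | h
      · rw [h, h]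
      · rw [h]
        have e2 : (y * z) * (x * r) * (y * z)⁻¹ = ((y * z) * x * (y * z)⁻¹) * ((y * z) * r * (y * z)⁻¹) := by group
        rw [e2, h3r, h, mul_assoc, hrr, mul_one]
    calc (y * z * (y * z)) * x = ((y * z * (y * z)) * x * (y * z * (y * z))⁻¹) * (y * z * (y * z)) := by group
      _ = x * (y * z * (y * z)) := by rw [h5]
  have h5 := H.mem_Q_of_comm (mul_fix (mul_fix hy1 hz1) (mul_fix hy1 hz1)) h4
  have h6 := Q_fix' h5 ha
  rw [mul_smul, mul_smul, mul_smul, ez.1, ey.2, hz2, ey.1] at h6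
  exact hca h6

theorem isRA_of (ha : Γ.A v a) {x0 y0 : G} (hx0 : x0 ∈ Γ.ZZ v) (hy0 : y0 ∈ (T v a : Subgroup G))
    (hne : y0 * x0 ≠ x0 * y0) (hh : ∀ x ∈ Γ.ZZ v, y0 * x = x * y0 ∨ y0 * (x0 * x) = (x0 * x) * y0) :
    IsRA Γ v a (x0⁻¹ * (y0 * x0 * y0⁻¹)) := by
  have hyv : y0 • v = v := (mem_T.1 hy0).1
  have hcx : y0 * x0 * y0⁻¹ ∈ Γ.ZZ v := conj_mem_ZZ_of_eq hx0 hyv
  have hr : x0⁻¹ * (y0 * x0 * y0⁻¹) ∈ Γ.ZZ v := mul_mem (inv_mem hx0) hcx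
  have hy0D : y0 ∉ Γ.Q v := fun h => hne (ZZ_comm hx0 h).symm
  refine ⟨?_, hr, ?_, x0, hx0, y0, hy0, by group⟩
  · intro h1
    apply hne
    calc y0 * x0 = x0 * (x0⁻¹ * (y0 * x0 * y0⁻¹)) * y0 := by group
      _ = x0 * y0 := by rw [h1, mul_one]
  · intro x hx y hy
    have hsq : y0 * y0 ∈ Γ.Q v := mul_mem_Q ha hy0 hy0 hy0D hy0D
    by_cases hyD : y ∈ Γ.Q v
    · left
      rw [← ZZ_comm hx hyD, mul_inv_cancel_right]
    · have h1 : y0 * y ∈ Γ.Q v := mul_mem_Q ha hy0 hy hy0D hyD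
      have h2 : y * x * y⁻¹ = y0 * x * y0⁻¹ := by
        have e1 := ZZ_comm hx h1
        have e2 := ZZ_comm hx hsq
        have e3 : y * x * y⁻¹ = y0⁻¹ * ((y0 * y) * x) * (y0 * y)⁻¹ * y0 := by group
        have e4 : y0 * x * y0⁻¹ = y0⁻¹ * ((y0 * y0) * x) * (y0 * y0)⁻¹ * y0 := by group
        rw [e3, e4, ← e1, ← e2]; group
      rw [h2]
      rcases hh x hx with h3 | h3
      · left; rw [h3, mul_inv_cancel_right]
      · right
        have e1 : (y0 * x0 * y0⁻¹) * (y0 * x * y0⁻¹) = x0 * x := by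
          calc (y0 * x0 * y0⁻¹) * (y0 * x * y0⁻¹) = y0 * (x0 * x) * y0⁻¹ := by group
            _ = x0 * x := by rw [h3, mul_inv_cancel_right]
        have e2 : y0 * x * y0⁻¹ = (x0⁻¹ * (y0 * x0 * y0⁻¹))⁻¹ * x := by
          calc y0 * x * y0⁻¹ = (y0 * x0 * y0⁻¹)⁻¹ * ((y0 * x0 * y0⁻¹) * (y0 * x * y0⁻¹)) := by group
            _ = (y0 * x0 * y0⁻¹)⁻¹ * (x0 * x) := by rw [e1]
            _ = _ := by group
        rw [e2, H.ZZ_inv hr]
        exact ZZ_comm hr (H.ZZ_le_Q hx)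

variable {n : ℤ} (hmin : ∀ (p : ℤ → V) (i j : ℤ), i ≤ j → Γ.Arc p i j → j - i < n → Γ.ZZ (p i) ≤ Γ.Q (p j))

include hmin

/-- commutators in a critical pair -/
theorem crit_comm {p : ℤ → V} {i j : ℤ} (hij : j = i + n) (hn : 1 ≤ n) (hp : Γ.Arc p i j)
    (hc : ¬ Γ.ZZ (p i) ≤ Γ.Q (p j)) :
    ∃ r y, IsRA Γ (p i) (p (i + 1)) r ∧ IsRA Γ (p j) (p (j - 1)) r ∧ y ∈ Γ.ZZ (p j) ∧ y ∉ Γ.Q (p i) ∧
      y ∈ Γ.Q (p (i + 1)) := by
  obtain ⟨x0, hx0, hx0Q⟩ := Set.not_subset.1 hc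
  have hadj : Γ.A (p i) (p (i + 1)) := hp.adj le_rfl (by omega)
  have hadj' : Γ.A (p j) (p (j - 1)) := hp.adj' (by omega) le_rfl
  have h1 : Γ.ZZ (p i) ≤ Γ.Q (p (j - 1)) :=
    hmin p i (j - 1) (by omega) (hp.sub le_rfl (by omega)) (by omega)
  have h2 : Γ.ZZ (p j) ≤ Γ.Q (p (i + 1)) := by
    have := hmin (fun k => p (i + j - k)) i (j - 1) (by omega)
      (((hp.rev (i + j)).sub (by omega) (by omega))) (by omega)
    have e1 : i + j - i = j := by ring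
    have e2 : i + j - (j - 1) = i + 1 := by ring
    simp only [e1, e2] at this
    exact this
  have hx0T : x0 ∈ (T (p j) (p (j - 1)) : Subgroup G) := Q_le_T' (Γ.symm hadj') (h1 hx0)
  obtain ⟨y0, hy0, hne⟩ : ∃ y ∈ Γ.ZZ (p j), x0 * y ≠ y * x0 := by
    by_contra hcon
    push Not at hcon
    exact hx0Q (H.mem_Q_of_comm (mem_T.1 hx0T).1 hcon)
  have hy0T : y0 ∈ (T (p i) (p (i + 1)) : Subgroup G) := Q_le_T' (Γ.symm hadj) (h2 hy0)
  have hy0D : y0 ∉ Γ.Q (p i) := fun h => hne (ZZ_comm hx0 h)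
  have r1 : IsRA Γ (p i) (p (i + 1)) (x0⁻¹ * (y0 * x0 * y0⁻¹)) := by
    apply H.isRA_of hadj hx0 hy0T (Ne.symm hne)
    intro x hx
    by_cases hxD : x ∈ Γ.Q (p j)
    · left; exact ZZ_comm hy0 hxD
    · right
      exact ZZ_comm hy0 (mul_mem_Q hadj' hx0T (Q_le_T' (Γ.symm hadj') (h1 hx)) hx0Q hxD)
  have r2 : IsRA Γ (p j) (p (j - 1)) (y0⁻¹ * (x0 * y0 * x0⁻¹)) := by
    apply H.isRA_of hadj' hy0 hx0T hne
    intro x hx
    by_cases hxD : x ∈ Γ.Q (p i)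
    · left; exact ZZ_comm hx0 hxD
    · right
      exact ZZ_comm hx0 (mul_mem_Q hadj hy0T (Q_le_T' (Γ.symm hadj) (by
        have := hmin (fun k => p (i + j - k)) i (j - 1) (by omega)
          (((hp.rev (i + j)).sub (by omega) (by omega))) (by omega)
        have e1 : i + j - i = j := by ring
        have e2 : i + j - (j - 1) = i + 1 := by ring
        simp only [e1, e2] at this
        exact this hx)) hy0D hxD)
  have e : y0⁻¹ * (x0 * y0 * x0⁻¹) = x0⁻¹ * (y0 * x0 * y0⁻¹) := by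
    have e1 : x0⁻¹ = x0 := H.ZZ_inv hx0
    have e2 : y0⁻¹ = y0 := H.ZZ_inv hy0
    have e3 := H.ZZ_inv r1.2.1
    rw [← e3, mul_inv_rev, mul_inv_rev, mul_inv_rev, inv_inv, inv_inv, e1, e2]
    group
  rw [e] at r2
  exact ⟨_, y0, r1, r2, hy0, hy0D, h2 hy0⟩

/-- the reverse of a critical arc is critical -/
theorem crit_rev {p : ℤ → V} {i j : ℤ} (hij : j = i + n) (hn : 1 ≤ n) (hp : Γ.Arc p i j)
    (hc : ¬ Γ.ZZ (p i) ≤ Γ.Q (p j)) : ¬ Γ.ZZ (p j) ≤ Γ.Q (p i) := by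
  obtain ⟨r, y, -, -, h1, h2, -⟩ := H.crit_comm hmin hij hn hp hc
  exact fun h => h2 (h h1)

/-- left shifts of critical arcs are critical -/
theorem crit_left {p : ℤ → V} {i j : ℤ} (hij : j = i + n) (hn : 1 ≤ n) (hp : Γ.Arc p (i - 1) j)
    (hc : ¬ Γ.ZZ (p i) ≤ Γ.Q (p j)) : ¬ Γ.ZZ (p (i - 1)) ≤ Γ.Q (p (j - 1)) := by
  intro hnc
  obtain ⟨r, y0, r1, r2, hy0, hy0Q, hy1⟩ := H.crit_comm hmin hij hn (hp.sub (by omega) le_rfl) hc
  have hA1 : Γ.A (p i) (p (i - 1)) := hp.adj' (by omega) (by omega)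
  have hA2 : Γ.A (p i) (p (i + 1)) := hp.adj (by omega) (by omega)
  have hne : p (i - 1) ≠ p (i + 1) := hp.ne le_rfl (by omega) (by ring)
  obtain ⟨x, hx, hxa, hxb, -⟩ := exists_third hA1 hA2 hne
  have hyi : y0 • p i = p i := hy1.2 _ (Γ.symm hA2)
  have hsw := swap_of_not_mem hyi hA2 hA1 hx hne.symm hxb.symm hxa.symm hy1.1 hy0Q
  apply H.np.npu (p i) (p (i - 1)) x hA1 hx hxa.symm
  intro q hq
  have hq0 : q ∈ Γ.Q (p i) := hq.1
  have hq1 : q ∈ Γ.Q (p (i - 1)) := hq.2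
  apply H.mem_Q_of_comm (hq0.2 x hx)
  intro z hz
  -- `z = y0 z' y0⁻¹`
  have hz' : y0⁻¹ * z * y0 ∈ Γ.ZZ (p (i - 1)) := by
    have := conj_mem_ZZ_of_eq (h := y0⁻¹) (w := p (i - 1)) hz (by rw [← hsw.1, inv_smul_smul])
    rwa [inv_inv] at this
  have hadj' : Γ.A (p j) (p (j - 1)) := hp.adj' (by omega) le_rfl
  have hzT : y0⁻¹ * z * y0 ∈ (T (p j) (p (j - 1)) : Subgroup G) := Q_le_T' (Γ.symm hadj') (hnc hz')
  have hqz : q * (y0⁻¹ * z * y0) = (y0⁻¹ * z * y0) * q := (ZZ_comm hz' hq1).symm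
  rcases r2.2.2.1 y0 hy0 _ hzT with h1 | h1
  · -- `z'` commutes with `y0`
    have h2 : z = y0⁻¹ * z * y0 := by
      calc z = y0 * (y0⁻¹ * z * y0) * y0⁻¹ := by group
        _ = ((y0⁻¹ * z * y0) * y0 * (y0⁻¹ * z * y0)⁻¹) * (y0⁻¹ * z * y0) * y0⁻¹ := by rw [h1]
        _ = y0⁻¹ * z * y0 := by group
    rw [h2]; exact hqz
  · have hr0 : q * r = r * q := (ZZ_comm r1.2.1 hq0).symm
    have hrr : r * r = 1 := H.ZZ_sq r1.2.1
    have h2 : z = r * (y0⁻¹ * z * y0) := by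
      have h3 : y0 = (y0⁻¹ * z * y0) * y0 * (y0⁻¹ * z * y0)⁻¹ * r := by
        rw [h1, mul_assoc, hrr, mul_one]
      have h4 : y0 * r = r * y0 := (ZZ_comm hy0 (H.ZZ_le_Q r2.2.1))
      have h5 : y0 * r * r = y0 := by rw [mul_assoc, hrr, mul_one]
      calc z = y0 * (y0⁻¹ * z * y0) * y0⁻¹ := by group
        _ = ((y0 * r) * r) * (y0⁻¹ * z * y0) * y0⁻¹ := by rw [h5]
        _ = ((r * y0) * r) * (y0⁻¹ * z * y0) * y0⁻¹ := by rw [h4]
        _ = r * (y0 * r) * (y0⁻¹ * z * y0) * y0⁻¹ := by group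
        _ = r * ((y0⁻¹ * z * y0) * y0 * (y0⁻¹ * z * y0)⁻¹) * (y0⁻¹ * z * y0) * y0⁻¹ := by rw [h1]
        _ = r * (y0⁻¹ * z * y0) := by group
    rw [h2]
    calc q * (r * (y0⁻¹ * z * y0)) = (q * r) * (y0⁻¹ * z * y0) := by group
      _ = r * (q * (y0⁻¹ * z * y0)) := by rw [hr0]; group
      _ = r * (y0⁻¹ * z * y0) * q := by rw [hqz]; group

/-- right shifts of critical arcs are critical -/
theorem crit_right {p : ℤ → V} {i j : ℤ} (hij : j = i + n) (hn : 1 ≤ n) (hp : Γ.Arc p i (j + 1))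
    (hc : ¬ Γ.ZZ (p i) ≤ Γ.Q (p j)) : ¬ Γ.ZZ (p (i + 1)) ≤ Γ.Q (p (j + 1)) := by
  have h1 := H.crit_rev hmin hij hn (hp.sub le_rfl (by omega)) hc
  have h2 := H.crit_left (p := fun k => p (i + j - k)) hmin hij hn (by
    have := hp.rev (i + j)
    have e1 : i + j - (j + 1) = i - 1 := by ring
    have e2 : i + j - i = j := by ring
    rw [e1, e2] at this
    exact this) (by
    have e1 : i + j - i = j := by ring
    have e2 : i + j - j = i := by ring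
    simp only [e1, e2]; exact h1)
  have e1 : i + j - (i - 1) = j + 1 := by ring
  have e2 : i + j - (j - 1) = i + 1 := by ring
  simp only [e1, e2] at h2
  -- reverse again
  have h3 := H.crit_rev hmin (p := fun k => p (i + 1 + (j + 1) - k)) (i := i + 1) (j := j + 1) (by omega) hn (by
    have := (hp.sub (i' := i + 1) (j' := j + 1) (by omega) le_rfl).rev (i + 1 + (j + 1))
    have e1 : i + 1 + (j + 1) - (j + 1) = i + 1 := by ring
    have e2 : i + 1 + (j + 1) - (i + 1) = j + 1 := by ring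
    rw [e1, e2] at this
    exact this) (by
    have e1 : i + 1 + (j + 1) - (i + 1) = j + 1 := by ring
    have e2 : i + 1 + (j + 1) - (j + 1) = i + 1 := by ring
    simp only [e1, e2]; exact h2)
  have e3 : i + 1 + (j + 1) - (i + 1) = j + 1 := by ring
  have e4 : i + 1 + (j + 1) - (j + 1) = i + 1 := by ring
  simp only [e3, e4] at h3
  exact h3

end CA

end Tri

end Cfsg.Agent.H209
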