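import Cfsg.Agent.H209.TriCA

/-!
# Case A: the bound
-/

set_option autoImplicit false

namespace Cfsg.Agent.H209

open MulAction

namespace Tri

variable {G V : Type*} [Group G] [MulAction G V] {Γ : Tri G V}
variable {u v w a b c d : V} {g h : G}

/-- `r` generates `[ZZ c, T c v]` for all neighbours `c` of `v` -/
def Cst (Γ : Tri G V) (v : V) (r : G) : Prop := ∀ c, Γ.A v c → IsRA Γ c v r

theorem Cst.unique {r r' : G} (h1 : Cst Γ v r) (h2 : Cst Γ v r') : r = r' := by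
  obtain ⟨c, hc⟩ := ex_adj Γ v
  exact (h1 c hc).unique (h2 c hc)

theorem Cst.conj {r : G} (h : Cst Γ v r) (g : G) : Cst Γ (g • v) (g * r * g⁻¹) := by
  intro c hc
  have h1 : Γ.A v (g⁻¹ • c) := by
    have := Γ.smul g⁻¹ hc
    rwa [inv_smul_smul] at this
  have := (h _ h1).conj g
  rwa [smul_inv_smul] at this

namespace CA

variable (H : CA Γ)

include H

variable {n : ℤ} (hmin : ∀ (p : ℤ → V) (i j : ℤ), i ≤ j → Γ.Arc p i j → j - i < n → Γ.ZZ (p i) ≤ Γ.Q (p j))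

include hmin

theorem exists_rho_end {p : ℤ → V} {i j : ℤ} (hij : j = i + n) (hn : 2 ≤ n) (hp : Γ.Arc p i j)
    (hc : ¬ Γ.ZZ (p i) ≤ Γ.Q (p j)) : ∃ r, Cst Γ (p j) r := by
  have hA : Γ.A (p j) (p (j - 1)) := hp.adj' (by omega) le_rfl
  obtain ⟨t, t', ht, ht', hta, hta', htt, -⟩ := exists_others hA
  have key : ∀ t, Γ.A (p j) t → t ≠ p (j - 1) → ∃ r, IsRA Γ (p (i + 1)) (p (i + 2)) r ∧ IsRA Γ t (p j) r := by
    intro t ht hta
    obtain ⟨q, hq, hqt, hqk⟩ := hp.exists_snoc ht (fun _ => hta)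
    have h1 := H.crit_right hmin hij (by omega) hq (by rw [hqk i (by omega), hqk j le_rfl]; exact hc)
    obtain ⟨r, -, r1, r2, -⟩ := H.crit_comm hmin (i := i + 1) (j := j + 1) (by omega) (by omega)
      (hq.sub (by omega) le_rfl) h1
    have e1 : i + 1 + 1 = i + 2 := by ring
    have e2 : j + 1 - 1 = j := by ring
    rw [e1, hqk (i + 1) (by omega), hqk (i + 2) (by omega)] at r1
    rw [e2, hqt, hqk j le_rfl] at r2
    exact ⟨r, r1, r2⟩
  obtain ⟨r, r1, r2⟩ := key t ht hta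
  obtain ⟨r', r1', r2'⟩ := key t' ht' hta'
  have e := r1.unique r1'
  subst e
  refine ⟨r, fun c hc => ?_⟩
  by_cases hct : c = t
  · rw [hct]; exact r2
  obtain ⟨g, hg, hgt, hgt'⟩ := exists_two_trans ht ht' ht hc htt (Ne.symm hct)
  have h1 := r2.conj g
  have h2 := r2'.conj g
  rw [hgt, hg] at h1
  rw [hgt', hg] at h2
  rw [r2.unique h1]
  exact h2

theorem exists_rho {p : ℤ → V} {i j : ℤ} (hij : j = i + n) (hn : 2 ≤ n) (hp : Γ.Arc p i j)
    (hc : ¬ Γ.ZZ (p i) ≤ Γ.Q (p j)) (v : V) : ∃ r, Cst Γ v r := by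
  have key : ∀ w, (∃ r, Cst Γ w r) → Γ.ty w = Γ.ty v → ∃ r, Cst Γ v r := by
    rintro w ⟨r, hr⟩ hty
    obtain ⟨a, ha⟩ := ex_adj Γ w
    obtain ⟨b, hb⟩ := ex_adj Γ v
    obtain ⟨g, hg, -⟩ := Γ.trans ha hb hty
    have := hr.conj g
    rw [hg] at this
    exact ⟨_, this⟩
  by_cases hty : Γ.ty (p j) = Γ.ty v
  · exact key _ (H.exists_rho_end hmin hij hn hp hc) hty
  · have hA : Γ.A (p j) (p (j - 1)) := hp.adj' (by omega) le_rfl
    obtain ⟨t, ht, hta⟩ := exists_ne hA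
    obtain ⟨q, hq, hqt, hqk⟩ := hp.exists_snoc ht (fun _ => hta)
    have h1 := H.crit_right hmin hij (by omega) hq (by rw [hqk i (by omega), hqk j le_rfl]; exact hc)
    refine key _ (H.exists_rho_end hmin (i := i + 1) (j := j + 1) (by omega) hn (hq.sub (by omega) le_rfl) h1) ?_
    rw [hqt, Γ.ty_adj ht]
    cases h1 : Γ.ty (p j) <;> cases h2 : Γ.ty v <;> simp_all

/-- a critical arc in length at least three: contradiction -/
theorem le_two {p : ℤ → V} (hn : 3 ≤ n) (hp : Γ.Arc p 0 n) (hc : ¬ Γ.ZZ (p 0) ≤ Γ.Q (p n)) : False := by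
  have hex := H.exists_rho hmin (i := 0) (j := n) (by ring) (by omega) hp hc
  choose ρ hρ using hex
  have crit_rho : ∀ (p : ℤ → V) (i j : ℤ), j = i + n → Γ.Arc p i j → ¬ Γ.ZZ (p i) ≤ Γ.Q (p j) →
      ρ (p (i + 1)) = ρ (p (j - 1)) := by
    intro p i j hij hp hc
    obtain ⟨r, -, r1, r2, -⟩ := H.crit_comm hmin hij (by omega) hp hc
    have h1 : Γ.A (p i) (p (i + 1)) := hp.adj le_rfl (by omega)
    have h2 : Γ.A (p j) (p (j - 1)) := hp.adj' (by omega) le_rfl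
    rw [(hρ _ _ (Γ.symm h1)).unique r1, (hρ _ _ (Γ.symm h2)).unique r2]
  -- extend to the left by two
  obtain ⟨x1, hx1, hx1n⟩ := exists_ne (hp.adj (k := 0) le_rfl (by omega))
  obtain ⟨q1, hq1, hq1x, hq1k⟩ := hp.exists_cons hx1 (fun _ => hx1n)
  obtain ⟨x2, hx2, hx2n⟩ := exists_ne (hq1.adj (k := 0 - 1) le_rfl (by omega))
  obtain ⟨q, hq, hqx, hqk⟩ := hq1.exists_cons hx2 (fun _ => hx2n)
  have e2 : (0 : ℤ) - 1 - 1 = -2 := by ring
  have hq0 : ∀ k ≥ 0, q k = p k := fun k hk => by rw [hqk k (by omega), hq1k k hk]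
  rw [e2] at hq
  have c0 : ¬ Γ.ZZ (q 0) ≤ Γ.Q (q n) := by rw [hq0 0 le_rfl, hq0 n (by omega)]; exact hc
  have c1 : ¬ Γ.ZZ (q (-1)) ≤ Γ.Q (q (n - 1)) := by
    have := H.crit_left hmin (i := 0) (j := n) (by ring) (by omega) (hq.sub (by omega) le_rfl) c0
    exact this
  have c2 : ¬ Γ.ZZ (q (-2)) ≤ Γ.Q (q (n - 2)) := by
    have := H.crit_left hmin (i := -1) (j := n - 1) (by ring) (by omega) (hq.sub (by omega) (by omega)) c1
    have e1 : (-1 : ℤ) - 1 = -2 := by ring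
    have e2 : n - 1 - 1 = n - 2 := by ring
    rwa [e1, e2] at this
  -- change the end
  have hA : Γ.A (q (n - 2)) (q (n - 1)) := by
    have := hq.adj (k := n - 2) (by omega) (by omega)
    have e1 : n - 2 + 1 = n - 1 := by ring
    rwa [e1] at this
  have hB : Γ.A (q (n - 2)) (q (n - 3)) := by
    have := hq.adj' (k := n - 2) (by omega) (by omega)
    have e1 : n - 2 - 1 = n - 3 := by ring
    rwa [e1] at this
  have hAB : q (n - 3) ≠ q (n - 1) := hq.ne (by omega) (by omega) (by ring)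
  obtain ⟨x, hx, hxA, hxB, -⟩ := exists_third hA hB hAB.symm
  obtain ⟨y, hy, hyx⟩ := exists_ne (Γ.symm hx)
  obtain ⟨q3, hq3, hq3x, hq3k⟩ := (hq.sub (i' := -2) (j' := n - 2) le_rfl (by omega)).exists_snoc hx (fun _ => by
    have e1 : n - 2 - 1 = n - 3 := by ring
    rw [e1]; exact hxB)
  obtain ⟨q4, hq4, hq4x, hq4k⟩ := hq3.exists_snoc (x := y) (by rw [hq3x]; exact hy) (fun _ => by
    have e1 : n - 2 + 1 - 1 = n - 2 := by ring
    rw [e1, hq3k _ le_rfl]; exact hyx)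
  have e3 : n - 2 + 1 + 1 = n := by ring
  have e4 : n - 2 + 1 = n - 1 := by ring
  rw [e3] at hq4 hq4x
  rw [e4] at hq3x hq4k
  have hq4q : ∀ k ≤ n - 2, q4 k = q k := fun k hk => by rw [hq4k k (by omega), hq3k k hk]
  have d2 : ¬ Γ.ZZ (q4 (-2)) ≤ Γ.Q (q4 (n - 2)) := by
    rw [hq4q _ (by omega), hq4q _ le_rfl]; exact c2
  have d1 : ¬ Γ.ZZ (q4 (-1)) ≤ Γ.Q (q4 (n - 1)) := by
    have := H.crit_right hmin (i := -2) (j := n - 2) (by ring) (by omega) (hq4.sub (by omega) (by omega)) d2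
    have e1 : (-2 : ℤ) + 1 = -1 := by ring
    rwa [e1, e4] at this
  have d0 : ¬ Γ.ZZ (q4 0) ≤ Γ.Q (q4 n) := by
    have := H.crit_right hmin (i := -1) (j := n - 1) (by ring) (by omega) (hq4.sub (by omega) (by omega)) d1
    have e1 : (-1 : ℤ) + 1 = 0 := by ring
    have e2 : n - 1 + 1 = n := by ring
    rwa [e1, e2] at this
  have f1 := crit_rho q 0 n (by ring) (hq.sub (by omega) le_rfl) c0
  have f2 := crit_rho q4 0 n (by ring) (hq4.sub (by omega) le_rfl) d0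
  have e5 : (0 : ℤ) + 1 = 1 := by ring
  rw [e5] at f1 f2
  rw [hq4q 1 (by omega), f1, hq4k (n - 1) le_rfl, hq3x] at f2
  exact H.IsRA_ne hx hA hxA (hρ x _ (Γ.symm hx)) (by rw [← f2]; exact hρ _ _ (Γ.symm hA))

omit hmin in
/-- the first noncommuting pair at distance two -/
theorem card_le_of_two
    (hmin : ∀ (p : ℤ → V) (i j : ℤ), i ≤ j → Γ.Arc p i j → j - i < 2 → Γ.ZZ (p i) ≤ Γ.Q (p j))
    {p : ℤ → V} (hp : Γ.Arc p 0 2) (hc : ¬ Γ.ZZ (p 0) ≤ Γ.Q (p 2)) (hvw : Γ.A v w) :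
    Nat.card (T v w : Subgroup G) ≤ 64 := by
  have hex := H.exists_rho hmin (i := 0) (j := 2) (by ring) (by omega) hp hc
  choose ρ hρ using hex
  have hone : ∀ l p, Γ.A l p → Γ.ZZ l ≤ Γ.Q p := by
    intro l p hlp
    have := hmin (fun k => if k = 0 then l else p) 0 1 (by omega) ⟨fun k h1 h2 => ?_, fun k h1 h2 => by omega⟩ (by omega)
    · simpa using this
    · have : k = 0 := by omega
      subst this
      simpa using hlp
  have hconj : ∀ (v : V) (g : G), g * ρ v * g⁻¹ = ρ (g • v) := fun v g => ((hρ v).conj g).unique (hρ (g • v))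
  have hmem : ∀ l p, Γ.A l p → ρ p ∈ Γ.ZZ l := fun l p hlp => (hρ p l (Γ.symm hlp)).2.1
  have hsq : ∀ p, ρ p * ρ p = 1 := by
    intro p
    obtain ⟨l, hl⟩ := ex_adj Γ p
    exact H.ZZ_sq (hmem l p (Γ.symm hl))
  have hfix : ∀ p, ρ p • p = p := by
    intro p
    obtain ⟨l, hl⟩ := ex_adj Γ p
    exact (hone l p (Γ.symm hl) (hmem l p (Γ.symm hl))).1
  have R : Pts Γ (Γ.ty (p 1)) ρ := by
    refine ⟨?_, fun p _ => hsq p, fun p _ => hfix p, fun p g _ => hconj p g, ?_⟩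
    · intro p _
      obtain ⟨l, hl⟩ := ex_adj Γ p
      exact (hρ p l hl).1
    · intro l p q s hp hq hs hpq hps hqs _
      obtain ⟨y, hy, hyQ⟩ := exists_T_not_mem_Q hp
      obtain ⟨hy1, hy2⟩ := mem_T.1 hy
      have hsw := swap_of_not_mem hy1 hp hq hs hpq hps hqs hy2 hyQ
      have h1 := hconj q y
      rw [hsw.1] at h1
      rcases (hρ p l (Γ.symm hp)).2.2.1 (ρ q) (hmem l q hq) y hy with h2 | h2
      · exfalso
        rw [h1] at h2
        exact H.IsRA_ne hq hs hqs (hρ q l (Γ.symm hq)) (by rw [← h2]; exact hρ s l (Γ.symm hs))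
      · rw [← h1, h2]
        exact ZZ_comm (hmem l p hp) (H.ZZ_le_Q (hmem l q hq))
  have hb : ∀ l p' q, Γ.A l p' → Γ.A l q → Γ.ty p' = Γ.ty (p 1) → ρ q ∈ Γ.Q p' :=
    fun l p' q hp' hq _ => hone l p' hp' (hmem l q hq)
  apply btwo_card H.np R hb _ hvw
  intro p' l m q s hl hm hlm hq hqp hs hsp hty hcomm
  have h01 : Γ.A (p 1) (p 0) := hp.adj' (k := 1) (by omega) (by omega)
  have h12 : Γ.A (p 1) (p 2) := hp.adj (k := 1) (by omega) (by omega)
  have hne : p 0 ≠ p 2 := hp.ne le_rfl le_rfl (by ring)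
  obtain ⟨g, hg, hgl, hgm⟩ := exists_two_trans' hm hl h01 h12 hlm.symm hne hty
  -- `ZZ m` is not in `Q l`
  have hcr : ¬ Γ.ZZ m ≤ Γ.Q l := by
    intro hle
    apply hc
    intro x hx
    have h1 : g⁻¹ * x * g ∈ Γ.ZZ m := by
      have := conj_mem_ZZ_of_eq (h := g⁻¹) (w := m) hx (by rw [← hgl, inv_smul_smul])
      rwa [inv_inv] at this
    have h2 := conj_mem_Q_of_eq (hle h1) hgm
    have e : g * (g⁻¹ * x * g) * g⁻¹ = x := by group
    rwa [e] at h2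
  have tyq : Γ.ty q = Γ.ty (p 1) := by rw [← hty]; exact ty_eq_of_adj hq (Γ.symm hl)
  have tys : Γ.ty s = Γ.ty (p 1) := by rw [← hty]; exact ty_eq_of_adj hs (Γ.symm hm)
  have m1 : ρ q ∈ Γ.Q p' := hone l p' (Γ.symm hl) (hmem l q hq)
  have m2 : ρ q • s = s := R.fix_of_comm (m1.2 m hm) hs tys hcomm
  have m3 : ρ q ∈ Γ.Q m := mem_Q_of_two (m1.2 m hm) (Γ.symm hm) hs hsp.symm m1.1 m2
  apply hcr
  intro x hx
  have x1 : x ∈ Γ.Q p' := hone m p' (Γ.symm hm) hx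
  have x2 : x * ρ q = ρ q * x := ZZ_comm hx m3
  have x3 : x • q = q := R.fix_of_comm (x1.2 l hl) hq tyq x2
  exact mem_Q_of_two (x1.2 l hl) (Γ.symm hl) hq hqp.symm x1.1 x3

omit hmin in
/-- the first noncommuting pair is an edge -/
theorem card_le_of_one (hvw : Γ.A v w) (hc : ¬ Γ.ZZ v ≤ Γ.Q w) (hc' : ¬ Γ.ZZ w ≤ Γ.Q v) :
    Nat.card (T v w : Subgroup G) ≤ 16 := by
  obtain ⟨x0, hx0, hx0w⟩ := Set.not_subset.1 hc
  obtain ⟨y0, hy0, hy0v⟩ := Set.not_subset.1 hc'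
  let E : Subgroup G := Γ.Q v ⊓ Γ.Q w
  have hE1 : ∀ q ∈ Γ.Q v, ∃ e ∈ E, q * q = e * e := by
    intro q hq
    by_cases hqw : q ∈ Γ.Q w
    · exact ⟨q, ⟨hq, hqw⟩, rfl⟩
    · refine ⟨x0 * q, ⟨mul_mem (H.ZZ_le_Q hx0) hq, ?_⟩, ?_⟩
      · exact mul_mem_Q (Γ.symm hvw) (Q_le_T' hvw (H.ZZ_le_Q hx0)) (Q_le_T' hvw hq) hx0w hqw
      · have h1 := ZZ_comm hx0 hq
        calc q * q = (x0 * x0) * q * q := by rw [H.ZZ_sq hx0, one_mul]
          _ = x0 * (x0 * q) * q := by group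
          _ = x0 * (q * x0) * q := by rw [h1]
          _ = x0 * q * (x0 * q) := by group
  have hE2 : ∀ q ∈ Γ.Q w, ∃ e ∈ E, q * q = e * e := by
    intro q hq
    by_cases hqv : q ∈ Γ.Q v
    · exact ⟨q, ⟨hqv, hq⟩, rfl⟩
    · refine ⟨y0 * q, ⟨?_, mul_mem (H.ZZ_le_Q hy0) hq⟩, ?_⟩
      · exact mul_mem_Q hvw (Q_le_T' (Γ.symm hvw) (H.ZZ_le_Q hy0)) (Q_le_T' (Γ.symm hvw) hq) hy0v hqv
      · have h1 := ZZ_comm hy0 hq
        calc q * q = (y0 * y0) * q * q := by rw [H.ZZ_sq hy0, one_mul]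
          _ = y0 * (y0 * q) * q := by group
          _ = y0 * (q * y0) * q := by rw [h1]
          _ = y0 * q * (y0 * q) := by group
  let S : Subgroup G := Subgroup.closure {x | ∃ e ∈ E, x = e * e}
  have hSv : ∀ g : G, g • v = v → ∀ x ∈ S, g * x * g⁻¹ ∈ S := by
    intro g hg x hx
    refine conj_mem_closure g ?_ hx
    rintro y ⟨e, he, rfl⟩
    obtain ⟨e', he', h1⟩ := hE1 (g * e * g⁻¹) (conj_mem_Q_of_fix he.1 hg)
    refine Subgroup.subset_closure ⟨e', he', ?_⟩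
    rw [← h1]; group
  have hSw : ∀ g : G, g • w = w → ∀ x ∈ S, g * x * g⁻¹ ∈ S := by
    intro g hg x hx
    refine conj_mem_closure g ?_ hx
    rintro y ⟨e, he, rfl⟩
    obtain ⟨e', he', h1⟩ := hE2 (g * e * g⁻¹) (conj_mem_Q_of_fix he.2 hg)
    refine Subgroup.subset_closure ⟨e', he', ?_⟩
    rw [← h1]; group
  have hSE : S ≤ E := by
    refine (Subgroup.closure_le _).2 ?_
    rintro y ⟨e, he, rfl⟩
    exact mul_mem he he
  have hS : ∀ x ∈ S, x = 1 := by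
    apply edge_bot Γ hvw S (fun n hn => ⟨(hSE hn).1.1, (hSE hn).2.1⟩)
    · intro a ha
      obtain ⟨g, hg, hga⟩ := exists_trans hvw ha
      refine ⟨g, fun n hn => ?_, hga⟩
      have := hSv g⁻¹ (inv_fix hg) n hn
      rwa [inv_inv] at this
    · intro a ha
      obtain ⟨g, hg, hga⟩ := exists_trans (Γ.symm hvw) ha
      refine ⟨g, fun n hn => ?_, hga⟩
      have := hSw g⁻¹ (inv_fix hg) n hn
      rwa [inv_inv] at this
  have hsqv : ∀ q ∈ Γ.Q v, q * q = 1 := by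
    intro q hq
    obtain ⟨e, he, h1⟩ := hE1 q hq
    rw [h1]
    exact hS _ (Subgroup.subset_closure ⟨e, he, rfl⟩)
  have hsqw : ∀ q ∈ Γ.Q w, q * q = 1 := by
    intro q hq
    obtain ⟨e, he, h1⟩ := hE2 q hq
    rw [h1]
    exact hS _ (Subgroup.subset_closure ⟨e, he, rfl⟩)
  have habel : ∀ L : Subgroup G, (∀ q ∈ L, q * q = 1) → ∀ x ∈ L, ∀ y ∈ L, x * y = y * x := by
    intro L hL x hx y hy
    have h1 : x⁻¹ = x := inv_eq_of_mul_eq_one_left (hL x hx)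
    have h2 : y⁻¹ = y := inv_eq_of_mul_eq_one_left (hL y hy)
    have h3 : (x * y)⁻¹ = x * y := inv_eq_of_mul_eq_one_left (hL _ (mul_mem hx hy))
    rw [mul_inv_rev, h1, h2] at h3
    exact h3.symm
  -- `E` is centralised by `T`
  have hET : ∀ e ∈ E, ∀ t ∈ (T v w : Subgroup G), t * e = e * t := by
    intro e he t ht
    by_cases htw : t ∈ Γ.Q w
    · exact habel _ hsqw t htw e he.2
    · have h1 : x0 * t ∈ Γ.Q w := by
        rw [T_comm] at ht
        exact mul_mem_Q (Γ.symm hvw) (Q_le_T' hvw (H.ZZ_le_Q hx0)) ht hx0w htw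
      have h2 := habel _ hsqw _ h1 e he.2
      have h3 := ZZ_comm hx0 he.1
      calc t * e = x0⁻¹ * ((x0 * t) * e) := by group
        _ = x0⁻¹ * (e * (x0 * t)) := by rw [h2]
        _ = x0⁻¹ * (e * x0) * t := by group
        _ = x0⁻¹ * (x0 * e) * t := by rw [h3]
        _ = e * t := by group
  obtain ⟨a, c, ha, hc1, haw, hcw, hac, -⟩ := exists_others hvw
  obtain ⟨b, d, hb, hd, hbv, hdv, hbd, -⟩ := exists_others (Γ.symm hvw)
  let F : Subgroup G := Γ.Q b ⊓ (Γ.Q a ⊓ E)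
  -- transport of `hET` to the edge `v a`
  have hETv : ∀ e ∈ F, ∀ t ∈ (T v a : Subgroup G), t * e = e * t := by
    intro e he t ht
    obtain ⟨g, hg, hgw⟩ := exists_trans hvw ha
    have h1 : g⁻¹ * e * g ∈ E := by
      refine ⟨?_, ?_⟩
      · show g⁻¹ * e * g ∈ Γ.Q v
        rw [← mem_Q_smul, hg]; exact he.2.2.1
      · show g⁻¹ * e * g ∈ Γ.Q w
        rw [← mem_Q_smul, hgw]; exact he.2.1
    have h2 : g⁻¹ * t * g ∈ (T v w : Subgroup G) := by
      rw [← mem_T_smul, hg, hgw]; exact ht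
    have h3 := hET _ h1 _ h2
    calc t * e = g * ((g⁻¹ * t * g) * (g⁻¹ * e * g)) * g⁻¹ := by group
      _ = g * ((g⁻¹ * e * g) * (g⁻¹ * t * g)) * g⁻¹ := by rw [h3]
      _ = e * t := by group
  have hETw : ∀ e ∈ F, ∀ t ∈ (T w b : Subgroup G), t * e = e * t := by
    intro e he t ht
    obtain ⟨g, hg, hgw⟩ := exists_trans (Γ.symm hvw) hb
    have h1 : g⁻¹ * e * g ∈ E := by
      refine ⟨?_, ?_⟩
      · show g⁻¹ * e * g ∈ Γ.Q v
        rw [← mem_Q_smul, hgw]; exact he.1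
      · show g⁻¹ * e * g ∈ Γ.Q w
        rw [← mem_Q_smul, hg]; exact he.2.2.2
    have h2 : g⁻¹ * t * g ∈ (T v w : Subgroup G) := by
      rw [T_comm, ← mem_T_smul, hg, hgw]; exact ht
    have h3 := hET _ h1 _ h2
    calc t * e = g * ((g⁻¹ * t * g) * (g⁻¹ * e * g)) * g⁻¹ := by group
      _ = g * ((g⁻¹ * e * g) * (g⁻¹ * t * g)) * g⁻¹ := by rw [h3]
      _ = e * t := by group
  have hF : ∀ x ∈ F, x = 1 := by
    have hcomm : ∀ g : G, (∀ n ∈ F, g * n = n * g) → ∀ n ∈ F, g⁻¹ * n * g ∈ F := by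
      intro g hg n hn
      rw [mul_assoc, ← hg n hn, inv_mul_cancel_left]
      exact hn
    apply edge_bot Γ hvw F (fun n hn => ⟨hn.2.2.1.1, hn.2.2.2.1⟩)
    · intro x hx
      obtain ⟨y, hy, hyQ⟩ := exists_T_not_mem_Q ha
      obtain ⟨hy1, hy2⟩ := mem_T.1 hy
      have sy := swap_of_not_mem hy1 ha hvw hc1 haw hac hcw.symm hy2 hyQ
      obtain ⟨z, hz, hzQ⟩ := exists_T_not_mem_Q hvw
      obtain ⟨hz1, hz2⟩ := mem_T.1 hz
      have sz := swap_of_not_mem hz1 hvw ha hc1 haw.symm hcw.symm hac hz2 hzQ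
      have cy : ∀ n ∈ F, y * n = n * y := fun n hn => hETv n hn y hy
      have cz : ∀ n ∈ F, z * n = n * z := fun n hn => hET n hn.2.2 z hz
      rcases eq_or hvw ha hc1 hx haw.symm hcw.symm hac with rfl | rfl | rfl
      · exact ⟨1, hcomm 1 (fun n _ => by simp), one_smul _ _⟩
      · refine ⟨z * y, hcomm _ (fun n hn => ?_), by rw [mul_smul, sy.1, sz.2]⟩
        rw [mul_assoc, cy n hn, ← mul_assoc, cz n hn, mul_assoc]
      · exact ⟨y, hcomm _ cy, sy.1⟩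
    · intro x hx
      have hwv := Γ.symm hvw
      obtain ⟨y, hy, hyQ⟩ := exists_T_not_mem_Q hb
      obtain ⟨hy1, hy2⟩ := mem_T.1 hy
      have sy := swap_of_not_mem hy1 hb hwv hd hbv hbd hdv.symm hy2 hyQ
      obtain ⟨z, hz, hzQ⟩ := exists_T_not_mem_Q hwv
      obtain ⟨hz1, hz2⟩ := mem_T.1 hz
      have sz := swap_of_not_mem hz1 hwv hb hd hbv.symm hdv.symm hbd hz2 hzQ
      have cy : ∀ n ∈ F, y * n = n * y := fun n hn => hETw n hn y hy
      have cz : ∀ n ∈ F, z * n = n * z := fun n hn => hET n hn.2.2 z (by rw [T_comm]; exact hz)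
      rcases eq_or hwv hb hd hx hbv.symm hdv.symm hbd with rfl | rfl | rfl
      · exact ⟨1, hcomm 1 (fun n _ => by simp), one_smul _ _⟩
      · refine ⟨z * y, hcomm _ (fun n hn => ?_), by rw [mul_smul, sy.1, sz.2]⟩
        rw [mul_assoc, cy n hn, ← mul_assoc, cz n hn, mul_assoc]
      · exact ⟨y, hcomm _ cy, sy.1⟩
  have c0 := card_le_one_of_forall hF
  have f1 : ∀ L : Subgroup G, L ≤ Γ.Q v → Finite L := fun L hL => finSub Γ v fun x hx => (hL hx).1
  have half1 : Half F (Γ.Q a ⊓ E) := (half_Q' (Γ.symm hb)).inf_left (fun n hn => Q_le_T hb hn.2.2)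
  have half2 : Half (Γ.Q a ⊓ E) E := (half_Q' (Γ.symm ha)).inf_left (fun n hn => Q_le_T ha hn.1)
  have half3 : Half E (Γ.Q v) := by
    have : Half (Γ.Q w ⊓ Γ.Q v) (Γ.Q v) := (half_Q' (Γ.symm hvw)).inf_left (Q_le_T hvw)
    rw [inf_comm] at this
    exact this
  have c1 := card_le_two_of_forall _ half1 (f1 _ (fun x hx => hx.2.1)) c0
  have c2 := card_le_two_of_forall _ half2 (f1 _ (fun x hx => hx.1)) c1
  have c3 := card_le_two_of_forall _ half3 (f1 _ le_rfl) c2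
  have c4 := card_T_le hvw c3
  omega

omit hmin in
/-- **Case A**. -/
theorem card_le (hvw : Γ.A v w) : Nat.card (T v w : Subgroup G) ≤ 64 := by
  obtain ⟨n, hn0, ⟨p, hp, -, hc⟩, hmin⟩ := exists_min (Γ := Γ) (fun v => Γ.ZZ v) (fun _ => True) v trivial (by
    by_contra hcon
    push Not at hcon
    apply H.cen v
    intro a ha z hz g hg
    rw [hcon z (OZ_le_ZZ ha hz)]; simp)
  have hmin' : ∀ (p : ℤ → V) (i j : ℤ), i ≤ j → Γ.Arc p i j → j - i < n → Γ.ZZ (p i) ≤ Γ.Q (p j) :=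
    fun p i j h1 h2 h3 => hmin p i j h1 h2 trivial h3
  have hn1 : 1 ≤ n := by
    by_contra h
    have : n = 0 := by omega
    subst this
    exact hc H.ZZ_le_Q
  by_cases h3 : 3 ≤ n
  · exact absurd (H.le_two hmin' h3 hp hc) id
  by_cases h2 : n = 2
  · subst h2
    exact H.card_le_of_two hmin' hp hc hvw
  · have h1 : n = 1 := by omega
    subst h1
    have := H.card_le_of_one (hp.adj (k := 0) le_rfl (by omega)) (by simpa using hc) (by
      have := H.crit_rev hmin' (i := 0) (j := 1) (by ring) le_rfl hp hc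
      simpa using this)
    rw [card_T_eq hvw (hp.adj (k := 0) le_rfl (by omega))]
    omega

end CA

end Tri

end Cfsg.Agent.H209
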