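import Cfsg.Agent.H209.TriCATwo

/-!
# Case B: the involutions of `Z(T)` are central in the stabilizers of the vertices of type `τ`, not central in the
others
-/

set_option autoImplicit false

namespace Cfsg.Agent.H209

open MulAction

namespace Tri

variable {G V : Type*} [Group G] [MulAction G V] {Γ : Tri G V}
variable {u v w a b c d l m p q s : V} {g h t x y z : G} {τ : Bool}

namespace NP

variable (H : NP Γ)

include H

theorem OZT_le_Q (ha : Γ.A v a) : OZ (T v a : Subgroup G) ≤ Γ.Q v := by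
  intro x hx
  apply H.cent v x (mem_T.1 hx.1).1
  intro d hd
  exact hx.2.2 d (Q_le_T ha hd)

theorem ZZ_le_Q : Γ.ZZ v ≤ Γ.Q v := by
  unfold ZZ
  rw [Subgroup.closure_le]
  rintro x ⟨a, ha, hx⟩
  exact H.OZT_le_Q ha hx

theorem ZZ_comm' (hx : x ∈ Γ.ZZ v) (hy : y ∈ Γ.ZZ v) : x * y = y * x := ZZ_comm hx (H.ZZ_le_Q hy)

theorem ZZ_sq {x : G} (hx : x ∈ Γ.ZZ v) : x * x = 1 := by
  have hx' := hx
  unfold ZZ at hx
  induction hx using Subgroup.closure_induction with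
  | mem x hx =>
    obtain ⟨a, ha, hx⟩ := hx
    exact hx.2.1
  | one => simp
  | mul x y hx hy h1 h2 =>
    have h3 := ZZ_comm hy (H.ZZ_le_Q hx)
    calc x * y * (x * y) = x * (y * x) * y := by group
      _ = (x * x) * (y * y) := by rw [h3]; group
      _ = 1 := by rw [h1 hx, h2 hy, one_mul]
  | inv x hx h1 =>
    have h1' := h1 hx
    rw [← mul_inv_rev, h1', inv_one]

theorem ZZ_inv {x : G} (hx : x ∈ Γ.ZZ v) : x⁻¹ = x := inv_eq_of_mul_eq_one_left (H.ZZ_sq hx)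

end NP

/-- the central involutions of the stabilizer of `p` -/
def ZB (G : Type*) {V : Type*} [Group G] [MulAction G V] (p : V) : Subgroup G := OZ (stabilizer G p)

omit Γ in
theorem mem_ZB : x ∈ ZB G p ↔ x • p = p ∧ x * x = 1 ∧ ∀ g : G, g • p = p → g * x = x * g := by
  unfold ZB
  rw [mem_OZ, mem_stabilizer_iff]
  constructor
  · rintro ⟨h1, h2, h3⟩
    exact ⟨h1, h2, fun g hg => (h3 g (mem_stabilizer_iff.2 hg)).symm⟩
  · rintro ⟨h1, h2, h3⟩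
    exact ⟨h1, h2, fun g hg => (h3 g (mem_stabilizer_iff.1 hg)).symm⟩

omit Γ in
theorem ZB_comm (hx : x ∈ ZB G p) (hg : g • p = p) : g * x = x * g := (mem_ZB.1 hx).2.2 g hg

omit Γ in
theorem ZB_sq (hx : x ∈ ZB G p) : x * x = 1 := (mem_ZB.1 hx).2.1

omit Γ in
theorem ZB_inv (hx : x ∈ ZB G p) : x⁻¹ = x := inv_eq_of_mul_eq_one_left (ZB_sq hx)

omit Γ in
theorem conj_mem_ZB (hx : x ∈ ZB G p) (h : G) : h * x * h⁻¹ ∈ ZB G (h • p) := by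
  obtain ⟨h1, h2, h3⟩ := mem_ZB.1 hx
  refine mem_ZB.2 ⟨conj_fix h1 h, ?_, fun g hg => ?_⟩
  · calc h * x * h⁻¹ * (h * x * h⁻¹) = h * (x * x) * h⁻¹ := by group
      _ = 1 := by rw [h2]; group
  · have h4 : (h⁻¹ * g * h) • p = p := by
      rw [mul_smul, mul_smul, inv_smul_eq_iff]; exact hg
    have h5 := h3 _ h4
    calc g * (h * x * h⁻¹) = h * ((h⁻¹ * g * h) * x) * h⁻¹ := by group
      _ = h * (x * (h⁻¹ * g * h)) * h⁻¹ := by rw [h5]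
      _ = h * x * h⁻¹ * g := by group

omit Γ in
theorem conj_mem_ZB_of_eq (hx : x ∈ ZB G p) (hh : h • p = q) : h * x * h⁻¹ ∈ ZB G q := by
  rw [← hh]; exact conj_mem_ZB hx h

omit Γ in
theorem conj_ZB (hx : x ∈ ZB G p) (hh : h • p = p) : h * x * h⁻¹ = x := by
  rw [ZB_comm hx hh, mul_inv_cancel_right]

omit Γ in
/-- conjugates depend only on the image of the vertex -/
theorem conj_ZB_eq (hx : x ∈ ZB G p) (hh : h • p = g • p) : h * x * h⁻¹ = g * x * g⁻¹ := by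
  have h1 : (g⁻¹ * h) • p = p := by rw [mul_smul, hh, inv_smul_smul]
  have h2 := conj_ZB hx h1
  calc h * x * h⁻¹ = g * ((g⁻¹ * h) * x * (g⁻¹ * h)⁻¹) * g⁻¹ := by group
    _ = g * x * g⁻¹ := by rw [h2]

/-- the hypotheses of Case B -/
structure CB (Γ : Tri G V) (τ : Bool) : Prop where
  np : NP Γ
  cenb : ∀ p a, Γ.ty p = τ → Γ.A p a → ∀ z ∈ OZ (T p a : Subgroup G), ∀ g : G, g • p = p → g * z = z * g
  cena : ∀ l, Γ.ty l = !τ → ¬ (∀ a, Γ.A l a → ∀ z ∈ OZ (T l a : Subgroup G), ∀ g : G, g • l = l → g * z = z * g)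

namespace CB

variable (H : CB Γ τ)

include H

omit H in
theorem ty_nbr (hl : Γ.ty l = !τ) (hp : Γ.A l p) : Γ.ty p = τ := by rw [Γ.ty_adj hp, hl, Bool.not_not]

omit H in
theorem ty_nbr' (hp : Γ.ty p = τ) (hl : Γ.A p l) : Γ.ty l = !τ := by rw [Γ.ty_adj hl, hp]

theorem ZB_le_Q : ZB G p ≤ Γ.Q p := by
  intro x hx
  obtain ⟨h1, h2, h3⟩ := mem_ZB.1 hx
  exact H.np.cent p x h1 (fun q hq => (h3 q hq.1).symm)

theorem OZ_T_eq (hp : Γ.ty p = τ) (ha : Γ.A p a) : OZ (T p a : Subgroup G) = ZB G p := by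
  apply le_antisymm
  · intro x hx
    exact mem_ZB.2 ⟨(mem_T.1 hx.1).1, hx.2.1, H.cenb p a hp ha x hx⟩
  · intro x hx
    obtain ⟨h1, h2, h3⟩ := mem_ZB.1 hx
    exact ⟨Q_le_T ha (H.ZB_le_Q hx), h2, fun g hg => (h3 g (mem_T.1 hg).1).symm⟩

theorem ZB_le_ZZ (hp : Γ.ty p = τ) (hl : Γ.A l p) : ZB G p ≤ Γ.ZZ l := by
  rw [← H.OZ_T_eq hp (Γ.symm hl), T_comm]
  exact OZ_le_ZZ hl

theorem ZB_ne (hp : Γ.ty p = τ) : ∃ x ∈ ZB G p, x ≠ 1 := by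
  obtain ⟨a, ha⟩ := ex_adj Γ p
  rw [← H.OZ_T_eq hp ha]
  obtain ⟨g, hg, hgQ⟩ := exists_T_not_mem_Q ha
  exact exists_OZ (finT Γ p a) (isPGroup_T ha) ⟨g, hg, fun h => hgQ (by rw [h]; exact one_mem _)⟩

/-- F2 -/
theorem ZB_inf (hp : Γ.A l p) (hq : Γ.A l q) (hpq : p ≠ q) (hty : Γ.ty p = τ) (h1 : x ∈ ZB G p)
    (h2 : x ∈ ZB G q) : x = 1 := by
  obtain ⟨s, hs, hsp, hsq, -⟩ := exists_third hp hq hpq
  have hcomm : ∀ g : G, (∀ n ∈ ZB G p ⊓ ZB G q, g * n = n * g) → ∀ n ∈ ZB G p ⊓ ZB G q, g⁻¹ * n * g ∈ ZB G p ⊓ ZB G q := by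
    intro g hg n hn
    rw [mul_assoc, ← hg n hn, inv_mul_cancel_left]
    exact hn
  apply edge_bot Γ hp (ZB G p ⊓ ZB G q) _ _ _ x ⟨h1, h2⟩
  · intro n hn
    have := H.ZB_le_Q hn.1
    exact ⟨this.2 l (Γ.symm hp), this.1⟩
  · intro y hy
    obtain ⟨f, hf, hfQ⟩ := exists_T_not_mem_Q hq
    obtain ⟨hf1, hf2⟩ := mem_T.1 hf
    have sf := swap_of_not_mem hf1 hq hp hs hpq.symm hsq.symm hsp.symm hf2 hfQ
    obtain ⟨e, he, heQ⟩ := exists_T_not_mem_Q hp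
    obtain ⟨he1, he2⟩ := mem_T.1 he
    have se := swap_of_not_mem he1 hp hq hs hpq hsp.symm hsq.symm he2 heQ
    have cf : ∀ n ∈ ZB G p ⊓ ZB G q, f * n = n * f := fun n hn => ZB_comm hn.2 hf2
    have ce : ∀ n ∈ ZB G p ⊓ ZB G q, e * n = n * e := fun n hn => ZB_comm hn.1 he2
    rcases eq_or hp hq hs hy hpq hsp.symm hsq.symm with rfl | rfl | rfl
    · exact ⟨1, hcomm 1 (fun n _ => by simp), one_smul _ _⟩
    · refine ⟨e * f, hcomm _ (fun n hn => ?_), by rw [mul_smul, sf.1, se.2]⟩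
      rw [mul_assoc, cf n hn, ← mul_assoc, ce n hn, mul_assoc]
    · exact ⟨f, hcomm f cf, sf.1⟩
  · intro y hy
    obtain ⟨g, hg, hgy⟩ := exists_trans (Γ.symm hp) hy
    exact ⟨g, hcomm g (fun n hn => ZB_comm hn.1 hg), hgy⟩

/-- F3 -/
theorem prod_eq_one (hp : Γ.A l p) (hq : Γ.A l q) (hs : Γ.A l s) (hpq : p ≠ q) (hps : p ≠ s) (hqs : q ≠ s)
    (hty : Γ.ty p = τ) (hx : x ∈ ZB G p) (hg : g • l = l) (hgp : g • p = q) (hh : h • l = l) (hhp : h • p = s) :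
    x * (g * x * g⁻¹) * (h * x * h⁻¹) = 1 := by
  have hyq : g * x * g⁻¹ ∈ ZB G q := conj_mem_ZB_of_eq hx hgp
  have hzs : h * x * h⁻¹ ∈ ZB G s := conj_mem_ZB_of_eq hx hhp
  have tyq : Γ.ty q = τ := by rw [← hty]; exact ty_eq_of_adj hq hp
  have tys : Γ.ty s = τ := by rw [← hty]; exact ty_eq_of_adj hs hp
  -- a symmetric statement
  have key : ∀ (p q s : V) (x y z : G), Γ.A l p → Γ.A l q → Γ.A l s → p ≠ q → p ≠ s → q ≠ s → Γ.ty p = τ →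
      x ∈ ZB G p → y ∈ ZB G q → z ∈ ZB G s → (∀ k : G, k • l = l → k • q = s → k * y * k⁻¹ = z) →
      (∀ k : G, k • l = l → k • s = q → k * z * k⁻¹ = y) → x * y * z ∈ ZB G p := by
    intro p q s x y z hp hq hs hpq hps hqs hty hx hy hz h1 h2
    have tyq : Γ.ty q = τ := by rw [← hty]; exact ty_eq_of_adj hq hp
    have tys : Γ.ty s = τ := by rw [← hty]; exact ty_eq_of_adj hs hp
    have zx := H.ZB_le_ZZ hty hp hx
    have zy := H.ZB_le_ZZ tyq hq hy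
    have zz := H.ZB_le_ZZ tys hs hz
    rw [← H.OZ_T_eq hty (Γ.symm hp), T_comm]
    have hmem : x * y * z ∈ Γ.ZZ l := mul_mem (mul_mem zx zy) zz
    refine ⟨Q_le_T hp (H.np.ZZ_le_Q hmem), H.np.ZZ_sq hmem, fun k hk => ?_⟩
    obtain ⟨hk1, hk2⟩ := mem_T.1 hk
    by_cases hkQ : k ∈ Γ.Q l
    · exact ZZ_comm hmem hkQ
    · have sk := swap_of_not_mem hk1 hp hq hs hpq hps hqs hk2 hkQ
      have e1 := h1 k hk1 sk.1
      have e2 := h2 k hk1 sk.2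
      have e3 := conj_ZB hx hk2
      have e4 := H.np.ZZ_comm' zy zz
      have e5 : k * (x * y * z) * k⁻¹ = x * y * z := by
        calc k * (x * y * z) * k⁻¹ = (k * x * k⁻¹) * (k * y * k⁻¹) * (k * z * k⁻¹) := by group
          _ = x * z * y := by rw [e1, e2, e3]
          _ = x * (y * z) := by rw [mul_assoc, e4]
          _ = x * y * z := by group
      calc x * y * z * k = (k * (x * y * z) * k⁻¹) * k := by rw [e5]
        _ = k * (x * y * z) := by group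
  have cxy : ∀ k : G, k • l = l → k • q = s → k * (g * x * g⁻¹) * k⁻¹ = h * x * h⁻¹ := by
    intro k hk hkq
    have := conj_ZB_eq (h := k * g) (g := h) hx (by rw [mul_smul, hgp, hkq, hhp])
    rw [← this]; group
  have cyx : ∀ k : G, k • l = l → k • s = q → k * (h * x * h⁻¹) * k⁻¹ = g * x * g⁻¹ := by
    intro k hk hks
    have := conj_ZB_eq (h := k * h) (g := g) hx (by rw [mul_smul, hhp, hks, hgp])
    rw [← this]; group
  have cps : ∀ k : G, k • l = l → k • p = s → k * x * k⁻¹ = h * x * h⁻¹ := by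
    intro k hk hkp
    exact conj_ZB_eq hx (by rw [hkp, hhp])
  have csp : ∀ k : G, k • l = l → k • s = p → k * (h * x * h⁻¹) * k⁻¹ = x := by
    intro k hk hks
    have := conj_ZB_eq (h := k * h) (g := 1) hx (by rw [mul_smul, hhp, hks, one_smul])
    rw [inv_one, mul_one, one_mul] at this
    calc k * (h * x * h⁻¹) * k⁻¹ = (k * h) * x * (k * h)⁻¹ := by group
      _ = x := this
  have m1 : x * (g * x * g⁻¹) * (h * x * h⁻¹) ∈ ZB G p :=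
    key p q s x _ _ hp hq hs hpq hps hqs hty hx hyq hzs cxy cyx
  have m2 : (g * x * g⁻¹) * x * (h * x * h⁻¹) ∈ ZB G q :=
    key q p s _ x _ hq hp hs hpq.symm hqs hps tyq hyq hx hzs cps csp
  have e : (g * x * g⁻¹) * x = x * (g * x * g⁻¹) :=
    H.np.ZZ_comm' (H.ZB_le_ZZ tyq hq hyq) (H.ZB_le_ZZ hty hp hx)
  rw [e] at m2
  exact H.ZB_inf hp hq hpq hty m1 m2

/-- `ZZ l = ZB p * ZB q` -/
theorem ZZ_decomp (hl : Γ.ty l = !τ) (hp : Γ.A l p) (hq : Γ.A l q) (hpq : p ≠ q) (hx : x ∈ Γ.ZZ l) :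
    ∃ a ∈ ZB G p, ∃ b ∈ ZB G q, x = a * b := by
  have typ := ty_nbr hl hp
  have tyq := ty_nbr hl hq
  obtain ⟨s, hs, hsp, hsq, -⟩ := exists_third hp hq hpq
  have tys := ty_nbr hl hs
  unfold ZZ at hx
  induction hx using Subgroup.closure_induction with
  | mem x hx =>
    obtain ⟨c, hc, hx⟩ := hx
    rw [T_comm, H.OZ_T_eq (ty_nbr hl hc) (Γ.symm hc)] at hx
    rcases eq_or hp hq hs hc hpq hsp.symm hsq.symm with rfl | rfl | rfl
    · exact ⟨x, hx, 1, one_mem _, by rw [mul_one]⟩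
    · exact ⟨1, one_mem _, x, hx, by rw [one_mul]⟩
    · obtain ⟨g, hg, hgp⟩ := exists_trans hc hp
      obtain ⟨h, hh, hhq⟩ := exists_trans hc hq
      have h1 := H.prod_eq_one hc hp hq hsp hsq hpq tys hx hg hgp hh hhq
      refine ⟨_, conj_mem_ZB_of_eq hx hgp, _, conj_mem_ZB_of_eq hx hhq, ?_⟩
      calc x = x⁻¹ := (ZB_inv hx).symm
        _ = x⁻¹ * (x * (g * x * g⁻¹) * (h * x * h⁻¹)) := by rw [h1, mul_one]
        _ = g * x * g⁻¹ * (h * x * h⁻¹) := by group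
  | one => exact ⟨1, one_mem _, 1, one_mem _, by rw [one_mul]⟩
  | mul x y _ _ h1 h2 =>
    obtain ⟨a, ha, b, hb, rfl⟩ := h1
    obtain ⟨a', ha', b', hb', rfl⟩ := h2
    refine ⟨a * a', mul_mem ha ha', b * b', mul_mem hb hb', ?_⟩
    have := H.np.ZZ_comm' (H.ZB_le_ZZ tyq hq hb) (H.ZB_le_ZZ typ hp ha')
    calc a * b * (a' * b') = a * (b * a') * b' := by group
      _ = a * (a' * b) * b' := by rw [this]
      _ = a * a' * (b * b') := by group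
  | inv x _ h1 =>
    obtain ⟨a, ha, b, hb, rfl⟩ := h1
    refine ⟨a⁻¹, inv_mem ha, b⁻¹, inv_mem hb, ?_⟩
    have := H.np.ZZ_comm' (H.ZB_le_ZZ typ hp ha) (H.ZB_le_ZZ tyq hq hb)
    rw [this, mul_inv_rev]

/-- F4, first part: `T l p` acts on `ZZ l` trivially modulo `ZB p` -/
theorem ZZ_act (hl : Γ.ty l = !τ) (hp : Γ.A l p) (ht : t ∈ (T l p : Subgroup G)) (hx : x ∈ Γ.ZZ l) :
    ∃ c ∈ ZB G p, t * x * t⁻¹ = x * c := by
  obtain ⟨ht1, ht2⟩ := mem_T.1 ht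
  obtain ⟨q, s, hq, hs, hqp, hsp, hqs, -⟩ := exists_others hp
  have typ := ty_nbr hl hp
  have tyq := ty_nbr hl hq
  obtain ⟨a, ha, b, hb, rfl⟩ := H.ZZ_decomp hl hp hq hqp.symm hx
  by_cases htQ : t ∈ Γ.Q l
  · refine ⟨1, one_mem _, ?_⟩
    rw [← ZZ_comm hx htQ]; group
  · have st := swap_of_not_mem ht1 hp hq hs hqp.symm hsp.symm hqs ht2 htQ
    obtain ⟨k, hk, hkq⟩ := exists_trans hq hp
    have h1 := H.prod_eq_one hq hp hs hqp hqs hsp.symm tyq hb hk hkq ht1 st.1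
    refine ⟨k * b * k⁻¹, conj_mem_ZB_of_eq hb hkq, ?_⟩
    have e1 := conj_ZB ha ht2
    have e2 : t * b * t⁻¹ = b * (k * b * k⁻¹) := by
      have h2 : (b * (k * b * k⁻¹))⁻¹ = t * b * t⁻¹ := inv_eq_of_mul_eq_one_right h1
      have h3 : b * (k * b * k⁻¹) ∈ Γ.ZZ l :=
        mul_mem (H.ZB_le_ZZ tyq hq hb) (H.ZB_le_ZZ typ hp (conj_mem_ZB_of_eq hb hkq))
      rw [← h2, H.np.ZZ_inv h3]
    calc t * (a * b) * t⁻¹ = (t * a * t⁻¹) * (t * b * t⁻¹) := by group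
      _ = a * b * (k * b * k⁻¹) := by rw [e1, e2]; group

/-- F4, second part -/
theorem ZZ_cent (hl : Γ.ty l = !τ) (hp : Γ.A l p) (ht : t ∈ (T l p : Subgroup G)) (htQ : t ∉ Γ.Q l)
    (hx : x ∈ Γ.ZZ l) (hc : t * x = x * t) : x ∈ ZB G p := by
  obtain ⟨ht1, ht2⟩ := mem_T.1 ht
  obtain ⟨q, s, hq, hs, hqp, hsp, hqs, -⟩ := exists_others hp
  obtain ⟨a, ha, b, hb, rfl⟩ := H.ZZ_decomp hl hp hq hqp.symm hx
  have st := swap_of_not_mem ht1 hp hq hs hqp.symm hsp.symm hqs ht2 htQ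
  have e1 := ZB_comm ha ht2
  have e2 : t * b * t⁻¹ = b := by
    have : a * (t * b * t⁻¹) = a * b := by
      calc a * (t * b * t⁻¹) = (a * t) * b * t⁻¹ := by group
        _ = (t * (a * b)) * t⁻¹ := by rw [← e1]; group
        _ = a * b := by rw [hc]; group
    exact mul_left_cancel this
  have h1 : t * b * t⁻¹ ∈ ZB G s := conj_mem_ZB_of_eq hb st.1
  rw [e2] at h1
  rw [H.ZB_inf hq hs hqs (ty_nbr hl hq) hb h1, mul_one]
  exact ha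

/-- F5 -/
theorem mem_Q_of_comm (hl : Γ.ty l = !τ) (hg : g • l = l) (hc : ∀ x ∈ Γ.ZZ l, g * x = x * g) : g ∈ Γ.Q l := by
  by_contra hgQ
  apply H.cena l hl
  intro a ha z hz k hk
  obtain ⟨c, hc1, hc2, hc3⟩ := cent_trans (N := Γ.ZZ l) (fun k hk n hn => conj_mem_ZZ_of_eq hn hk)
    ⟨g, hg, hc, hgQ⟩ ha (A_of_fix hk ha)
  have h1 : c⁻¹ * k ∈ (T l a : Subgroup G) := by
    rw [mem_T]
    refine ⟨mul_fix (inv_fix hc1) hk, ?_⟩
    rw [mul_smul, ← hc3, inv_smul_smul]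
  have h2 := hz.2.2 _ h1
  have h3 := hc2 z (OZ_le_ZZ ha hz)
  calc k * z = c * ((c⁻¹ * k) * z) := by group
    _ = c * (z * (c⁻¹ * k)) := by rw [h2]
    _ = (c * z) * c⁻¹ * k := by group
    _ = (z * c) * c⁻¹ * k := by rw [h3]
    _ = z * k := by group

/-- F6 -/
theorem ZZ_inter (hp : Γ.ty p = τ) (hl : Γ.A p l) (hm : Γ.A p m) (hlm : l ≠ m) (hxl : x ∈ Γ.ZZ l)
    (hxm : x ∈ Γ.ZZ m) : x ∈ ZB G p := by
  obtain ⟨q, hq, hql⟩ := Set.not_subset.1 (H.np.npu p m l hm hl hlm.symm)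
  have hq1 : q ∈ Γ.Q p := hq.1
  have hq2 : q ∈ Γ.Q m := hq.2
  exact H.ZZ_cent (ty_nbr' hp hl) (Γ.symm hl) (Q_le_T' hl hq1) hql hxl (ZZ_comm hxm hq2).symm

/-- an element centralising `ZZ l` and fixing a neighbour of `l` fixes `l` -/
theorem mem_Q_of_comm' (hp : Γ.ty p = τ) (hl : Γ.A p l) (hg : g • p = p) (hc : ∀ x ∈ Γ.ZZ l, g * x = x * g) :
    g ∈ Γ.Q l := by
  have tyl := ty_nbr' hp hl
  apply H.mem_Q_of_comm tyl _ hc
  by_contra hne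
  obtain ⟨q, hq, hqp⟩ := exists_ne (Γ.symm hl)
  obtain ⟨x, hx, hx1⟩ := H.ZB_ne (ty_nbr tyl hq)
  have h1 : x ∈ Γ.ZZ l := H.ZB_le_ZZ (ty_nbr tyl hq) hq hx
  have h2 : x ∈ Γ.ZZ (g • l) := by
    have := conj_mem_ZZ h1 g
    rwa [hc x h1, mul_inv_cancel_right] at this
  have h3 := H.ZZ_inter hp hl (A_of_fix hg hl) (Ne.symm hne) h1 h2
  exact hx1 (H.ZB_inf hq (Γ.symm hl) hqp (ty_nbr tyl hq) hx h3)

/-- B1 -/
theorem ZZ_le_Q_nbr (hl : Γ.ty l = !τ) (hp : Γ.A l p) : Γ.ZZ l ≤ Γ.Q p := by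
  intro z hz
  by_contra hzp
  have typ := ty_nbr hl hp
  have hzl := H.np.ZZ_le_Q hz
  have hzp1 : z • p = p := hzl.2 p hp
  obtain ⟨m, m', hm, hm', hml, hm'l, hmm, -⟩ := exists_others (Γ.symm hp)
  have sz := swap_of_not_mem hzp1 (Γ.symm hp) hm hm' hml.symm hm'l.symm hmm hzl.1 hzp
  apply H.np.npu p m m' hm hm' hmm
  intro q hq
  have hqp : q ∈ Γ.Q p := hq.1
  have hqm : q ∈ Γ.Q m := hq.2
  obtain ⟨c, hc, e⟩ := H.ZZ_act hl hp (Q_le_T' (Γ.symm hp) hqp) hz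
  have h1 : z⁻¹ * q * z⁻¹⁻¹ ∈ Γ.Q m' := conj_mem_Q_of_eq hqm (by rw [← sz.2, inv_smul_smul])
  have h2 : c ∈ Γ.Q m' := H.np.ZZ_le_Q (H.ZB_le_ZZ typ (Γ.symm hm') hc)
  have e2 : z⁻¹ * q * z⁻¹⁻¹ = c * q := by
    calc z⁻¹ * q * z⁻¹⁻¹ = z⁻¹ * (q * z * q⁻¹) * q := by group
      _ = z⁻¹ * (z * c) * q := by rw [e]
      _ = c * q := by group
  rw [e2] at h1
  exact (mul_mem_cancel_left h2).1 h1

/-- all involutions of `ZB p` are equal -/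
theorem K1_of (hl : Γ.ty l = !τ) (hp : Γ.A l p) (h1 : ∀ x ∈ Γ.ZZ l, x ∈ Γ.Q w → x ∈ ZB G p)
    (h2 : ∀ x ∈ Γ.ZZ l, ∀ y ∈ Γ.ZZ l, x ∉ Γ.Q w → y ∉ Γ.Q w → x * y ∈ Γ.Q w) :
    ∀ q, Γ.ty q = τ → ∀ x ∈ ZB G q, ∀ y ∈ ZB G q, x ≠ 1 → y ≠ 1 → x = y := by
  obtain ⟨s, hs, hsp⟩ := exists_ne hp
  have tys := ty_nbr hl hs
  intro q hq x hx y hy hx1 hy1
  obtain ⟨a, ha⟩ := ex_adj Γ q
  obtain ⟨g, hg, -⟩ := Γ.trans ha (Γ.symm hs) (by rw [hq, tys])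
  have hx' := conj_mem_ZB_of_eq hx hg
  have hy' := conj_mem_ZB_of_eq hy hg
  have key : ∀ x, x ∈ ZB G q → x ≠ 1 → g * x * g⁻¹ ∉ Γ.Q w := by
    intro x hx hx1 hxQ
    have hx' := conj_mem_ZB_of_eq hx hg
    have h3 := h1 _ (H.ZB_le_ZZ tys hs hx') hxQ
    have h4 := H.ZB_inf hs hp hsp tys hx' h3
    apply hx1
    calc x = g⁻¹ * (g * x * g⁻¹) * g := by group
      _ = 1 := by rw [h4]; group
  have h3 := h2 _ (H.ZB_le_ZZ tys hs hx') _ (H.ZB_le_ZZ tys hs hy') (key x hx hx1) (key y hy hy1)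
  have hxy := mul_mem hx' hy'
  have h4 := h1 _ (H.ZB_le_ZZ tys hs hxy) h3
  have h5 := H.ZB_inf hs hp hsp tys hxy h4
  have h6 : x * y = 1 := by
    calc x * y = g⁻¹ * (g * x * g⁻¹ * (g * y * g⁻¹)) * g := by group
      _ = 1 := by rw [h5]; group
  rw [← ZB_inv hx]
  exact inv_eq_of_mul_eq_one_right h6

/-- the central involutions -/
theorem exists_Pts (h : ∀ q, Γ.ty q = τ → ∀ x ∈ ZB G q, ∀ y ∈ ZB G q, x ≠ 1 → y ≠ 1 → x = y) :
    ∃ r : V → G, Pts Γ τ r ∧ ∀ p, Γ.ty p = τ → r p ∈ ZB G p ∧ ∀ x ∈ ZB G p, x = 1 ∨ x = r p := by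
  classical
  have hex : ∀ p, ∃ z : G, Γ.ty p = τ → z ∈ ZB G p ∧ z ≠ 1 := by
    intro p
    by_cases hp : Γ.ty p = τ
    · obtain ⟨z, hz, hz1⟩ := H.ZB_ne hp
      exact ⟨z, fun _ => ⟨hz, hz1⟩⟩
    · exact ⟨1, fun h => absurd h hp⟩
  choose r hr using hex
  have hconj : ∀ (p : V) (g : G), Γ.ty p = τ → g * r p * g⁻¹ = r (g • p) := by
    intro p g hp
    have hgp : Γ.ty (g • p) = τ := by rw [Γ.ty_smul, hp]
    apply h _ hgp _ (conj_mem_ZB (hr p hp).1 g) _ (hr _ hgp).1 _ (hr _ hgp).2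
    intro h1
    apply (hr p hp).2
    calc r p = g⁻¹ * (g * r p * g⁻¹) * g := by group
      _ = 1 := by rw [h1]; group
  refine ⟨r, ⟨fun p hp => (hr p hp).2, fun p hp => ZB_sq (hr p hp).1, fun p hp => (mem_ZB.1 (hr p hp).1).1,
    hconj, ?_⟩, fun p hp => ⟨(hr p hp).1, fun x hx => ?_⟩⟩
  · intro l p q s hp hq hs hpq hps hqs hty
    obtain ⟨g, hg, hgp⟩ := exists_trans hp hq
    obtain ⟨k, hk, hkp⟩ := exists_trans hp hs
    have h1 := H.prod_eq_one hp hq hs hpq hps hqs hty (hr p hty).1 hg hgp hk hkp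
    rw [hconj p g hty, hconj p k hty, hgp, hkp] at h1
    have tys : Γ.ty s = τ := by rw [← hty]; exact ty_eq_of_adj hs hp
    have h2 : (r s)⁻¹ = r s := ZB_inv (hr s tys).1
    rw [← h2]
    exact eq_inv_of_mul_eq_one_left h1
  · by_cases h1 : x = 1
    · exact Or.inl h1
    · exact Or.inr (h p hp x hx _ (hr p hp).1 h1 (hr p hp).2)

end CB

end Tri

end Cfsg.Agent.H209
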