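import Cfsg.Agent.H209.TriCB

/-!
# Case B, even critical distance
-/

set_option autoImplicit false

namespace Cfsg.Agent.H209

open MulAction

namespace Tri

variable {G V : Type*} [Group G] [MulAction G V] {Γ : Tri G V}
variable {u v w a b c d l m s : V} {g h t x y z : G} {τ : Bool}

/-- an involution central in the stabilizers of both ends of an arc of length `2 m` -/
theorem Pts.mid_bot {r : V → G} (R : Pts Γ τ r) {p : ℤ → V} {i m : ℤ} (hm : 1 ≤ m) (hp : Γ.Arc p i (i + 2 * m))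
    (hty : Γ.ty (p i) = τ) (heq : r (p i) = r (p (i + 2 * m))) (hfix : Fixes (r (p i)) p i (i + m))
    (hM : ∀ k : ℤ, 1 ≤ k → k < m → ∀ τ', MvT Γ k τ') (hMm : MvT Γ m (Γ.ty (p (i + m)))) : False := by
  have hty2 : Γ.ty (p (i + 2 * m)) = τ := by
    rw [← hty]; exact hp.ty_even (by omega) (by omega) (by omega) (by omega) (by omega)
  apply R.ne _ hty
  apply arc_bot_elt Γ (r (p i)) (i := i) (j := i + m) (by omega) (hp.sub le_rfl (by omega)) hfix
  · intro x hx
    obtain ⟨g, hg, hgx⟩ := exists_trans (hp.adj (k := i) le_rfl (by omega)) hx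
    exact ⟨g, R.comm hty hg, i + 1, by omega, by omega, hgx⟩
  · intro x hx
    have hA : Γ.A (p (i + m)) (p (i + m - 1)) := hp.adj' (by omega) (by omega)
    have hB : Γ.A (p (i + m)) (p (i + m + 1)) := hp.adj (by omega) (by omega)
    have hAB : p (i + m - 1) ≠ p (i + m + 1) := hp.ne (by omega) (by omega) (by ring)
    obtain ⟨s, hs, hsA, hsB, -⟩ := exists_third hA hB hAB
    obtain ⟨g1, hg1, hg1Q⟩ := hMm p i (hp.sub le_rfl (by omega)) rfl
    have s1 := swap_of_not_mem (hg1 (i + m) (by omega) le_rfl) hA hB hs hAB hsA.symm hsB.symm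
      (hg1 (i + m - 1) (by omega) (by omega)) hg1Q
    have e0 : i + (i + 2 * m) - (i + m) = i + m := by ring
    have e1 : i + (i + 2 * m) - i = i + 2 * m := by ring
    obtain ⟨g2, hg2, hg2Q⟩ := hMm (fun k => p (i + (i + 2 * m) - k)) i (by
      have := hp.rev (i + (i + 2 * m))
      exact this.sub (by omega) (by omega)) (by simp only [e0])
    simp only [e0] at hg2Q
    have hg2' : ∀ k, i + m ≤ k → k ≤ i + 2 * m → g2 • p k = p k := by
      intro k h1 h2
      have := hg2 (i + (i + 2 * m) - k) (by omega) (by omega)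
      have e2 : i + (i + 2 * m) - (i + (i + 2 * m) - k) = k := by ring
      simp only [e2] at this
      exact this
    have s2 := swap_of_not_mem (hg2' (i + m) le_rfl (by omega)) hB hA hs hAB.symm hsB.symm hsA.symm
      (hg2' (i + m + 1) (by omega) (by omega)) hg2Q
    have c1 := R.comm hty (hg1 i le_rfl (by omega))
    have c2 : g2 * r (p i) = r (p i) * g2 := by
      rw [heq]; exact R.comm hty2 (hg2' (i + 2 * m) (by omega) le_rfl)
    rcases eq_or hA hB hs hx hAB hsA.symm hsB.symm with rfl | rfl | rfl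
    · exact ⟨1, by simp, i + m - 1, by omega, by omega, one_smul _ _⟩
    · refine ⟨g1 * g2, ?_, i + m - 1, by omega, by omega, by rw [mul_smul, s2.1, s1.2]⟩
      rw [mul_assoc, c2, ← mul_assoc, c1, mul_assoc]
    · exact ⟨g2, c2, i + m - 1, by omega, by omega, s2.1⟩
  · intro k h1 h2
    have e : i + (k - i) = k := by ring
    obtain ⟨g, hg, hgQ⟩ := hM (k - i) (by omega) (by omega) (Γ.ty (p k)) p i (hp.sub le_rfl (by omega)) (by rw [e])
    rw [e] at hg hgQ
    exact ⟨g, R.comm hty (hg i le_rfl (by omega)), hg k (by omega) le_rfl, Or.inl (hg (k - 1) (by omega) (by omega)), hgQ⟩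

/-- `VB p = ⟨ZZ l | l ~ p⟩` -/
def VB (Γ : Tri G V) (v : V) : Subgroup G := Subgroup.closure {x | ∃ l, Γ.A v l ∧ x ∈ Γ.ZZ l}

theorem ZZ_le_VB (hl : Γ.A v l) : Γ.ZZ l ≤ Γ.VB v := fun _ hx => Subgroup.subset_closure ⟨l, hl, hx⟩

theorem conj_mem_VB {x : G} (hx : x ∈ Γ.VB v) (h : G) : h * x * h⁻¹ ∈ Γ.VB (h • v) := by
  refine conj_mem_closure h ?_ hx
  rintro y ⟨a, ha, hy⟩
  exact Subgroup.subset_closure ⟨h • a, Γ.smul h ha, conj_mem_ZZ hy h⟩

theorem conj_mem_VB_of_eq {x : G} (hx : x ∈ Γ.VB v) (hh : h • v = w) : h * x * h⁻¹ ∈ Γ.VB w := by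
  have := conj_mem_VB hx h
  rwa [hh] at this

namespace CB

variable (H : CB Γ τ)

include H

theorem VB_le_Q {p : V} (hp : Γ.ty p = τ) : Γ.VB p ≤ Γ.Q p := by
  unfold VB
  rw [Subgroup.closure_le]
  rintro x ⟨l, hl, hx⟩
  exact H.ZZ_le_Q_nbr (ty_nbr' hp hl) (Γ.symm hl) hx

variable {n : ℤ} (hmin : ∀ (p : ℤ → V) (i j : ℤ), i ≤ j → Γ.Arc p i j → Γ.ty (p i) = !τ → j - i < n →
    Γ.ZZ (p i) ≤ Γ.Q (p j))

include hmin

omit H in
/-- `ZZ (p i)` fixes the vertices at distance at most `n` -/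
theorem ZZ_fix {p : ℤ → V} {i j : ℤ} (hp : Γ.Arc p i j) (hty : Γ.ty (p i) = !τ) {k : ℤ} (h1 : i < k) (h2 : k ≤ j)
    (h3 : k - i ≤ n) {x : G} (hx : x ∈ Γ.ZZ (p i)) : x • p k = p k := by
  have h4 := hmin p i (k - 1) (by omega) (hp.sub le_rfl (by omega)) hty (by omega) hx
  exact h4.2 _ (Γ.symm (hp.adj' h1 h2))

omit H in
theorem ZZ_fix_rev {p : ℤ → V} {i j : ℤ} (hp : Γ.Arc p i j) (hty : Γ.ty (p j) = !τ) {k : ℤ} (h1 : i ≤ k)
    (h2 : k < j) (h3 : j - k ≤ n) {x : G} (hx : x ∈ Γ.ZZ (p j)) : x • p k = p k := by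
  have h4 := ZZ_fix (Γ := Γ) hmin (p := fun l => p (i + j - l)) (i := i) (j := j) (k := i + j - k) (by
    have := hp.rev (i + j)
    have e1 : i + j - j = i := by ring
    have e2 : i + j - i = j := by ring
    rwa [e1, e2] at this) (by simpa using hty) (by omega) (by omega) (by omega) (x := x) (by simpa using hx)
  simpa using h4

omit H in
theorem ZZ_le_rev {p : ℤ → V} {i j : ℤ} (hij : i ≤ j) (hp : Γ.Arc p i j) (hty : Γ.ty (p j) = !τ) (hlt : j - i < n) :
    Γ.ZZ (p j) ≤ Γ.Q (p i) := by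
  have := hmin (fun k => p (i + j - k)) i j hij (by
    have := hp.rev (i + j)
    have e1 : i + j - j = i := by ring
    have e2 : i + j - i = j := by ring
    rwa [e1, e2] at this) (by simpa using hty) hlt
  simpa using this

/-- critical arcs of even length -/
theorem even_crit {p : ℤ → V} {i j : ℤ} (hij : j = i + n) (hn : 2 ≤ n) (hev : n % 2 = 0) (hp : Γ.Arc p i j)
    (hty : Γ.ty (p i) = !τ) (hc : ¬ Γ.ZZ (p i) ≤ Γ.Q (p j)) :
    (∀ x ∈ Γ.ZZ (p i), x ∈ Γ.Q (p j) → x ∈ ZB G (p (i + 1))) ∧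
      (∃ c ∈ ZB G (p (i + 1)), c ∈ ZB G (p (j - 1)) ∧ c ≠ 1) ∧ ∃ y ∈ Γ.ZZ (p j), y ∉ Γ.Q (p i) := by
  have htyj : Γ.ty (p j) = !τ := by
    rw [← hty]; exact hp.ty_even le_rfl (by omega) (by omega) le_rfl (by omega)
  obtain ⟨x0, hx0, hx0Q⟩ := Set.not_subset.1 hc
  have hadj : Γ.A (p i) (p (i + 1)) := hp.adj le_rfl (by omega)
  have hadj' : Γ.A (p j) (p (j - 1)) := hp.adj' (by omega) le_rfl
  have h1 : Γ.ZZ (p i) ≤ Γ.Q (p (j - 1)) :=
    hmin p i (j - 1) (by omega) (hp.sub le_rfl (by omega)) hty (by omega)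
  have h2 : Γ.ZZ (p j) ≤ Γ.Q (p (i + 1)) :=
    ZZ_le_rev hmin (p := p) (i := i + 1) (j := j) (by omega) (hp.sub (by omega) le_rfl) htyj (by omega)
  have hx0T : x0 ∈ (T (p j) (p (j - 1)) : Subgroup G) := Q_le_T' (Γ.symm hadj') (h1 hx0)
  obtain ⟨y0, hy0, hne⟩ : ∃ y ∈ Γ.ZZ (p j), x0 * y ≠ y * x0 := by
    by_contra hcon
    push Not at hcon
    exact hx0Q (H.mem_Q_of_comm htyj (mem_T.1 hx0T).1 hcon)
  have hy0T : y0 ∈ (T (p i) (p (i + 1)) : Subgroup G) := Q_le_T' (Γ.symm hadj) (h2 hy0)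
  have hy0D : y0 ∉ Γ.Q (p i) := fun h => hne (ZZ_comm hx0 h)
  refine ⟨fun x hx hxQ => H.ZZ_cent hty hadj hy0T hy0D hx (ZZ_comm hy0 hxQ), ?_, y0, hy0, hy0D⟩
  obtain ⟨c, hc, e⟩ := H.ZZ_act hty hadj hy0T hx0
  obtain ⟨c', hc', e'⟩ := H.ZZ_act htyj hadj' hx0T hy0
  have ex : x0⁻¹ = x0 := H.np.ZZ_inv hx0
  have ey : y0⁻¹ = y0 := H.np.ZZ_inv hy0
  have e1 : c = x0⁻¹ * (y0 * x0 * y0⁻¹) := by rw [e]; group
  have e2 : c' = y0⁻¹ * (x0 * y0 * x0⁻¹) := by rw [e']; group
  have e3 : c = c'⁻¹ := by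
    rw [e1, e2, mul_inv_rev, mul_inv_rev, mul_inv_rev, inv_inv, inv_inv, ex, ey]; group
  refine ⟨c, hc, by rw [e3]; exact inv_mem hc', ?_⟩
  intro h3
  apply hne
  rw [h3, mul_one] at e
  calc x0 * y0 = (y0 * x0 * y0⁻¹) * y0 := by rw [e]
    _ = y0 * x0 := by group

/-- the even case: bound -/
theorem even_card {p : ℤ → V} (hn : 2 ≤ n) (hev : n % 2 = 0) (hp : Γ.Arc p 0 n) (hty : Γ.ty (p 0) = !τ)
    (hc : ¬ Γ.ZZ (p 0) ≤ Γ.Q (p n)) (hvw : Γ.A v w) : Nat.card (T v w : Subgroup G) ≤ 64 := by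
  have h01 : Γ.A (p 0) (p 1) := hp.adj (k := 0) le_rfl (by omega)
  obtain ⟨hcQ, -, y0, hy0, hy0Q⟩ := H.even_crit hmin (i := 0) (j := n) (by ring) hn hev hp hty hc
  have e01 : (0 : ℤ) + 1 = 1 := by ring
  rw [e01] at hcQ
  have hZle : Γ.ZZ (p 0) ≤ Γ.Q (p (n - 1)) := hmin p 0 (n - 1) (by omega) (hp.sub le_rfl (by omega)) hty (by omega)
  have hA' : Γ.A (p n) (p (n - 1)) := hp.adj' (by omega) le_rfl
  obtain ⟨r, R, hr⟩ := H.exists_Pts (H.K1_of (w := p n) hty h01 hcQ (fun x hx y hy hxQ hyQ =>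
    mul_mem_Q hA' (Q_le_T' (Γ.symm hA') (hZle hx)) (Q_le_T' (Γ.symm hA') (hZle hy)) hxQ hyQ))
  have crit_r : ∀ (p : ℤ → V) (i j : ℤ), j = i + n → Γ.Arc p i j → Γ.ty (p i) = !τ → ¬ Γ.ZZ (p i) ≤ Γ.Q (p j) →
      r (p (i + 1)) = r (p (j - 1)) := by
    intro p i j hij hp hty hc
    obtain ⟨-, ⟨c, hc1, hc2, hc3⟩, -⟩ := H.even_crit hmin hij hn hev hp hty hc
    have t1 : Γ.ty (p (i + 1)) = τ := ty_nbr hty (hp.adj le_rfl (by omega))
    have t2 : Γ.ty (p (j - 1)) = τ := by
      rw [← t1]; exact hp.ty_even (by omega) (by omega) (by omega) (by omega) (by omega)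
    rcases (hr _ t1).2 c hc1 with h | h
    · exact absurd h hc3
    rcases (hr _ t2).2 c hc2 with h' | h'
    · exact absurd h' hc3
    rw [← h, ← h']
  have t1 : Γ.ty (p 1) = τ := ty_nbr hty h01
  by_cases hn2 : n = 2
  · -- distance two
    subst hn2
    have hone : ∀ l p, Γ.A l p → Γ.ty p = τ → Γ.ZZ l ≤ Γ.Q p := by
      intro l p hlp hp
      exact H.ZZ_le_Q_nbr (ty_nbr' hp (Γ.symm hlp)) hlp
    have hb : ∀ l p' q, Γ.A l p' → Γ.A l q → Γ.ty p' = τ → r q ∈ Γ.Q p' := by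
      intro l p' q hp' hq hty'
      have tyq : Γ.ty q = τ := by rw [← hty']; exact ty_eq_of_adj hq hp'
      exact hone l p' hp' hty' (H.ZB_le_ZZ tyq hq (hr q tyq).1)
    apply btwo_card H.np R hb _ hvw
    intro p' l m q s hl hm hlm hq hqp hs hsp hty' hcomm
    have h10 : Γ.A (p 1) (p 0) := hp.adj' (k := 1) (by omega) (by omega)
    have h12 : Γ.A (p 1) (p 2) := hp.adj (k := 1) (by omega) (by omega)
    have hne : p 0 ≠ p 2 := hp.ne le_rfl le_rfl (by ring)
    obtain ⟨g, hg, hgl, hgm⟩ := exists_two_trans' hm hl h10 h12 hlm.symm hne (by rw [hty', t1])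
    have hcr : ¬ Γ.ZZ m ≤ Γ.Q l := by
      intro hle
      apply hc
      intro x hx
      have h1 : g⁻¹ * x * g ∈ Γ.ZZ m := by
        have := conj_mem_ZZ_of_eq (h := g⁻¹) (w := m) hx (by rw [← hgl, inv_smul_smul])
        rwa [inv_inv] at this
      have h2 := conj_mem_Q_of_eq (hle h1) hgm
      have e : g * (g⁻¹ * x * g) * g⁻¹ = x := by group
      rwa [e] at h2
    have tyq : Γ.ty q = τ := by rw [← hty']; exact ty_eq_of_adj hq (Γ.symm hl)
    have tys : Γ.ty s = τ := by rw [← hty']; exact ty_eq_of_adj hs (Γ.symm hm)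
    have m1 : r q ∈ Γ.Q p' := hone l p' (Γ.symm hl) hty' (H.ZB_le_ZZ tyq hq (hr q tyq).1)
    have m2 : r q • s = s := R.fix_of_comm (m1.2 m hm) hs tys hcomm
    have m3 : r q ∈ Γ.Q m := mem_Q_of_two (m1.2 m hm) (Γ.symm hm) hs hsp.symm m1.1 m2
    apply hcr
    intro x hx
    have x1 : x ∈ Γ.Q p' := hone m p' (Γ.symm hm) hty' hx
    have x2 : x * r q = r q * x := ZZ_comm hx m3
    have x3 : x • q = q := R.fix_of_comm (x1.2 l hl) hq tyq x2
    exact mem_Q_of_two (x1.2 l hl) (Γ.symm hl) hq hqp.symm x1.1 x3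
  exfalso
  have hn4 : 4 ≤ n := by omega
  have hr1 := crit_r p 0 n (by ring) hp hty hc
  rw [e01] at hr1
  obtain ⟨m, hm⟩ : ∃ m : ℤ, n = 2 * m + 2 := ⟨n / 2 - 1, by omega⟩
  have hfixr : ∀ k, 0 < k → k ≤ n → r (p 1) • p k = p k := fun k h1 h2 =>
    ZZ_fix hmin hp hty h1 h2 (by omega) (H.ZB_le_ZZ t1 h01 (hr _ t1).1)
  rcases dichotomy Γ m with hM | ⟨j, hj1, hjm, -, τ', hFx⟩
  · -- local arc transitivity
    refine R.mid_bot (p := p) (i := 1) (m := m) (by omega) (hp.sub (by omega) (by omega)) t1 ?_ ?_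
      (fun k h1 h2 => hM k h1 (by omega)) (hM m (by omega) le_rfl _)
    · rw [hr1]; congr 2; omega
    · intro k h1 h2
      exact hfixr k (by omega) (by omega)
  · by_cases hτ' : τ' = !τ
    · -- type of `p 0`
      subst hτ'
      apply hc
      intro x hx
      have tyn : Γ.ty (p (0 + n)) = !τ := by
        rw [zero_add, ← hty]; exact hp.ty_even le_rfl (by omega) (by omega) le_rfl (by omega)
      have := (hFx.mono (j' := n) (by omega)) p 0 (by rw [zero_add]; exact hp) tyn x (by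
        intro k h1 h2
        rw [zero_add] at h2
        rcases eq_or_lt_of_le h1 with h3 | h3
        · rw [← h3]; exact (H.np.ZZ_le_Q hx).1
        · exact ZZ_fix hmin hp hty h3 h2 (by omega) hx)
      rwa [zero_add] at this
    · have hτ : τ' = τ := by cases τ <;> cases τ' <;> simp_all
      subst hτ
      -- extend to the left
      obtain ⟨a1, ha1, ha1n⟩ := exists_ne h01
      obtain ⟨q, hq, hqa, hqk⟩ := hp.exists_cons ha1 (fun _ => by rw [e01]; exact ha1n)
      have e00 : (0 : ℤ) - 1 = -1 := by ring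
      rw [e00] at hq hqa
      have tq0 : Γ.ty (q 0) = !τ' := by rw [hqk 0 le_rfl]; exact hty
      have tqm : Γ.ty (q (-1)) = τ' := ty_nbr tq0 (by
        have := hq.adj' (k := 0) (by omega) (by omega)
        exact this)
      have hqc : ¬ Γ.ZZ (q 0) ≤ Γ.Q (q n) := by rw [hqk 0 le_rfl, hqk n (by omega)]; exact hc
      have hqcQ : ∀ x ∈ Γ.ZZ (q 0), x ∈ Γ.Q (q n) → x ∈ ZB G (q 1) := by
        rw [hqk 0 le_rfl, hqk n (by omega), hqk 1 (by omega)]; exact hcQ
      have hA0m : Γ.A (q 0) (q (-1)) := hq.adj' (k := 0) (by omega) (by omega)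
      have hA01 : Γ.A (q 0) (q 1) := hq.adj (k := 0) (by omega) (by omega)
      have hnem : q (-1) ≠ q 1 := hq.ne le_rfl (by omega) (by ring)
      have tq1 : Γ.ty (q 1) = τ' := ty_nbr tq0 hA01
      have claim1 : ∀ l, Γ.A (q (-1)) l → ∀ y ∈ Γ.ZZ l, ∀ k, -1 ≤ k → k ≤ n - 1 → y • q k = q k := by
        intro l hl y hy k h1 h2
        by_cases hl0 : l = q 0
        · subst hl0
          rcases lt_trichotomy k 0 with h3 | h3 | h3
          · have : k = -1 := by omega
            subst this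
            exact (H.np.ZZ_le_Q hy).2 _ hA0m
          · subst h3; exact (H.np.ZZ_le_Q hy).1
          · exact ZZ_fix hmin (hq.sub (i' := 0) (by omega) le_rfl) tq0 h3 (by omega) (by omega) hy
        · obtain ⟨q', hq', hq'l, hq'k⟩ := hq.exists_cons hl (fun _ => by
            have e : (-1 : ℤ) + 1 = 0 := by ring
            rw [e]; exact hl0)
          have e11 : (-1 : ℤ) - 1 = -2 := by ring
          rw [e11] at hq' hq'l
          have tl : Γ.ty (q' (-2)) = !τ' := by rw [hq'l]; exact ty_nbr' tqm hl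
          have hyq : y ∈ Γ.ZZ (q' (-2)) := by rw [hq'l]; exact hy
          have hle : Γ.ZZ (q' (-2)) ≤ Γ.Q (q' (n - 2)) := by
            by_contra hcr
            have h3 := crit_r q' (-2) (n - 2) (by ring) (hq'.sub le_rfl (by omega)) tl hcr
            have e2 : (-2 : ℤ) + 1 = -1 := by ring
            have e3 : n - 2 - 1 = n - 3 := by ring
            rw [e2, e3, hq'k (-1) le_rfl, hq'k (n - 3) (by omega)] at h3
            have tn3 : Γ.ty (q (n - 3)) = τ' := by
              rw [← tqm]; exact hq.ty_even (by omega) (by omega) (by omega) (by omega) (by omega)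
            have hA3 : Γ.A (q (n - 2)) (q (n - 3)) := by
              have := hq.adj' (k := n - 2) (by omega) (by omega)
              rwa [e3] at this
            have h4 : r (q (n - 3)) ∈ Γ.ZZ (q (n - 2)) := H.ZB_le_ZZ tn3 hA3 (hr _ tn3).1
            have h5 : r (q (n - 3)) ∈ Γ.Q (q n) :=
              hmin q (n - 2) n (by omega) (hq.sub (by omega) le_rfl) (ty_nbr' tn3 (Γ.symm hA3)) (by omega) h4
            rw [← h3] at h5
            have h6 := hqcQ _ (H.ZB_le_ZZ tqm hA0m (hr _ tqm).1) h5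
            exact R.ne _ tqm (H.ZB_inf hA0m hA01 hnem tqm (hr _ tqm).1 h6)
          rcases lt_or_ge k (n - 1) with h3 | h3
          · have := ZZ_fix hmin hq' tl (k := k) (by omega) (by omega) (by omega) hyq
            rwa [hq'k k h1] at this
          · have hk : k = n - 1 := by omega
            subst hk
            have h4 := (hle hyq).2 (q' (n - 1)) (by
              have := hq'.adj (k := n - 2) (by omega) (by omega)
              have e : n - 2 + 1 = n - 1 := by ring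
              rwa [e] at this)
            rwa [hq'k (n - 1) h1] at h4
      have claim2 : ∀ y ∈ Γ.VB (q (-1)), y ∈ Γ.Q (q (n - 1)) := by
        have : ∀ y ∈ Γ.VB (q (-1)), ∀ k, -1 ≤ k → k ≤ n - 1 → y • q k = q k := by
          intro y hy k h1 h2
          unfold VB at hy
          induction hy using Subgroup.closure_induction with
          | mem y hy =>
            obtain ⟨l, hl, hy⟩ := hy
            exact claim1 l hl y hy k h1 h2
          | one => exact one_smul _ _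
          | mul x y _ _ hx hy => exact mul_fix hx hy
          | inv x _ hx => exact inv_fix hx
        intro y hy
        have tn1 : Γ.ty (q (n - 1)) = τ' := by
          rw [← tqm]; exact hq.ty_even (by omega) (by omega) (by omega) (by omega) (by omega)
        have e : -1 + n = n - 1 := by ring
        have := (hFx.mono (j' := n) (by omega)) q (-1) (by rw [e]; exact hq.sub le_rfl (by omega))
          (by rw [e]; exact tn1) y (by
            intro k h1 h2
            rw [e] at h2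
            exact this y hy k h1 h2)
        rwa [e] at this
      -- the contradiction
      have hy0' : y0 ∈ Γ.ZZ (q n) := by rw [hqk n (by omega)]; exact hy0
      have hy0Q' : y0 ∉ Γ.Q (q 0) := by rw [hqk 0 le_rfl]; exact hy0Q
      have tn : Γ.ty (q n) = !τ' := by
        rw [← tq0]; exact hq.ty_even (by omega) (by omega) (by omega) (by omega) (by omega)
      have hAn : Γ.A (q n) (q (n - 1)) := hq.adj' (by omega) le_rfl
      have f0 : y0 • q 0 = q 0 := ZZ_fix_rev hmin hq tn (by omega) (by omega) (by omega) hy0'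
      have f1 : y0 • q 1 = q 1 := ZZ_fix_rev hmin hq tn (by omega) (by omega) (by omega) hy0'
      obtain ⟨a, ha, ha1, ha2, -⟩ := exists_third hA0m hA01 hnem
      have sw := swap_of_not_mem f0 hA01 hA0m ha hnem.symm ha2.symm ha1.symm f1 hy0Q'
      have tya : Γ.ty a = τ' := ty_nbr tq0 ha
      have hrq : r (q (n - 1)) = r (q 1) := by
        rw [hqk 1 (by omega), hqk (n - 1) (by omega)]; exact hr1.symm
      have tn1 : Γ.ty (q (n - 1)) = τ' := ty_nbr tn hAn
      have claim3 : ∀ y ∈ Γ.VB (q (-1)), y0⁻¹ * y * y0 ∈ Γ.VB (q (-1)) := by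
        intro y hy
        obtain ⟨c, hc, e⟩ := H.ZZ_act tn hAn (Q_le_T' (Γ.symm hAn) (claim2 y hy)) hy0'
        have hcV : c ∈ Γ.VB (q (-1)) := by
          rcases (hr _ tn1).2 c hc with h | h
          · rw [h]; exact one_mem _
          · rw [h, hrq]
            exact ZZ_le_VB (Γ.symm hA0m) (H.ZB_le_ZZ tq1 hA01 (hr _ tq1).1)
        have e2 : y0⁻¹ * y * y0 = c * y := by
          calc y0⁻¹ * y * y0 = y0⁻¹ * (y * y0 * y⁻¹) * y := by group
            _ = y0⁻¹ * (y0 * c) * y := by rw [e]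
            _ = c * y := by group
        rw [e2]
        exact mul_mem hcV hy
      have hbot : ∀ x ∈ Γ.VB a, x = 1 := by
        apply fam_bot Γ (F := fun v => Γ.VB v) (fun g v x hx => conj_mem_VB hx g) ha hA0m ha1
        · intro x hx
          have h1 := conj_mem_VB_of_eq hx sw.2
          have h2 := claim3 _ h1
          have e : y0⁻¹ * (y0 * x * y0⁻¹) * y0 = x := by group
          rwa [e] at h2
        · intro x hx
          have h1 := H.VB_le_Q tya hx
          exact ⟨h1.2 _ (Γ.symm ha), h1.1⟩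
      obtain ⟨l', hl'⟩ := ex_adj Γ a
      exact R.ne a tya (hbot _ (ZZ_le_VB hl' (H.ZB_le_ZZ tya (Γ.symm hl') (hr a tya).1)))

end CB

end Tri

end Cfsg.Agent.H209
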