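import Cfsg.Agent.H209.TriTheta

/-!
# Case B, odd critical distance at least five: contradiction
-/

set_option autoImplicit false

namespace Cfsg.Agent.H209

open MulAction

namespace Tri

variable {G V : Type*} [Group G] [MulAction G V] {Γ : Tri G V}
variable {u v w a b c d l m s : V} {g h t x y z : G} {τ : Bool} {n : ℤ} {r : V → G}

/-- the situation of the odd case -/
structure CR (Γ : Tri G V) (τ : Bool) (n : ℤ) (r : V → G) : Prop where
  co : CO Γ τ n
  R : Pts Γ τ r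
  hr : ∀ p, Γ.ty p = τ → r p ∈ ZB G p ∧ ∀ x ∈ ZB G p, x = 1 ∨ x = r p
  g4 : G4 Γ τ n
  dich : (∃ j, 1 ≤ j ∧ j ≤ n ∧ Fx Γ j (!τ)) ∨ (∀ k : ℤ, 1 ≤ k → k ≤ n → ∀ τ', MvT Γ k τ')

/-- critical arcs of length `n - 1` -/
def BCr (Γ : Tri G V) (τ : Bool) (n : ℤ) (p : ℤ → V) (i j : ℤ) : Prop :=
  j = i + (n - 1) ∧ Γ.Arc p i j ∧ Γ.ty (p i) = τ ∧ ¬ Γ.VB (p i) ≤ Γ.Q (p j)

/-- an element in `Q m` for all `m ~ p` centralises `VB p` -/
theorem comm_VB_of {p : V} (hx : ∀ m, Γ.A p m → x ∈ Γ.Q m) (hy : y ∈ Γ.VB p) : x * y = y * x := by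
  unfold VB at hy
  induction hy using Subgroup.closure_induction with
  | mem y hy =>
    obtain ⟨m, hm, hy⟩ := hy
    exact (ZZ_comm hy (hx m hm)).symm
  | one => simp
  | mul y z _ _ h1 h2 => rw [← mul_assoc, h1, mul_assoc, h2, mul_assoc]
  | inv y _ h1 =>
    calc x * y⁻¹ = y⁻¹ * (y * x) * y⁻¹ := by group
      _ = y⁻¹ * (x * y) * y⁻¹ := by rw [h1]
      _ = y⁻¹ * x := by group

/-- all arcs of length `n` are critical if one is, in the locally arc-transitive case -/
theorem crit_all (hn : 1 ≤ n) (hM : ∀ k : ℤ, 1 ≤ k → k ≤ n → ∀ τ', MvT Γ k τ') {p : ℤ → V} {i : ℤ}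
    (hp : Γ.Arc p i (i + n)) (hc : ¬ Γ.ZZ (p i) ≤ Γ.Q (p (i + n))) {q : ℤ → V} {i' : ℤ} (hq : Γ.Arc q i' (i' + n))
    (hty : Γ.ty (p i) = Γ.ty (q i')) : ¬ Γ.ZZ (q i') ≤ Γ.Q (q (i' + n)) := by
  obtain ⟨g, hg⟩ := arc_trans' (Γ := Γ) hn (fun k h1 h2 => hM k h1 (by omega)) hp hq hty
  have g0 := hg 0 le_rfl (by omega)
  have gn := hg n (by omega) le_rfl
  rw [add_zero, add_zero] at g0
  intro hle
  apply hc
  intro x hx
  have h1 := hle (conj_mem_ZZ_of_eq hx g0)
  have h2 := conj_mem_Q_of_eq (h := g⁻¹) (w := p (i + n)) h1 (by rw [← gn, inv_smul_smul])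
  have e : g⁻¹ * (g * x * g⁻¹) * g⁻¹⁻¹ = x := by group
  rwa [e] at h2

namespace BCr

variable {p : ℤ → V} {i j : ℤ}

theorem ty_end (hc : BCr Γ τ n p i j) (H : CR Γ τ n r) : Γ.ty (p j) = τ := by
  obtain ⟨h1, h2, h3, -⟩ := hc
  have := H.co.odd
  have := H.co.hn
  rw [← h3]; exact h2.ty_even le_rfl (by omega) (by omega) le_rfl (by omega)

theorem rev (hc : BCr Γ τ n p i j) (H : CR Γ τ n r) (c : ℤ) :
    BCr Γ τ n (fun k => p (c - k)) (c - j) (c - i) := by
  have tj := hc.ty_end H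
  obtain ⟨h1, h2, h3, h4⟩ := hc
  have e1 : c - (c - j) = j := by ring
  have e2 : c - (c - i) = i := by ring
  refine ⟨by omega, h2.rev c, by simp only [e1]; exact tj, ?_⟩
  simp only [e1, e2]
  intro hle
  apply h4
  intro x hx
  refine (H.co.mem_Q_of_VB tj ?_ ?_).1
  · exact H.co.VB_fix h2 h3 (by have := H.co.hn; omega) le_rfl (by omega) hx
  · intro y hy
    have := H.g4 (fun k => p (c - k)) (c - j) (c - i) (by omega) (h2.rev c) (by simp only [e1]; exact tj) y
      (by simp only [e1]; exact hy) (by simp only [e2]; exact hle hy) x (by simp only [e2]; exact hx)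
    exact this.symm

theorem symm_le (hc : BCr Γ τ n p i j) (H : CR Γ τ n r) : ¬ Γ.VB (p j) ≤ Γ.Q (p i) := by
  have := (hc.rev H (i + j)).2.2.2
  have e1 : i + j - (i + j - j) = j := by ring
  have e2 : i + j - (i + j - i) = i := by ring
  simp only [e1, e2] at this
  exact this

theorem exists_l (hc : BCr Γ τ n p i j) (H : CR Γ τ n r) :
    ∃ l, Γ.A (p i) l ∧ l ≠ p (i + 1) ∧ ¬ Γ.ZZ l ≤ Γ.Q (p j) := by
  obtain ⟨h1, h2, h3, h4⟩ := hc
  have hn := H.co.hn
  by_contra hcon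
  push Not at hcon
  apply h4
  unfold VB
  rw [Subgroup.closure_le]
  rintro x ⟨l, hl, hx⟩
  by_cases hli : l = p (i + 1)
  · subst hli
    exact H.co.hmin p (i + 1) j (by omega) (h2.sub (by omega) le_rfl) (CB.ty_nbr' h3 hl) (by omega) hx
  · exact hcon l hl hli hx

theorem congr {q : ℤ → V} (hc : BCr Γ τ n p i j) (h : ∀ k, i ≤ k → k ≤ j → q k = p k) (hn : 1 ≤ n) :
    BCr Γ τ n q i j := by
  obtain ⟨h1, h2, h3, h4⟩ := hc
  refine ⟨h1, ⟨fun k k1 k2 => ?_, fun k k1 k2 => ?_⟩, ?_, ?_⟩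
  · rw [h k k1 (by omega), h (k + 1) (by omega) (by omega)]; exact h2.1 k k1 k2
  · rw [h k k1 (by omega), h (k + 2) (by omega) (by omega)]; exact h2.2 k k1 k2
  · rw [h i le_rfl (by omega)]; exact h3
  · rw [h i le_rfl (by omega), h j (by omega) le_rfl]; exact h4

end BCr

namespace CR

variable (H : CR Γ τ n r)

include H

theorem r_mem_VB {p q : V} (hl : Γ.A p l) (hq : Γ.A l q) (hty : Γ.ty p = τ) : r q ∈ Γ.VB p := by
  have tq : Γ.ty q = τ := by rw [← hty]; exact ty_eq_of_adj hq (Γ.symm hl)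
  exact ZZ_le_VB hl (H.co.cb.ZB_le_ZZ tq hq (H.hr q tq).1)

theorem r_mem_ZZ {q : V} (hq : Γ.A l q) (hty : Γ.ty q = τ) : r q ∈ Γ.ZZ l :=
  H.co.cb.ZB_le_ZZ hty hq (H.hr q hty).1

/-- left shifts of critical arcs are critical -/
theorem shift_left (hn5 : 5 ≤ n) {p : ℤ → V} {i j : ℤ} (hc : BCr Γ τ n p i j) (hp : Γ.Arc p (i - 2) j) :
    BCr Γ τ n p (i - 2) (j - 2) := by
  have hodd := H.co.odd
  have tj := hc.ty_end H
  obtain ⟨v, hv, hvQ⟩ := Set.not_subset.1 (hc.symm_le H)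
  obtain ⟨l, hl, hli, hlc⟩ := hc.exists_l H
  obtain ⟨h1, h2, h3, h4⟩ := hc
  have ti2 : Γ.ty (p (i - 2)) = τ := by
    rw [← h3]; exact hp.ty_even (by omega) (by omega) le_rfl (by omega) (by omega)
  refine ⟨by omega, hp.sub le_rfl (by omega), ti2, ?_⟩
  intro hle
  -- the critical arc of length `n`
  obtain ⟨pl, hpl, hpll, hplk⟩ := h2.exists_cons hl (fun _ => hli)
  have hcl : ¬ Γ.ZZ (pl (i - 1)) ≤ Γ.Q (pl (i - 1 + n)) := by
    have e : i - 1 + n = j := by omega
    rw [hpll, e, hplk j (by omega)]; exact hlc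
  have tl := CB.ty_nbr' h3 hl
  rcases H.dich with ⟨j0, -, hj0, hFx⟩ | hM
  · have hA0 : Γ.A (p (i - 2)) (p (i - 1)) := by
      have := hp.adj (k := i - 2) le_rfl (by omega)
      have e : i - 2 + 1 = i - 1 := by ring
      rwa [e] at this
    have hA1 : Γ.A (p i) (p (i - 1)) := hp.adj' (by omega) (by omega)
    have hA2 : Γ.A (p i) (p (i + 1)) := hp.adj (by omega) (by omega)
    have hAj : Γ.A (p j) (p (j - 1)) := hp.adj' (by omega) le_rfl
    have hnei : p (i - 1) ≠ p (i + 1) := hp.ne (by omega) (by omega) (by ring)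
    have claimA : ∀ x ∈ Γ.VB (p (i - 2)), ∀ k, i - 2 ≤ k → k ≤ j - 1 → x • p k = p k := by
      intro x hx k k1 k2
      rcases eq_or_lt_of_le k2 with k3 | k3
      · have h5 := (hle hx).2 (p (j - 1)) (by
          have := hp.adj (k := j - 2) (by omega) (by omega)
          have e : j - 2 + 1 = j - 1 := by ring
          rwa [e] at this)
        rw [k3]; exact h5
      · exact H.co.VB_fix hp ti2 k1 (by omega) (by omega) hx
    have claimA' : ∀ x ∈ Γ.VB (p (i - 2)), x ∈ Γ.Q (p (j - 1)) := by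
      intro x hx
      have e : i - 2 + n = j - 1 := by omega
      have := (hFx.mono (j' := n) hj0) p (i - 2) (by rw [e]; exact hp.sub le_rfl (by omega))
        (by rw [e]; exact CB.ty_nbr' tj hAj) x (by
          intro k k1 k2
          rw [e] at k2
          exact claimA x hx k k1 k2)
      rwa [e] at this
    have claimB : ∀ x ∈ Γ.VB (p (i - 2)), x ∈ Γ.Q (p j) → x * v = v * x := by
      intro x hx hxQ
      apply comm_VB_of _ hv
      intro m hm
      by_cases hmj : m = p (j - 1)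
      · rw [hmj]; exact claimA' x hx
      · obtain ⟨q, hq, hqm, hqk⟩ := hp.exists_snoc hm (fun _ => hmj)
        have e : i - 2 + (n + 2) = j + 1 := by omega
        have := (hFx.mono (j' := n + 2) (by omega)) q (i - 2) (by rw [e]; exact hq)
          (by rw [e, hqm]; exact CB.ty_nbr' tj hm) x (by
            intro k k1 k2
            rw [e] at k2
            rcases eq_or_lt_of_le k2 with k3 | k3
            · rw [k3, hqm]; exact hxQ.2 m hm
            · rw [hqk k (by omega)]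
              rcases eq_or_lt_of_le (show k ≤ j by omega) with k4 | k4
              · rw [k4]; exact hxQ.1
              · exact claimA x hx k k1 (by omega))
        rwa [e, hqm] at this
    have vi : v • p i = p i := H.co.VB_fix_rev hp tj (by omega) (by omega) (by omega) hv
    have vi1 : v • p (i + 1) = p (i + 1) := H.co.VB_fix_rev hp tj (by omega) (by omega) (by omega) hv
    have vne : v • p (i - 1) ≠ p (i - 1) := fun h => hvQ (mem_Q_of_two vi hA1 hA2 hnei h vi1)
    -- distance four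
    have hZ4 : r (p (i - 2)) ≠ r (v • p (i - 2)) := by
      have hP := (hp.sub (i' := i - 2) (j' := i) le_rfl (by omega)).shift i
      have e1 : i - 2 - i = -2 := by ring
      have e2 : i - i = 0 := by ring
      rw [e1, e2] at hP
      have hF := hP.fold (v := v) (by simp only [zero_add]; exact vi) (by
        have e : -1 + i = i - 1 := by ring
        simp only [e]; exact vne)
      have := H.co.cb.Z4 H.R (i := -2) (j := 2) (by ring) hF (by
        have e : -2 + i = i - 2 := by ring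
        simp only [if_pos (show (-2 : ℤ) ≤ 0 by omega), e]; exact ti2)
      have e : -2 + i = i - 2 := by ring
      simp only [if_pos (show (-2 : ℤ) ≤ 0 by omega), if_neg (show ¬ (2 : ℤ) ≤ 0 by omega), e] at this
      exact this
    have hrV : r (p (i - 2)) ∈ Γ.VB (p (i - 2)) := H.r_mem_VB hA0 (Γ.symm hA0) ti2
    have conj_of : ∀ f, Γ.ty f = τ → r f ∈ Γ.VB (p (i - 2)) → r f ∈ Γ.Q (p j) → r f = r (v • f) := by
      intro f tf hf hfQ
      rw [← H.R.conj f v tf, ← claimB _ hf hfQ, mul_inv_cancel_right]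
    have hrn : r (p (i - 2)) ∉ Γ.Q (p j) := fun h => hZ4 (conj_of _ ti2 hrV h)
    obtain ⟨l3, hl3, hl3n⟩ := exists_ne hA0
    have tl3 := CB.ty_nbr' ti2 hl3
    have hex : ∃ f, Γ.A l3 f ∧ f ≠ p (i - 2) ∧ r f ∈ Γ.Q (p j) := by
      obtain ⟨f0, hf0, hf0n⟩ := exists_ne (Γ.symm hl3)
      by_cases hf0Q : r f0 ∈ Γ.Q (p j)
      · exact ⟨f0, hf0, hf0n, hf0Q⟩
      · obtain ⟨f, hf, hf1, hf2, -⟩ := exists_third (Γ.symm hl3) hf0 hf0n.symm
        refine ⟨f, hf, hf1, ?_⟩
        rw [← H.R.mul l3 _ _ f (Γ.symm hl3) hf0 hf hf0n.symm hf1.symm hf2.symm ti2]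
        exact mul_mem_Q hAj (Q_le_T' (Γ.symm hAj) (claimA' _ hrV))
          (Q_le_T' (Γ.symm hAj) (claimA' _ (H.r_mem_VB hl3 hf0 ti2))) hrn hf0Q
    obtain ⟨f, hf, hfn, hfQ⟩ := hex
    have tf : Γ.ty f = τ := CB.ty_nbr tl3 hf
    have hfV := H.r_mem_VB hl3 hf ti2
    have hfeq := conj_of f tf hfV hfQ
    -- the arc of length 8
    obtain ⟨p3, hp3, hp3l, hp3k⟩ := hp.exists_cons hl3 (fun _ => by
      have e : i - 2 + 1 = i - 1 := by ring
      rw [e]; exact hl3n)
    obtain ⟨p4, hp4, hp4f, hp4k⟩ := hp3.exists_cons (x := f) (by rw [hp3l]; exact hf) (fun _ => by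
      have e : i - 2 - 1 + 1 = i - 2 := by ring
      rw [e, hp3k _ le_rfl]; exact hfn)
    have e4 : i - 2 - 1 - 1 = i - 4 := by ring
    have e3 : i - 2 - 1 = i - 3 := by ring
    rw [e4] at hp4 hp4f
    rw [e3] at hp3l hp4k
    have q3 : p4 (i - 3) = l3 := by rw [hp4k _ le_rfl, hp3l]
    have qk : ∀ k ≥ i - 2, p4 k = p k := fun k hk => by rw [hp4k k (by omega), hp3k k hk]
    have hP := (hp4.sub (i' := i - 4) (j' := i) le_rfl (by omega)).shift i
    have e1 : i - 4 - i = -4 := by ring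
    have e2 : i - i = 0 := by ring
    rw [e1, e2] at hP
    have hF := hP.fold (v := v) (by simp only [zero_add]; rw [qk i (by omega)]; exact vi) (by
      have e : -1 + i = i - 1 := by ring
      simp only [e]; rw [qk (i - 1) (by omega)]; exact vne)
    have em4 : -4 + i = i - 4 := by ring
    refine H.R.mid_bot (i := -4) (m := 4) (by omega) (p := fun k => if k ≤ 0 then p4 (k + i) else v • p4 (-k + i))
      (by norm_num; exact hF) ?_ ?_ ?_ (fun k k1 k2 τ' => H.co.cb.np.mv_le_three τ' k1 (by omega)) ?_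
    · simp only [if_pos (show (-4 : ℤ) ≤ 0 by omega), em4, hp4f]; exact tf
    · have e5 : (-4 : ℤ) + 2 * 4 = 4 := by ring
      simp only [e5, if_pos (show (-4 : ℤ) ≤ 0 by omega), if_neg (show ¬ (4 : ℤ) ≤ 0 by omega), em4, hp4f]
      exact hfeq
    · intro k k1 k2
      have k3 : k ≤ 0 := by omega
      simp only [if_pos k3, if_pos (show (-4 : ℤ) ≤ 0 by omega), em4, hp4f]
      rcases eq_or_lt_of_le k1 with k4 | k4
      · rw [← k4, em4, hp4f]; exact H.R.fixp f tf
      · rcases eq_or_lt_of_le (show -3 ≤ k by omega) with k5 | k5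
        · have e : k + i = i - 3 := by omega
          rw [e, q3]
          exact (H.co.cb.np.ZZ_le_Q (H.r_mem_ZZ hf tf)).1
        · rw [qk (k + i) (by omega)]
          exact claimA _ hfV _ (by omega) (by omega)
    · have e5 : (-4 : ℤ) + 4 = 0 := by ring
      simp only [e5, if_pos le_rfl, zero_add]
      rw [qk i (by omega), h3]
      -- `MvT 4 τ`
      obtain ⟨x0, hx0, hx0Q⟩ := Set.not_subset.1 hlc
      have e6 : j - 4 + 4 = j := by ring
      have tpl : Γ.ty (pl (i - 1)) = !τ := by rw [hpll]; exact tl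
      have := MvT_of_one (Γ := Γ) (j := 4) (by omega)
        (fun k k1 k2 τ' => H.co.cb.np.mv_le_three τ' k1 (by omega)) (p := pl) (i := j - 4) (g := x0)
        (by rw [e6]; exact hpl.sub (by omega) le_rfl) (by
          intro k k1 k2
          rw [e6] at k2
          exact CB.ZZ_fix H.co.hmin hpl tpl (by omega) k2 (by omega) (by rw [hpll]; exact hx0))
        (by rw [e6, hplk j (by omega)]; exact hx0Q)
      rwa [e6, hplk j (by omega), tj] at this
  · -- all arcs are critical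
    have hA0 : Γ.A (p (i - 2)) (p (i - 1)) := by
      have := hp.adj (k := i - 2) le_rfl (by omega)
      have e : i - 2 + 1 = i - 1 := by ring
      rwa [e] at this
    obtain ⟨l3, hl3, hl3n⟩ := exists_ne hA0
    obtain ⟨p3, hp3, hp3l, hp3k⟩ := hp.exists_cons hl3 (fun _ => by
      have e : i - 2 + 1 = i - 1 := by ring
      rw [e]; exact hl3n)
    have e3 : i - 2 - 1 = i - 3 := by ring
    rw [e3] at hp3 hp3l
    have e5 : i - 3 + n = j - 2 := by omega
    have e6 : i - 1 + n = j := by omega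
    have := crit_all (Γ := Γ) (n := n) (by omega) hM (p := pl) (i := i - 1) (by rw [e6]; exact hpl) hcl (q := p3)
      (i' := i - 3) (by rw [e5]; exact hp3.sub le_rfl (by omega)) (by
        rw [hpll, hp3l, tl, CB.ty_nbr' ti2 hl3])
    apply this
    rw [hp3l, e5, hp3k (j - 2) (by omega)]
    exact (ZZ_le_VB hl3).trans hle

/-- right shifts of critical arcs are critical -/
theorem shift_right (hn5 : 5 ≤ n) {p : ℤ → V} {i j : ℤ} (hc : BCr Γ τ n p i j) (hp : Γ.Arc p i (j + 2)) :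
    BCr Γ τ n p (i + 2) (j + 2) := by
  have h1 := hc.rev H 0
  have h2 := H.shift_left hn5 h1 (by
    have := hp.rev 0
    have e : 0 - (j + 2) = 0 - j - 2 := by ring
    rwa [e] at this)
  have h3 := h2.rev H 0
  have e1 : 0 - (0 - i - 2) = i + 2 := by ring
  have e2 : 0 - (0 - j - 2) = j + 2 := by ring
  rw [e1, e2] at h3
  have e3 : (fun k : ℤ => p (0 - (0 - k))) = p := by
    funext k
    congr 1; ring
  rw [e3] at h3
  exact h3

/-- the commutator relation -/
theorem rel (hn5 : 5 ≤ n) {p : ℤ → V} {i j : ℤ} (hc : BCr Γ τ n p i j) (hp : Γ.Arc p (i - 1) j) {f : V}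
    (hf : Γ.A (p (i - 1)) f) (hfi : f ≠ p i) {v : G} (hv : v ∈ Γ.VB (p j)) (hvQ : v ∉ Γ.Q (p i)) :
    r f * (v * r f * v⁻¹) = r (p (i + 2)) := by
  have hodd := H.co.odd
  have tj := hc.ty_end H
  obtain ⟨hij, h2, h3, h4⟩ := id hc
  -- extend to the right
  have hAj : Γ.A (p j) (p (j - 1)) := hp.adj' (by omega) le_rfl
  obtain ⟨x1, hx1, hx1n⟩ := exists_ne hAj
  obtain ⟨q1, hq1, hq1x, hq1k⟩ := hp.exists_snoc hx1 (fun _ => hx1n)
  have hAj1 : Γ.A (q1 (j + 1)) (q1 j) := by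
    have := hq1.adj' (k := j + 1) (by omega) le_rfl
    rwa [add_sub_cancel_right] at this
  obtain ⟨x2, hx2, hx2n⟩ := exists_ne hAj1
  obtain ⟨q, hq, hqx, hqk⟩ := hq1.exists_snoc hx2 (fun _ => by rw [add_sub_cancel_right]; exact hx2n)
  have e2 : j + 1 + 1 = j + 2 := by ring
  rw [e2] at hq hqx
  have qk : ∀ k ≤ j, q k = p k := fun k hk => by rw [hqk k (by omega), hq1k k hk]
  have hcq : BCr Γ τ n q i j := hc.congr (fun k k1 k2 => qk k k2) (by omega)
  have hcq2 := H.shift_right hn5 hcq (hq.sub (by omega) le_rfl)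
  have tj2 := hcq2.ty_end H
  -- the element `h`
  have hrev := hcq2.rev H (i + 2 + (j + 2))
  obtain ⟨l, hl, hln, hlc⟩ := hrev.exists_l H
  have e3 : i + 2 + (j + 2) - (i + 2 + (j + 2) - (j + 2)) = j + 2 := by ring
  have e4 : i + 2 + (j + 2) - (i + 2 + (j + 2) - (j + 2) + 1) = j + 1 := by ring
  have e5 : i + 2 + (j + 2) - (i + 2 + (j + 2) - (i + 2)) = i + 2 := by ring
  simp only [e3] at hl
  simp only [e4] at hln
  simp only [e5] at hlc
  obtain ⟨h, hh, hhQ⟩ := Set.not_subset.1 hlc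
  obtain ⟨q', hq', hq'l, hq'k⟩ := hq.exists_snoc hl (fun _ => by
    have e : j + 2 - 1 = j + 1 := by ring
    rw [e]; exact hln)
  have e6 : j + 2 + 1 = j + 3 := by ring
  rw [e6] at hq' hq'l
  have tl : Γ.ty (q' (j + 3)) = !τ := by rw [hq'l]; exact CB.ty_nbr' tj2 hl
  have hh' : h ∈ Γ.ZZ (q' (j + 3)) := by rw [hq'l]; exact hh
  have hfixh : ∀ k, i + 2 ≤ k → k ≤ j + 2 → h • q k = q k := by
    intro k k1 k2
    have := CB.ZZ_fix_rev H.co.hmin hq' tl (k := k) (by omega) (by omega) (by omega) hh'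
    rwa [hq'k k (by omega)] at this
  have hB1 : Γ.A (q (i + 2)) (q (i + 1)) := by
    have := hq.adj' (k := i + 2) (by omega) (by omega)
    have e : i + 2 - 1 = i + 1 := by ring
    rwa [e] at this
  have hB2 : Γ.A (q (i + 2)) (q (i + 3)) := by
    have := hq.adj (k := i + 2) (by omega) (by omega)
    have e : i + 2 + 1 = i + 3 := by ring
    rwa [e] at this
  have hBne : q (i + 1) ≠ q (i + 3) := hq.ne (by omega) (by omega) (by ring)
  have hne : h • q (i + 1) ≠ q (i + 1) := fun h1 => hhQ (mem_Q_of_two (hfixh _ le_rfl (by omega)) hB1 hB2 hBne h1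
    (hfixh _ (by omega) (by omega)))
  -- `h` commutes with `VB (q j)`
  have tqj : Γ.ty (q j) = τ := by rw [qk j le_rfl]; exact tj
  have hcomm : ∀ y ∈ Γ.VB (q j), h * y = y * h := by
    intro y hy
    apply comm_VB_of _ hy
    intro m hm
    by_cases hm1 : m = q (j + 1)
    · rw [hm1]
      have := CB.ZZ_le_rev H.co.hmin (p := q') (i := j + 1) (j := j + 3) (by omega) (hq'.sub (by omega) le_rfl) tl
        (by omega) hh'
      rwa [hq'k (j + 1) (by omega)] at this
    · obtain ⟨q'', hq'', hq''m, hq''k⟩ := (hq'.sub (i' := j) (j' := j + 3) (by omega) le_rfl).exists_cons (x := m)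
        (by rw [hq'k j (by omega)]; exact hm) (fun _ => by rw [hq'k (j + 1) (by omega)]; exact hm1)
      have := CB.ZZ_le_rev H.co.hmin (p := q'') (i := j - 1) (j := j + 3) (by omega) hq''
        (by rw [hq''k _ (by omega)]; exact tl) (by omega) (x := h) (by rw [hq''k _ (by omega)]; exact hh')
      rwa [hq''m] at this
  -- the element `y`
  have hqi1 : q (i - 1) = p (i - 1) := qk _ (by omega)
  have hqi : q i = p i := qk _ (by omega)
  have tqi : Γ.ty (q i) = τ := by rw [hqi]; exact h3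
  have hfA : Γ.A (q (i - 1)) f := by rw [hqi1]; exact hf
  have hfne : f ≠ q i := by rw [hqi]; exact hfi
  have hC1 : Γ.A (q i) (q (i - 1)) := hq.adj' (by omega) (by omega)
  have hC2 : Γ.A (q i) (q (i + 1)) := hq.adj (by omega) (by omega)
  have hCne : q (i - 1) ≠ q (i + 1) := hq.ne (by omega) (by omega) (by ring)
  have tf : Γ.ty f = τ := by rw [← tqi]; exact ty_eq_of_adj hfA (Γ.symm hC1)
  have hv' : v ∈ Γ.VB (q j) := by rw [qk j le_rfl]; exact hv
  have hqj := hq.sub (i' := i - 1) (j' := j) le_rfl (by omega)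
  have vi : v • q i = q i := H.co.VB_fix_rev hqj tqj (by omega) (by omega) (by omega) hv'
  have vi1 : v • q (i + 1) = q (i + 1) := H.co.VB_fix_rev hqj tqj (by omega) (by omega) (by omega) hv'
  have hvQ' : v ∉ Γ.Q (q i) := by rw [hqi]; exact hvQ
  have vne : v • q (i - 1) ≠ q (i - 1) := fun h1 => hvQ' (mem_Q_of_two vi hC1 hC2 hCne h1 vi1)
  have vne2 : v • q (i - 1) ≠ q (i + 1) := by
    intro h1
    rw [← vi1] at h1
    exact hCne (MulAction.injective v h1)
  have hD : Γ.A (q (i + 1)) (q (i + 2)) := by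
    have := hq.adj (k := i + 1) (by omega) (by omega)
    have e : i + 1 + 1 = i + 2 := by ring
    rwa [e] at this
  have hDne : q (i + 2) ≠ q i := (hq.ne (by omega) (by omega) (by ring)).symm
  have tq2 : Γ.ty (q (i + 2)) = τ := by rw [← tqi]; exact ty_eq_of_adj hD (Γ.symm hC2)
  have hvf : Γ.A (v • q (i - 1)) (v • f) := Γ.smul v hfA
  have hvfne : v • f ≠ q i := by
    intro h1
    rw [← vi] at h1
    exact hfne (MulAction.injective v h1)
  have mf : r f ∈ Γ.VB (q i) := H.r_mem_VB hC1 hfA tqi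
  have mvf : r (v • f) ∈ Γ.VB (q i) := H.r_mem_VB (A_of_fix vi hC1) hvf tqi
  have m2 : r (q (i + 2)) ∈ Γ.VB (q i) := H.r_mem_VB hC2 hD tqi
  have hYC : YC r (q i) (r f * r (v • f) * r (q (i + 2))) :=
    H.R.YC_prod tqi hC1 (A_of_fix vi hC1) hC2 vne.symm hCne vne2 hfA hvf hD hfne hvfne hDne
      (H.co.VB_comm tqi mf mvf) (H.co.VB_comm tqi mf m2) (H.co.VB_comm tqi mvf m2)
  have hyV : r f * r (v • f) * r (q (i + 2)) ∈ Γ.VB (q i) := mul_mem (mul_mem mf mvf) m2
  have hfj : r f • q j = q j := CB.ZZ_fix H.co.hmin hqj (CB.ty_nbr' tqi hC1) (by omega) le_rfl (by omega)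
    (H.r_mem_ZZ hfA tf)
  have ht : r f * r (v • f) ∈ Γ.VB (q j) := by
    have e : r f * r (v • f) = (r f * v * (r f)⁻¹) * v⁻¹ := by
      rw [← H.R.conj f v tf, H.R.inv tf]; group
    rw [e]
    exact mul_mem (conj_mem_VB_of_eq hv' hfj) (inv_mem hv')
  set y := r f * r (v • f) * r (q (i + 2)) with hydef
  have hhy : h * y = y * h := by
    have c1 := hcomm _ ht
    have c2 : h * r (q (i + 2)) = r (q (i + 2)) * h := H.R.comm tq2 (hfixh _ le_rfl (by omega))
    calc h * y = (h * (r f * r (v • f))) * r (q (i + 2)) := by rw [hydef]; group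
      _ = r f * r (v • f) * (h * r (q (i + 2))) := by rw [c1]; group
      _ = y * h := by rw [c2, hydef]; group
  -- the arc of length four
  have hP := (hq.sub (i' := i) (j' := i + 2) (by omega) (by omega)).shift (i + 2)
  have f1 : i - (i + 2) = -2 := by ring
  have f2 : i + 2 - (i + 2) = 0 := by ring
  rw [f1, f2] at hP
  have g1 : -2 + (i + 2) = i := by ring
  have g2 : -1 + (i + 2) = i + 1 := by ring
  have hF := hP.fold (v := h) (by simp only [zero_add]; exact hfixh _ le_rfl (by omega)) (by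
    simp only [g2]; exact hne)
  have hF' := hF.shift (-2)
  have g3 : (-2 : ℤ) - -2 = 0 := by ring
  have g4 : (2 : ℤ) - -2 = 4 := by ring
  rw [g3, g4] at hF'
  have hyfix : ∀ k, i ≤ k → k ≤ i + 2 → y • q k = q k := fun k k1 k2 =>
    H.co.VB_fix (hq.sub (i' := i) (by omega) le_rfl) tqi k1 (by omega) (by omega) hyV
  have hy1 : y = 1 := by
    refine H.co.cb.theta H.R H.hr hF' ?_ ?_ (H.co.VB_sq tqi hyV) ?_ ?_
    · simp only [zero_add, if_pos (show (-2 : ℤ) ≤ 0 by omega), g1]; exact tqi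
    · intro k k1 k2
      by_cases hk : k + -2 ≤ 0
      · simp only [if_pos hk]
        exact hyfix _ (by omega) (by omega)
      · simp only [if_neg hk]
        rw [← mul_smul, ← hhy, mul_smul, hyfix _ (by omega) (by omega)]
    · simp only [zero_add, if_pos (show (-2 : ℤ) ≤ 0 by omega), g1]; exact hYC
    · have g5 : (4 : ℤ) + -2 = 2 := by ring
      simp only [g5, if_neg (show ¬ (2 : ℤ) ≤ 0 by omega), g1]
      have := hYC.conj H.R tqi h
      rwa [hhy, mul_inv_cancel_right] at this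
  have hq2 : q (i + 2) = p (i + 2) := qk _ (by omega)
  rw [H.R.conj f v tf, ← hq2]
  have e : r f * r (v • f) = y * (r (q (i + 2)))⁻¹ := by rw [hydef]; group
  rw [e, hy1, one_mul, H.R.inv tq2]

/-- `r f` is outside `Q (p j)` -/
theorem r_not_mem (hn5 : 5 ≤ n) {p : ℤ → V} {i j : ℤ} (hc : BCr Γ τ n p i j) (hp : Γ.Arc p (i - 1) j) {f : V}
    (hf : Γ.A (p (i - 1)) f) (hfi : f ≠ p i) : r f ∉ Γ.Q (p j) := by
  intro hQ
  obtain ⟨v, hv, hvQ⟩ := Set.not_subset.1 (hc.symm_le H)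
  have h1 := H.rel hn5 hc hp hf hfi hv hvQ
  obtain ⟨hij, h2, h3, h4⟩ := hc
  have hC1 : Γ.A (p i) (p (i - 1)) := hp.adj' (by omega) (by omega)
  have hcomm := H.g4 p i j hij h2 h3 (r f) (H.r_mem_VB hC1 hf h3) hQ v hv
  have tf : Γ.ty f = τ := by rw [← h3]; exact ty_eq_of_adj hf (Γ.symm hC1)
  rw [← hcomm, mul_inv_cancel_right, H.R.sq f tf] at h1
  have t2 : Γ.ty (p (i + 2)) = τ := by rw [← h3]; exact hp.ty_two (by omega) (by omega) (by ring)
  exact H.R.ne _ t2 h1.symm

theorem rel_mid (hn5 : 5 ≤ n) {p : ℤ → V} {i j : ℤ} (hc : BCr Γ τ n p i j) : r (p (i + 2)) = r (p (j - 2)) := by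
  have hodd := H.co.odd
  have tj := hc.ty_end H
  obtain ⟨hij, h2, h3, h4⟩ := id hc
  have hA1 : Γ.A (p i) (p (i + 1)) := h2.adj le_rfl (by omega)
  obtain ⟨x1, hx1, hx1n⟩ := exists_ne hA1
  obtain ⟨q1, hq1, hq1x, hq1k⟩ := h2.exists_cons hx1 (fun _ => hx1n)
  have hAj : Γ.A (q1 j) (q1 (j - 1)) := hq1.adj' (by omega) le_rfl
  obtain ⟨x2, hx2, hx2n⟩ := exists_ne hAj
  obtain ⟨q, hq, hqx, hqk⟩ := hq1.exists_snoc hx2 (fun _ => hx2n)
  have qk : ∀ k, i ≤ k → k ≤ j → q k = p k := fun k k1 k2 => by rw [hqk k k2, hq1k k k1]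
  have hcq : BCr Γ τ n q i j := hc.congr qk (by omega)
  have hB1 : Γ.A (q (i - 1)) (q i) := by
    have := hq.adj (k := i - 1) le_rfl (by omega)
    rwa [sub_add_cancel] at this
  have hB2 : Γ.A (q (j + 1)) (q j) := by
    have := hq.adj' (k := j + 1) (by omega) le_rfl
    rwa [add_sub_cancel_right] at this
  obtain ⟨f, hf, hfn⟩ := exists_ne hB1
  obtain ⟨f', hf', hf'n⟩ := exists_ne hB2
  have hrev := hcq.rev H (i + j)
  have e1 : i + j - (i + j - i) = i := by ring
  have e2 : i + j - (i + j - j) = j := by ring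
  have e3 : i + j - (i + j - j - 1) = j + 1 := by ring
  have hqrev := (hq.sub (i' := i) (j' := j + 1) (by omega) le_rfl).rev (i + j)
  have e4 : i + j - (j + 1) = i + j - j - 1 := by ring
  rw [e4] at hqrev
  have n1 : r f ∉ Γ.Q (q j) := H.r_not_mem hn5 hcq (hq.sub le_rfl (by omega)) hf hfn
  have n2 : r f' ∉ Γ.Q (q i) := by
    have := H.r_not_mem hn5 hrev hqrev (f := f') (by simp only [e3]; exact hf') (by simp only [e2]; exact hf'n)
    simp only [e1] at this
    exact this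
  have tqi : Γ.ty (q i) = τ := by rw [qk i le_rfl (by omega)]; exact h3
  have tqj : Γ.ty (q j) = τ := by rw [qk j (by omega) le_rfl]; exact tj
  have m1 : r f ∈ Γ.VB (q i) := H.r_mem_VB (Γ.symm hB1) hf tqi
  have m2 : r f' ∈ Γ.VB (q j) := H.r_mem_VB (Γ.symm hB2) hf' tqj
  have r1 := H.rel hn5 hcq (hq.sub le_rfl (by omega)) hf hfn m2 n2
  have r2 := H.rel hn5 hrev hqrev (f := f') (by simp only [e3]; exact hf') (by simp only [e2]; exact hf'n)
    (v := r f) (by simp only [e1]; exact m1) (by simp only [e2]; exact n1)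
  have e5 : i + j - (i + j - j + 2) = j - 2 := by ring
  simp only [e5] at r2
  have tf : Γ.ty f = τ := by rw [← tqi]; exact ty_eq_of_adj hf hB1
  have tf' : Γ.ty f' = τ := by rw [← tqj]; exact ty_eq_of_adj hf' hB2
  have i1 := H.R.inv tf
  have i2 := H.R.inv tf'
  have tj2 : Γ.ty (q (j - 2)) = τ := by
    rw [← tqi]; exact hq.ty_even (by omega) (by omega) (by omega) (by omega) (by omega)
  rw [← qk (i + 2) (by omega) (by omega), ← qk (j - 2) (by omega) (by omega), ← r1, ← H.R.inv tj2, ← r2]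
  rw [mul_inv_rev, mul_inv_rev, mul_inv_rev, inv_inv, i1, i2]
  group

theorem ge_seven (hn7 : 7 ≤ n) {p : ℤ → V} {i j : ℤ} (hc : BCr Γ τ n p i j) : False := by
  have hodd := H.co.odd
  obtain ⟨hij, h2, h3, h4⟩ := id hc
  -- extend to the left by four
  have ext : ∀ (p : ℤ → V) (i' : ℤ), i' < j → Γ.Arc p i' j → ∃ q, Γ.Arc q (i' - 1) j ∧ ∀ k ≥ i', q k = p k := by
    intro p i' hi hp
    obtain ⟨x, hx, hxn⟩ := exists_ne (hp.adj (k := i') le_rfl (by omega))
    obtain ⟨q, hq, -, hqk⟩ := hp.exists_cons hx (fun _ => hxn)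
    exact ⟨q, hq, hqk⟩
  obtain ⟨q1, hq1, k1⟩ := ext p i (by omega) h2
  obtain ⟨q2, hq2, k2⟩ := ext q1 (i - 1) (by omega) hq1
  obtain ⟨q3, hq3, k3⟩ := ext q2 (i - 1 - 1) (by omega) hq2
  obtain ⟨q, hq, k4⟩ := ext q3 (i - 1 - 1 - 1) (by omega) hq3
  have e1 : i - 1 - 1 - 1 - 1 = i - 4 := by ring
  rw [e1] at hq
  have qk : ∀ k ≥ i, q k = p k := fun k hk => by
    rw [k4 k (by omega), k3 k (by omega), k2 k (by omega), k1 k hk]
  have c0 : BCr Γ τ n q i j := hc.congr (fun k k1 _ => qk k k1) (by omega)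
  have c1 := H.shift_left (by omega) c0 (hq.sub (by omega) le_rfl)
  have c2 := H.shift_left (by omega) c1 (hq.sub (by omega) (by omega))
  have e2 : i - 2 - 2 = i - 4 := by ring
  have e3 : j - 2 - 2 = j - 4 := by ring
  rw [e2, e3] at c2
  -- change the end
  have hA : Γ.A (q (j - 3)) (q (j - 4)) := by
    have := hq.adj' (k := j - 3) (by omega) (by omega)
    have e : j - 3 - 1 = j - 4 := by ring
    rwa [e] at this
  have hB : Γ.A (q (j - 3)) (q (j - 2)) := by
    have := hq.adj (k := j - 3) (by omega) (by omega)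
    have e : j - 3 + 1 = j - 2 := by ring
    rwa [e] at this
  have hAB : q (j - 4) ≠ q (j - 2) := hq.ne (by omega) (by omega) (by ring)
  obtain ⟨x, hx, hxA, hxB, -⟩ := exists_third hA hB hAB
  obtain ⟨s1, hs1, s1x, s1k⟩ := (hq.sub (i' := i - 4) (j' := j - 3) le_rfl (by omega)).exists_snoc hx (fun _ => by
    have e : j - 3 - 1 = j - 4 := by ring
    rw [e]; exact hxA)
  have ext' : ∀ (p : ℤ → V) (j' : ℤ), i - 4 < j' → Γ.Arc p (i - 4) j' →
      ∃ q, Γ.Arc q (i - 4) (j' + 1) ∧ ∀ k ≤ j', q k = p k := by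
    intro p j' hi hp
    obtain ⟨x, hx, hxn⟩ := exists_ne (hp.adj' (k := j') (by omega) le_rfl)
    obtain ⟨q, hq, -, hqk⟩ := hp.exists_snoc hx (fun _ => hxn)
    exact ⟨q, hq, hqk⟩
  obtain ⟨s2, hs2, s2k⟩ := ext' s1 (j - 3 + 1) (by omega) hs1
  obtain ⟨s3, hs3, s3k⟩ := ext' s2 (j - 3 + 1 + 1) (by omega) hs2
  have e4 : j - 3 + 1 + 1 + 1 = j := by ring
  rw [e4] at hs3
  have sk : ∀ k ≤ j - 3, s3 k = q k := fun k hk => by
    rw [s3k k (by omega), s2k k (by omega), s1k k hk]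
  have sx : s3 (j - 2) = x := by
    have e : j - 3 + 1 = j - 2 := by ring
    rw [s3k _ (by omega), s2k _ (by omega), ← e]; exact s1x
  have d2 : BCr Γ τ n s3 (i - 4) (j - 4) := c2.congr (fun k _ k2 => sk k (by omega)) (by omega)
  have d1 := H.shift_right (by omega) d2 (hs3.sub le_rfl (by omega))
  have d0 := H.shift_right (by omega) d1 (hs3.sub (by omega) (by omega))
  have e5 : i - 4 + 2 + 2 = i := by ring
  have e6 : j - 4 + 2 + 2 = j := by ring
  rw [e5, e6] at d0
  have f1 := H.rel_mid (by omega) c0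
  have f2 := H.rel_mid (by omega) d0
  rw [sk (i + 2) (by omega), f1, sx] at f2
  have tj2 : Γ.ty (q (j - 2)) = τ := by
    rw [← h3, ← qk i le_rfl]; exact hq.ty_even (by omega) (by omega) (by omega) (by omega) (by omega)
  exact hxB (H.R.inj hB hx tj2 f2).symm

end CR

end Tri

end Cfsg.Agent.H209
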