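import Cfsg.Agent.H209.TriCBEven

/-!
# Case B, odd critical distance at least three: general facts
-/

set_option autoImplicit false

namespace Cfsg.Agent.H209

open MulAction

theorem prod2_mod {G : Type*} [Group G] {A1 A2 B1 B2 z : G} (hz : z * z = 1) (c2 : z * B2 = B2 * z)
    (h1 : A1 = B1 ∨ A1 = B1 * z) (h2 : A2 = B2 ∨ A2 = B2 * z) :
    A1 * A2 = B1 * B2 ∨ A1 * A2 = B1 * B2 * z := by
  rcases h1 with rfl | rfl <;> rcases h2 with rfl | rfl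
  · exact Or.inl rfl
  · right; group
  · right
    calc B1 * z * A2 = B1 * (z * A2) := by group
      _ = B1 * A2 * z := by rw [c2]; group
  · left
    calc B1 * z * (B2 * z) = B1 * (z * B2) * z := by group
      _ = B1 * B2 * (z * z) := by rw [c2]; group
      _ = B1 * B2 := by rw [hz, mul_one]

theorem prod3_mod {G : Type*} [Group G] {A1 A2 A3 B1 B2 B3 z : G} (hz : z * z = 1) (c2 : z * B2 = B2 * z)
    (c3 : z * B3 = B3 * z) (h1 : A1 = B1 ∨ A1 = B1 * z) (h2 : A2 = B2 ∨ A2 = B2 * z) (h3 : A3 = B3 ∨ A3 = B3 * z) :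
    A1 * A2 * A3 = B1 * B2 * B3 ∨ A1 * A2 * A3 = B1 * B2 * B3 * z :=
  prod2_mod hz c3 (prod2_mod hz c2 h1 h2) h3

/-- two elements commute if the commutator is in two subgroups with trivial intersection -/
theorem comm_of {G : Type*} [Group G] {x y c c' : G} (h1 : y * x * y⁻¹ = x * c) (h2 : x * y * x⁻¹ = y * c')
    (hx : x * x = 1) (hy : y * y = 1) (h : c = c'⁻¹ → c = 1) : x * y = y * x := by
  have ex : x⁻¹ = x := inv_eq_of_mul_eq_one_left hx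
  have ey : y⁻¹ = y := inv_eq_of_mul_eq_one_left hy
  have e1 : c = x⁻¹ * (y * x * y⁻¹) := by rw [h1]; group
  have e2 : c' = y⁻¹ * (x * y * x⁻¹) := by rw [h2]; group
  have e3 : c = c'⁻¹ := by
    rw [e1, e2, mul_inv_rev, mul_inv_rev, mul_inv_rev, inv_inv, inv_inv, ex, ey]; group
  have e4 := h e3
  rw [e4, mul_one] at h1
  calc x * y = (y * x * y⁻¹) * y := by rw [h1]
    _ = y * x := by group

namespace Tri

variable {G V : Type*} [Group G] [MulAction G V] {Γ : Tri G V}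
variable {u v w a b c d l m s : V} {g h t x y z : G} {τ : Bool}

theorem perm_cases (ha : Γ.A v a) (hb : Γ.A v b) (hc : Γ.A v c) (hab : a ≠ b) (hac : a ≠ c) (hbc : b ≠ c)
    (hg : g • v = v) :
    (g • a = a ∧ g • b = b ∧ g • c = c) ∨ (g • a = a ∧ g • b = c ∧ g • c = b) ∨
    (g • a = b ∧ g • b = a ∧ g • c = c) ∨ (g • a = b ∧ g • b = c ∧ g • c = a) ∨
    (g • a = c ∧ g • b = a ∧ g • c = b) ∨ (g • a = c ∧ g • b = b ∧ g • c = a) := by
  have i1 : g • a ≠ g • b := fun h => hab (MulAction.injective g h)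
  have i2 : g • a ≠ g • c := fun h => hac (MulAction.injective g h)
  have i3 : g • b ≠ g • c := fun h => hbc (MulAction.injective g h)
  rcases eq_or ha hb hc (A_of_fix hg ha) hab hac hbc with h1 | h1 | h1 <;>
  rcases eq_or ha hb hc (A_of_fix hg hb) hab hac hbc with h2 | h2 | h2 <;>
  rcases eq_or ha hb hc (A_of_fix hg hc) hab hac hbc with h3 | h3 | h3 <;>
  rw [h1, h2] at i1 <;> rw [h1, h3] at i2 <;> rw [h2, h3] at i3 <;>
  first
    | exact absurd rfl i1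
    | exact absurd rfl i2
    | exact absurd rfl i3
    | exact Or.inl ⟨h1, h2, h3⟩
    | exact Or.inr (Or.inl ⟨h1, h2, h3⟩)
    | exact Or.inr (Or.inr (Or.inl ⟨h1, h2, h3⟩))
    | exact Or.inr (Or.inr (Or.inr (Or.inl ⟨h1, h2, h3⟩)))
    | exact Or.inr (Or.inr (Or.inr (Or.inr (Or.inl ⟨h1, h2, h3⟩))))
    | exact Or.inr (Or.inr (Or.inr (Or.inr (Or.inr ⟨h1, h2, h3⟩))))

/-- an arc of length two -/
theorem exists_arc2 {p : V} (hl : Γ.A p l) (hm : Γ.A p m) (hlm : l ≠ m) :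
    ∃ q : ℤ → V, Γ.Arc q (-1) 1 ∧ q (-1) = l ∧ q 0 = p ∧ q 1 = m := by
  obtain ⟨q, hq, hqm, hqk⟩ := (Arc.single (Γ := Γ) p 0).exists_snoc (x := m) hm (fun h => absurd h (by omega))
  have hq0 : q 0 = p := hqk 0 le_rfl
  obtain ⟨q', hq', hq'l, hq'k⟩ := hq.exists_cons (x := l) (by rw [hq0]; exact hl) (fun _ => by rw [hqm]; exact hlm)
  refine ⟨q', hq', hq'l, ?_, ?_⟩
  · rw [hq'k 0 le_rfl, hq0]
  · rw [hq'k 1 (by omega)]; exact hqm

/-- `y` is normalised modulo `r p` -/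
def YC (r : V → G) (p : V) (y : G) : Prop := ∀ g : G, g • p = p → g * y * g⁻¹ = y ∨ g * y * g⁻¹ = y * r p

namespace Pts

variable {r : V → G} (R : Pts Γ τ r)

include R

theorem branch {p q q' : V} (hp : Γ.A l p) (hq : Γ.A l q) (hq' : Γ.A l q') (hqp : q ≠ p) (hqp' : q' ≠ p)
    (hty : Γ.ty p = τ) : r q' = r q ∨ r q' = r q * r p := by
  by_cases h : q' = q
  · left; rw [h]
  · right
    have tyq : Γ.ty q = τ := by rw [← hty]; exact ty_eq_of_adj hq hp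
    exact (R.mul l q p q' hq hp hq' hqp (Ne.symm h) hqp'.symm tyq).symm

theorem YC_prod {p l1 l2 l3 q1 q2 q3 : V} (hty : Γ.ty p = τ) (h1 : Γ.A p l1) (h2 : Γ.A p l2) (h3 : Γ.A p l3)
    (h12 : l1 ≠ l2) (h13 : l1 ≠ l3) (h23 : l2 ≠ l3) (k1 : Γ.A l1 q1) (k2 : Γ.A l2 q2) (k3 : Γ.A l3 q3)
    (n1 : q1 ≠ p) (n2 : q2 ≠ p) (n3 : q3 ≠ p) (c12 : r q1 * r q2 = r q2 * r q1) (c13 : r q1 * r q3 = r q3 * r q1)
    (c23 : r q2 * r q3 = r q3 * r q2) : YC r p (r q1 * r q2 * r q3) := by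
  intro g hg
  have t1 : Γ.ty q1 = τ := by rw [← hty]; exact ty_eq_of_adj k1 (Γ.symm h1)
  have t2 : Γ.ty q2 = τ := by rw [← hty]; exact ty_eq_of_adj k2 (Γ.symm h2)
  have t3 : Γ.ty q3 = τ := by rw [← hty]; exact ty_eq_of_adj k3 (Γ.symm h3)
  have e : g * (r q1 * r q2 * r q3) * g⁻¹ = r (g • q1) * r (g • q2) * r (g • q3) := by
    rw [← R.conj q1 g t1, ← R.conj q2 g t2, ← R.conj q3 g t3]; group
  have z1 : r p * r q1 = r q1 * r p := R.comm_nbr (Γ.symm h1) k1 hty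
  have z2 : r p * r q2 = r q2 * r p := R.comm_nbr (Γ.symm h2) k2 hty
  have z3 : r p * r q3 = r q3 * r p := R.comm_nbr (Γ.symm h3) k3 hty
  have hzz := R.sq p hty
  have br : ∀ l l' q q', Γ.A p l' → Γ.A l q → Γ.A l' q' → q ≠ p → q' ≠ p → g • l = l' →
      r (g • q) = r q' ∨ r (g • q) = r q' * r p := by
    intro l l' q q' hl' hq hq' hqp hqp' hgl
    have hA : Γ.A l' (g • q) := by
      have := Γ.smul g hq
      rwa [hgl] at this
    refine R.branch (Γ.symm hl') hq' hA hqp' ?_ hty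
    intro h
    apply hqp
    apply MulAction.injective g
    show g • q = g • p
    rw [h, hg]
  rw [e]
  rcases perm_cases h1 h2 h3 h12 h13 h23 hg with ⟨g1, g2, g3⟩ | ⟨g1, g2, g3⟩ | ⟨g1, g2, g3⟩ | ⟨g1, g2, g3⟩ |
    ⟨g1, g2, g3⟩ | ⟨g1, g2, g3⟩
  · exact prod3_mod hzz z2 z3 (br l1 l1 q1 q1 h1 k1 k1 n1 n1 g1) (br l2 l2 q2 q2 h2 k2 k2 n2 n2 g2)
      (br l3 l3 q3 q3 h3 k3 k3 n3 n3 g3)
  · have e1 : r q1 * r q2 * r q3 = r q1 * r q3 * r q2 := by rw [mul_assoc, c23, ← mul_assoc]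
    rw [e1]
    exact prod3_mod hzz z3 z2 (br l1 l1 q1 q1 h1 k1 k1 n1 n1 g1) (br l2 l3 q2 q3 h3 k2 k3 n2 n3 g2)
      (br l3 l2 q3 q2 h2 k3 k2 n3 n2 g3)
  · have e1 : r q1 * r q2 * r q3 = r q2 * r q1 * r q3 := by rw [c12]
    rw [e1]
    exact prod3_mod hzz z1 z3 (br l1 l2 q1 q2 h2 k1 k2 n1 n2 g1) (br l2 l1 q2 q1 h1 k2 k1 n2 n1 g2)
      (br l3 l3 q3 q3 h3 k3 k3 n3 n3 g3)
  · have e1 : r q1 * r q2 * r q3 = r q2 * r q3 * r q1 := by
      rw [c12, mul_assoc, c13, ← mul_assoc]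
    rw [e1]
    exact prod3_mod hzz z3 z1 (br l1 l2 q1 q2 h2 k1 k2 n1 n2 g1) (br l2 l3 q2 q3 h3 k2 k3 n2 n3 g2)
      (br l3 l1 q3 q1 h1 k3 k1 n3 n1 g3)
  · have e1 : r q1 * r q2 * r q3 = r q3 * r q1 * r q2 := by
      rw [mul_assoc, c23, ← mul_assoc, c13]
    rw [e1]
    exact prod3_mod hzz z1 z2 (br l1 l3 q1 q3 h3 k1 k3 n1 n3 g1) (br l2 l1 q2 q1 h1 k2 k1 n2 n1 g2)
      (br l3 l2 q3 q2 h2 k3 k2 n3 n2 g3)
  · have e1 : r q1 * r q2 * r q3 = r q3 * r q2 * r q1 := by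
      rw [mul_assoc, c23, ← mul_assoc, c13, mul_assoc, c12, ← mul_assoc]
    rw [e1]
    exact prod3_mod hzz z2 z1 (br l1 l3 q1 q3 h3 k1 k3 n1 n3 g1) (br l2 l2 q2 q2 h2 k2 k2 n2 n2 g2)
      (br l3 l1 q3 q1 h1 k3 k1 n3 n1 g3)

end Pts

/-- the hypotheses of Case B, odd -/
structure CO (Γ : Tri G V) (τ : Bool) (n : ℤ) : Prop where
  cb : CB Γ τ
  hmin : ∀ (p : ℤ → V) (i j : ℤ), i ≤ j → Γ.Arc p i j → Γ.ty (p i) = !τ → j - i < n → Γ.ZZ (p i) ≤ Γ.Q (p j)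
  hn : 3 ≤ n
  odd : n % 2 = 1

namespace CO

variable {n : ℤ} (H : CO Γ τ n)

include H

theorem VB_le {p : ℤ → V} {i j : ℤ} (hij : i ≤ j) (hp : Γ.Arc p i j) (hty : Γ.ty (p i) = τ) (hlt : j - i ≤ n - 2) :
    Γ.VB (p i) ≤ Γ.Q (p j) := by
  by_cases hij' : i = j
  · subst hij'; exact H.cb.VB_le_Q hty
  unfold VB
  rw [Subgroup.closure_le]
  rintro x ⟨l, hl, hx⟩
  by_cases hli : l = p (i + 1)
  · subst hli
    exact H.hmin p (i + 1) j (by omega) (hp.sub (by omega) le_rfl) (CB.ty_nbr' hty hl) (by omega) hx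
  · obtain ⟨q, hq, hql, hqk⟩ := hp.exists_cons hl (fun _ => hli)
    have := H.hmin q (i - 1) j (by omega) hq (by rw [hql]; exact CB.ty_nbr' hty hl) (by omega)
      (by rw [hql]; exact hx)
    rwa [hqk j (by omega)] at this

theorem VB_le_rev {p : ℤ → V} {i j : ℤ} (hij : i ≤ j) (hp : Γ.Arc p i j) (hty : Γ.ty (p j) = τ)
    (hlt : j - i ≤ n - 2) : Γ.VB (p j) ≤ Γ.Q (p i) := by
  have := H.VB_le (p := fun k => p (i + j - k)) hij (by
    have := hp.rev (i + j)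
    have e1 : i + j - j = i := by ring
    have e2 : i + j - i = j := by ring
    rwa [e1, e2] at this) (by simpa using hty) hlt
  simpa using this

theorem VB_fix {p : ℤ → V} {i j : ℤ} (hp : Γ.Arc p i j) (hty : Γ.ty (p i) = τ) {k : ℤ} (h1 : i ≤ k) (h2 : k ≤ j)
    (h3 : k - i ≤ n - 1) {x : G} (hx : x ∈ Γ.VB (p i)) : x • p k = p k := by
  rcases eq_or_lt_of_le h1 with h4 | h4
  · rw [← h4]; exact (H.cb.VB_le_Q hty hx).1
  · have h5 := H.VB_le (p := p) (i := i) (j := k - 1) (by omega) (hp.sub le_rfl (by omega)) hty (by omega) hx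
    exact h5.2 _ (Γ.symm (hp.adj' h4 h2))

theorem VB_fix_rev {p : ℤ → V} {i j : ℤ} (hp : Γ.Arc p i j) (hty : Γ.ty (p j) = τ) {k : ℤ} (h1 : i ≤ k)
    (h2 : k ≤ j) (h3 : j - k ≤ n - 1) {x : G} (hx : x ∈ Γ.VB (p j)) : x • p k = p k := by
  have h4 := H.VB_fix (p := fun l => p (i + j - l)) (i := i) (j := j) (k := i + j - k) (by
    have := hp.rev (i + j)
    have e1 : i + j - j = i := by ring
    have e2 : i + j - i = j := by ring
    rwa [e1, e2] at this) (by simpa using hty) (by omega) (by omega) (by omega) (x := x) (by simpa using hx)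
  simpa using h4

theorem ZZ_le_Q_two {p : V} (hty : Γ.ty p = τ) (hl : Γ.A p l) (hm : Γ.A p m) : Γ.ZZ l ≤ Γ.Q m := by
  by_cases hlm : l = m
  · rw [hlm]; exact H.cb.np.ZZ_le_Q
  · obtain ⟨q, hq, h1, h2, h3⟩ := exists_arc2 hl hm hlm
    have hn := H.hn
    have := H.hmin q (-1) 1 (by omega) hq (by rw [h1]; exact CB.ty_nbr' hty hl) (by omega)
    rwa [h1, h3] at this

theorem VB_le_Q_nbr {p : V} (hty : Γ.ty p = τ) (hl : Γ.A p l) : Γ.VB p ≤ Γ.Q l := by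
  unfold VB
  rw [Subgroup.closure_le]
  rintro x ⟨m, hm, hx⟩
  exact H.ZZ_le_Q_two hty hm hl hx

theorem ZZ_VB_comm {p : V} (hty : Γ.ty p = τ) (hl : Γ.A p l) (hx : x ∈ Γ.ZZ l) (hy : y ∈ Γ.VB p) :
    x * y = y * x := ZZ_comm hx (H.VB_le_Q_nbr hty hl hy)

theorem VB_comm {p : V} (hty : Γ.ty p = τ) (hx : x ∈ Γ.VB p) (hy : y ∈ Γ.VB p) : x * y = y * x := by
  unfold VB at hx
  induction hx using Subgroup.closure_induction with
  | mem x hx =>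
    obtain ⟨l, hl, hx⟩ := hx
    exact H.ZZ_VB_comm hty hl hx hy
  | one => simp
  | mul x z _ _ h1 h2 => rw [mul_assoc, h2, ← mul_assoc, h1, mul_assoc]
  | inv x _ h1 =>
    calc x⁻¹ * y = x⁻¹ * (y * x) * x⁻¹ := by group
      _ = x⁻¹ * (x * y) * x⁻¹ := by rw [h1]
      _ = y * x⁻¹ := by group

theorem VB_sq {p : V} (hty : Γ.ty p = τ) (hx : x ∈ Γ.VB p) : x * x = 1 := by
  have hx' := hx
  unfold VB at hx
  induction hx using Subgroup.closure_induction with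
  | mem x hx =>
    obtain ⟨l, hl, hx⟩ := hx
    exact H.cb.np.ZZ_sq hx
  | one => simp
  | mul x y hx hy h1 h2 =>
    have h3 := H.VB_comm hty hy hx
    calc x * y * (x * y) = x * (y * x) * y := by group
      _ = (x * x) * (y * y) := by rw [h3]; group
      _ = 1 := by rw [h1 hx, h2 hy, one_mul]
  | inv x hx h1 =>
    have h1' := h1 hx
    rw [← mul_inv_rev, h1', inv_one]

theorem VB_inv {p : V} (hty : Γ.ty p = τ) (hx : x ∈ Γ.VB p) : x⁻¹ = x :=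
  inv_eq_of_mul_eq_one_left (H.VB_sq hty hx)

/-- `[VB p, Q p] ≤ ZB p` -/
theorem VB_act {p : V} (hty : Γ.ty p = τ) (hg : g ∈ Γ.Q p) (hx : x ∈ Γ.VB p) : ∃ c ∈ ZB G p, g * x * g⁻¹ = x * c := by
  unfold VB at hx
  induction hx using Subgroup.closure_induction with
  | mem x hx =>
    obtain ⟨l, hl, hx⟩ := hx
    exact H.cb.ZZ_act (CB.ty_nbr' hty hl) (Γ.symm hl) (Q_le_T' hl hg) hx
  | one => exact ⟨1, one_mem _, by group⟩
  | mul x y _ hy h1 h2 =>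
    obtain ⟨c, hc, e⟩ := h1
    obtain ⟨c', hc', e'⟩ := h2
    refine ⟨c * c', mul_mem hc hc', ?_⟩
    have h3 : y * c = c * y := ZB_comm hc (H.cb.VB_le_Q hty hy).1
    calc g * (x * y) * g⁻¹ = (g * x * g⁻¹) * (g * y * g⁻¹) := by group
      _ = x * (c * y) * c' := by rw [e, e']; group
      _ = x * y * (c * c') := by rw [← h3]; group
  | inv x hx h1 =>
    obtain ⟨c, hc, e⟩ := h1
    refine ⟨c⁻¹, inv_mem hc, ?_⟩
    have h3 : x⁻¹ * c⁻¹ = c⁻¹ * x⁻¹ := ZB_comm (inv_mem hc) (inv_fix (H.cb.VB_le_Q hty hx).1)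
    calc g * x⁻¹ * g⁻¹ = (g * x * g⁻¹)⁻¹ := by group
      _ = c⁻¹ * x⁻¹ := by rw [e, mul_inv_rev]
      _ = x⁻¹ * c⁻¹ := h3.symm

/-- decomposition of `VB p` -/
theorem VB_decomp {p l0 l1 l2 q1 q2 : V} (hty : Γ.ty p = τ) (h0 : Γ.A p l0) (h1 : Γ.A p l1) (h2 : Γ.A p l2)
    (h01 : l0 ≠ l1) (h02 : l0 ≠ l2) (h12 : l1 ≠ l2) (k1 : Γ.A l1 q1) (k2 : Γ.A l2 q2) (n1 : q1 ≠ p) (n2 : q2 ≠ p)
    (hx : x ∈ Γ.VB p) : ∃ a ∈ Γ.ZZ l0, ∃ b ∈ ZB G q1, ∃ c ∈ ZB G q2, x = a * b * c := by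
  have t1 : Γ.ty q1 = τ := by rw [← hty]; exact ty_eq_of_adj k1 (Γ.symm h1)
  have t2 : Γ.ty q2 = τ := by rw [← hty]; exact ty_eq_of_adj k2 (Γ.symm h2)
  have m0 : ∀ a ∈ Γ.ZZ l0, a ∈ Γ.VB p := fun a ha => ZZ_le_VB h0 ha
  have m1 : ∀ a ∈ ZB G q1, a ∈ Γ.VB p := fun a ha => ZZ_le_VB h1 (H.cb.ZB_le_ZZ t1 k1 ha)
  have m2 : ∀ a ∈ ZB G q2, a ∈ Γ.VB p := fun a ha => ZZ_le_VB h2 (H.cb.ZB_le_ZZ t2 k2 ha)
  unfold VB at hx
  induction hx using Subgroup.closure_induction with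
  | mem x hx =>
    obtain ⟨l, hl, hx⟩ := hx
    rcases eq_or h0 h1 h2 hl h01 h02 h12 with rfl | rfl | rfl
    · exact ⟨x, hx, 1, one_mem _, 1, one_mem _, by group⟩
    · obtain ⟨a, ha, b, hb, e⟩ := H.cb.ZZ_decomp (CB.ty_nbr' hty hl) (Γ.symm hl) k1 n1.symm hx
      exact ⟨a, H.cb.ZB_le_ZZ hty (Γ.symm h0) ha, b, hb, 1, one_mem _, by rw [e]; group⟩
    · obtain ⟨a, ha, b, hb, e⟩ := H.cb.ZZ_decomp (CB.ty_nbr' hty hl) (Γ.symm hl) k2 n2.symm hx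
      exact ⟨a, H.cb.ZB_le_ZZ hty (Γ.symm h0) ha, 1, one_mem _, b, hb, by rw [e]; group⟩
  | one => exact ⟨1, one_mem _, 1, one_mem _, 1, one_mem _, by group⟩
  | mul x y _ _ h1 h2 =>
    obtain ⟨a, ha, b, hb, c, hc, rfl⟩ := h1
    obtain ⟨a', ha', b', hb', c', hc', rfl⟩ := h2
    refine ⟨a * a', mul_mem ha ha', b * b', mul_mem hb hb', c * c', mul_mem hc hc', ?_⟩
    have e1 : c * (a' * b') = (a' * b') * c := H.VB_comm hty (m2 c hc) (mul_mem (m0 a' ha') (m1 b' hb'))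
    have e2 : b * a' = a' * b := H.VB_comm hty (m1 b hb) (m0 a' ha')
    calc a * b * c * (a' * b' * c') = a * b * (c * (a' * b')) * c' := by group
      _ = a * (b * a') * b' * c * c' := by rw [e1]; group
      _ = a * a' * (b * b') * (c * c') := by rw [e2]; group
  | inv x _ h1 =>
    obtain ⟨a, ha, b, hb, c, hc, rfl⟩ := h1
    refine ⟨a⁻¹, inv_mem ha, b⁻¹, inv_mem hb, c⁻¹, inv_mem hc, ?_⟩
    have e1 : c * (a * b) = (a * b) * c := H.VB_comm hty (m2 c hc) (mul_mem (m0 a ha) (m1 b hb))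
    have e2 : b * a = a * b := H.VB_comm hty (m1 b hb) (m0 a ha)
    rw [← e1, ← e2]; group

/-- an element centralising `VB p` is in `Q p` and in `Q l` for `l ~ p` -/
theorem mem_Q_of_VB {p : V} (hty : Γ.ty p = τ) (hg : g • p = p) (hc : ∀ x ∈ Γ.VB p, g * x = x * g) :
    g ∈ Γ.Q p ∧ ∀ l, Γ.A p l → g ∈ Γ.Q l := by
  have h1 : ∀ l, Γ.A p l → g ∈ Γ.Q l := fun l hl =>
    H.cb.mem_Q_of_comm' hty hl hg (fun x hx => hc x (ZZ_le_VB hl hx))
  exact ⟨⟨hg, fun l hl => (h1 l hl).1⟩, h1⟩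

end CO

end Tri

end Cfsg.Agent.H209
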