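import Cfsg.Agent.H209.TriCBOdd

/-!
# Case B, odd critical distance: `VB p ∩ Q q` centralises `VB q` at distance `n - 1`, and `|ZB p| = 2`
-/

set_option autoImplicit false

namespace Cfsg.Agent.H209

open MulAction

namespace Tri

variable {G V : Type*} [Group G] [MulAction G V] {Γ : Tri G V}
variable {u v w a b c d l m s : V} {g h t x y z : G} {τ : Bool}

theorem arc_trans' {m : ℤ} (hm : 1 ≤ m) (hM : ∀ k : ℤ, 1 ≤ k → k < m → ∀ τ, MvT Γ k τ) {p q : ℤ → V} {i i' : ℤ}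
    (hp : Γ.Arc p i (i + m)) (hq : Γ.Arc q i' (i' + m)) (hty : Γ.ty (p i) = Γ.ty (q i')) :
    ∃ g : G, ∀ k, 0 ≤ k → k ≤ m → g • p (i + k) = q (i' + k) := by
  have e3 : ((m.toNat : ℕ) : ℤ) = m := by omega
  have hq' := hq.shift (i' - i)
  have e1 : i' - (i' - i) = i := by ring
  have e2 : i' + m - (i' - i) = i + m := by ring
  rw [e1, e2] at hq'
  obtain ⟨g, hg⟩ := arc_trans (Γ := Γ) m.toNat (by omega) (by rw [e3]; exact hM) (p := p)
    (q := fun k => q (k + (i' - i))) (i := i) (by rw [e3]; exact hp) (by rw [e3]; exact hq') (by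
      have : i + (i' - i) = i' := by ring
      simp only [this]; exact hty)
  rw [e3] at hg
  refine ⟨g, fun k h1 h2 => ?_⟩
  have := hg (i + k) (by omega) (by omega)
  have e : i + k + (i' - i) = i' + k := by ring
  simp only [e] at this
  exact this

/-- `VB p ∩ Q q` centralises `VB q` at distance `n - 1` -/
def G4 (Γ : Tri G V) (τ : Bool) (n : ℤ) : Prop := ∀ (p : ℤ → V) (i j : ℤ), j = i + (n - 1) → Γ.Arc p i j →
  Γ.ty (p i) = τ → ∀ x ∈ Γ.VB (p i), x ∈ Γ.Q (p j) → ∀ y ∈ Γ.VB (p j), x * y = y * x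

namespace CO

variable {n : ℤ} (H : CO Γ τ n)

include H

theorem G4_of_Fx {j0 : ℤ} (hj0 : j0 ≤ n) (hFx : Fx Γ j0 (!τ)) : G4 Γ τ n := by
  have hn := H.hn
  intro p i j hij hp hty x hx hxQ y hy
  have tj : Γ.ty (p j) = τ := by
    rw [← hty]; exact hp.ty_even le_rfl (by omega) (by omega) le_rfl (by have := H.odd; omega)
  have hA : Γ.A (p j) (p (j - 1)) := hp.adj' (by omega) le_rfl
  have key : ∀ m, Γ.A (p j) m → x ∈ Γ.Q m := by
    intro m hm
    by_cases hmj : m = p (j - 1)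
    · subst hmj
      exact H.VB_le (by omega) (hp.sub le_rfl (by omega)) hty (by omega) hx
    · obtain ⟨q, hq, hqm, hqk⟩ := hp.exists_snoc hm (fun _ => hmj)
      have e : i + n = j + 1 := by omega
      have := (hFx.mono (j' := n) hj0) q i (by rw [e]; exact hq) (by rw [e, hqm]; exact CB.ty_nbr' tj hm) x (by
        intro k h1 h2
        rw [e] at h2
        rcases eq_or_lt_of_le h2 with h3 | h3
        · rw [h3, hqm]; exact hxQ.2 m hm
        · rw [hqk k (by omega)]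
          exact H.VB_fix hp hty h1 (by omega) (by omega) hx)
      rwa [e, hqm] at this
  unfold VB at hy
  induction hy using Subgroup.closure_induction with
  | mem y hy =>
    obtain ⟨m, hm, hy⟩ := hy
    exact (ZZ_comm hy (key m hm)).symm
  | one => simp
  | mul y z _ _ h1 h2 => rw [← mul_assoc, h1, mul_assoc, h2, mul_assoc]
  | inv y _ h1 =>
    calc x * y⁻¹ = y⁻¹ * (y * x) * y⁻¹ := by group
      _ = y⁻¹ * (x * y) * y⁻¹ := by rw [h1]
      _ = y⁻¹ * x := by group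

section Mv

variable (hM : ∀ k : ℤ, 1 ≤ k → k ≤ n → ∀ τ', MvT Γ k τ')

include hM

/-- the ends of an arc of length `n - 1` -/
theorem ZB_ends {p : ℤ → V} {i j : ℤ} (hij : j = i + (n - 1)) (hp : Γ.Arc p i j) (hty : Γ.ty (p i) = τ)
    (hx : x ∈ ZB G (p i)) (hx' : x ∈ ZB G (p j)) : x = 1 := by
  have hn := H.hn
  have hA : Γ.A (p i) (p (i + 1)) := hp.adj le_rfl (by omega)
  have hA' : Γ.A (p j) (p (j - 1)) := hp.adj' (by omega) le_rfl
  have hxV : x ∈ Γ.VB (p i) := ZZ_le_VB hA (H.cb.ZB_le_ZZ hty (Γ.symm hA) hx)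
  apply arc_bot_elt Γ x (i := i) (j := j) (by omega) hp
  · intro k h1 h2
    exact H.VB_fix hp hty h1 h2 (by omega) hxV
  · intro y hy
    obtain ⟨g, hg, hgy⟩ := exists_trans hA hy
    exact ⟨g, ZB_comm hx hg, i + 1, by omega, by omega, hgy⟩
  · intro y hy
    obtain ⟨g, hg, hgy⟩ := exists_trans hA' hy
    exact ⟨g, ZB_comm hx' hg, j - 1, by omega, by omega, hgy⟩
  · intro k h1 h2
    have e : i + (k - i) = k := by ring
    obtain ⟨g, hg, hgQ⟩ := hM (k - i) (by omega) (by omega) (Γ.ty (p k)) p i (hp.sub le_rfl (by omega)) (by rw [e])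
    rw [e] at hg hgQ
    exact ⟨g, ZB_comm hx (hg i le_rfl (by omega)), hg k (by omega) le_rfl,
      Or.inl (hg (k - 1) (by omega) (by omega)), hgQ⟩

theorem X1 {p : ℤ → V} (hp : Γ.Arc p 0 n) (hty : Γ.ty (p 0) = !τ) (hx : x ∈ Γ.VB (p n)) (hx1 : x ∈ Γ.Q (p 1))
    (hx0 : x ∉ Γ.Q (p 0)) (u : G) (hu : u ∈ Γ.ZZ (p 0)) (huQ : u ∈ Γ.Q (p n)) : u ∈ ZB G (p 1) := by
  have hn := H.hn
  have hA : Γ.A (p 0) (p 1) := hp.adj (k := 0) le_rfl (by omega)
  have t1 := CB.ty_nbr hty hA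
  have tn : Γ.ty (p n) = τ := by
    rw [← t1]; exact hp.ty_even (by omega) (by omega) (by omega) le_rfl (by have := H.odd; omega)
  have hxT : x ∈ (T (p 0) (p 1) : Subgroup G) := Q_le_T' (Γ.symm hA) hx1
  obtain ⟨c, hc, e⟩ := H.cb.ZZ_act hty hA hxT hu
  obtain ⟨c', hc', e'⟩ := H.VB_act tn huQ hx
  have hcomm : u * x = x * u := by
    apply comm_of e e' (H.cb.np.ZZ_sq hu) (H.VB_sq tn hx)
    intro h
    apply H.ZB_ends hM (i := 1) (j := n) (by ring) (hp.sub (by omega) le_rfl) t1 hc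
    rw [h]; exact inv_mem hc'
  exact H.cb.ZZ_cent hty hA hxT hx0 hu hcomm.symm

theorem X2 {p : ℤ → V} (hp : Γ.Arc p 0 n) (hty : Γ.ty (p 0) = !τ)
    (h : ∀ u ∈ Γ.ZZ (p 0), u ∈ Γ.Q (p n) → u ∈ ZB G (p 1)) {q : ℤ → V} (hq : Γ.Arc q 0 n) (hty' : Γ.ty (q 0) = !τ)
    (u : G) (hu : u ∈ Γ.ZZ (q 0)) (huQ : u ∈ Γ.Q (q n)) : u ∈ ZB G (q 1) := by
  have hn := H.hn
  obtain ⟨g, hg⟩ := arc_trans' (Γ := Γ) (m := n) (by omega) (fun k h1 h2 => hM k h1 (by omega)) (p := q) (q := p)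
    (i := 0) (i' := 0) (by rw [zero_add]; exact hq) (by rw [zero_add]; exact hp) (by rw [hty, hty'])
  simp only [zero_add] at hg
  have h1 := h _ (conj_mem_ZZ_of_eq hu (hg 0 le_rfl (by omega))) (conj_mem_Q_of_eq huQ (hg n (by omega) le_rfl))
  have h2 := conj_mem_ZB_of_eq (h := g⁻¹) (q := q 1) h1 (by rw [← hg 1 (by omega) (by omega), inv_smul_smul])
  have e : g⁻¹ * (g * u * g⁻¹) * g⁻¹⁻¹ = u := by group
  rwa [e] at h2

theorem X3 {r : V → G} (R : Pts Γ τ r) (hr : ∀ p, Γ.ty p = τ → r p ∈ ZB G p ∧ ∀ x ∈ ZB G p, x = 1 ∨ x = r p)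
    (hcrit : ∀ q : ℤ → V, Γ.Arc q 0 n → Γ.ty (q 0) = !τ → ∀ u ∈ Γ.ZZ (q 0), u ∈ Γ.Q (q n) → u ∈ ZB G (q 1))
    {q : ℤ → V} (hq : Γ.Arc q 0 n) (hty : Γ.ty (q 0) = !τ) {s v : G} (hs : s ∈ Γ.VB (q 1)) (hsQ : s ∈ Γ.Q (q n))
    (hv : v ∈ Γ.VB (q n)) : s * v = v * s := by
  have hn := H.hn
  have h01 : Γ.A (q 0) (q 1) := hq.adj (k := 0) le_rfl (by omega)
  have h12 : Γ.A (q 1) (q 2) := hq.adj (k := 1) (by omega) (by omega)
  have h23 : Γ.A (q 2) (q 3) := hq.adj (k := 2) (by omega) (by omega)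
  have h02 : q 0 ≠ q 2 := hq.ne le_rfl (by omega) (by ring)
  have h13 : q 1 ≠ q 3 := hq.ne (by omega) (by omega) (by ring)
  have hAn : Γ.A (q n) (q (n - 1)) := hq.adj' (by omega) le_rfl
  have t1 := CB.ty_nbr hty h01
  have t2 := CB.ty_nbr' t1 h12
  have t3 := CB.ty_nbr t2 h23
  have tn : Γ.ty (q n) = τ := by
    rw [← t1]; exact hq.ty_even (by omega) (by omega) (by omega) le_rfl (by have := H.odd; omega)
  obtain ⟨m', hm', hm0, hm2, -⟩ := exists_third (Γ.symm h01) h12 h02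
  have tm' := CB.ty_nbr' t1 hm'
  obtain ⟨f, hf, hf1⟩ := exists_ne h01
  obtain ⟨f', hf', hf'1⟩ := exists_ne (Γ.symm hm')
  have tf := CB.ty_nbr hty hf
  have tf' := CB.ty_nbr tm' hf'
  -- the arc starting with `m'`
  obtain ⟨q', hq', hq'm, hq'k⟩ := (hq.sub (i' := 1) (j' := n) (by omega) le_rfl).exists_cons hm' (fun _ => hm2)
  have e10 : (1 : ℤ) - 1 = 0 := by ring
  rw [e10] at hq' hq'm
  have hfn : r f ∉ Γ.Q (q n) := by
    intro h
    have h1 := hcrit q hq hty _ (H.cb.ZB_le_ZZ tf hf (hr f tf).1) h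
    exact R.ne f tf (H.cb.ZB_inf hf h01 hf1 tf (hr f tf).1 h1)
  have hf'n : r f' ∉ Γ.Q (q n) := by
    intro h
    have h1 := hcrit q' hq' (by rw [hq'm]; exact tm') (r f')
      (by rw [hq'm]; exact H.cb.ZB_le_ZZ tf' hf' (hr f' tf').1) (by rw [hq'k n (by omega)]; exact h)
    rw [hq'k 1 le_rfl] at h1
    exact R.ne f' tf' (H.cb.ZB_inf hf' (Γ.symm hm') hf'1 tf' (hr f' tf').1 h1)
  have hfT : r f ∈ (T (q n) (q (n - 1)) : Subgroup G) :=
    Q_le_T' (Γ.symm hAn) (H.hmin q 0 (n - 1) (by omega) (hq.sub le_rfl (by omega)) hty (by omega)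
      (H.cb.ZB_le_ZZ tf hf (hr f tf).1))
  have hf'T : r f' ∈ (T (q n) (q (n - 1)) : Subgroup G) := by
    have := H.hmin q' 0 (n - 1) (by omega) (hq'.sub le_rfl (by omega)) (by rw [hq'm]; exact tm') (by omega)
      (by rw [hq'm]; exact H.cb.ZB_le_ZZ tf' hf' (hr f' tf').1)
    rw [hq'k (n - 1) (by omega)] at this
    exact Q_le_T' (Γ.symm hAn) this
  have hZ2 : Γ.ZZ (q 2) ≤ Γ.Q (q n) := H.hmin q 2 n (by omega) (hq.sub (by omega) le_rfl) t2 (by omega)
  have v1 : v • q 1 = q 1 := H.VB_fix_rev hq tn (by omega) (by omega) (by omega) hv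
  have v2 : v • q 2 = q 2 := H.VB_fix_rev hq tn (by omega) (by omega) (by omega) hv
  have hends : ∀ c c' : G, c ∈ ZB G (q 1) → c' ∈ ZB G (q n) → c = c'⁻¹ → c = 1 := by
    intro c c' hc hc' h
    apply H.ZB_ends hM (i := 1) (j := n) (by ring) (hq.sub (by omega) le_rfl) t1 hc
    rw [h]; exact inv_mem hc'
  have aux1 : ∀ a ∈ Γ.ZZ (q 2), a * v = v * a := by
    intro a ha
    obtain ⟨c, hc, e⟩ := H.cb.ZZ_act t2 (Γ.symm h12) (mem_T.2 ⟨v2, v1⟩) ha
    obtain ⟨c', hc', e'⟩ := H.VB_act tn (hZ2 ha) hv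
    exact comm_of e e' (H.cb.np.ZZ_sq ha) (H.VB_sq tn hv) (hends c c' hc hc')
  have mf : r f ∈ Γ.VB (q 1) := ZZ_le_VB (Γ.symm h01) (H.cb.ZB_le_ZZ tf hf (hr f tf).1)
  have mf' : r f' ∈ Γ.VB (q 1) := ZZ_le_VB hm' (H.cb.ZB_le_ZZ tf' hf' (hr f' tf').1)
  have m3' : r (q 3) ∈ Γ.ZZ (q 2) := H.cb.ZB_le_ZZ t3 h23 (hr _ t3).1
  have m3 : r (q 3) ∈ Γ.VB (q 1) := ZZ_le_VB h12 m3'
  have aux2 : (r f * r f' * r (q 3)) * v = v * (r f * r f' * r (q 3)) := by
    have hYC : YC r (q 1) (r f * r f' * r (q 3)) :=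
      R.YC_prod t1 (Γ.symm h01) hm' h12 hm0.symm h02 hm2 hf hf' h23 hf1 hf'1 h13.symm
        (H.VB_comm t1 mf mf') (H.VB_comm t1 mf m3) (H.VB_comm t1 mf' m3)
    have hyQ : r f * r f' * r (q 3) ∈ Γ.Q (q n) :=
      mul_mem (mul_mem_Q hAn hfT hf'T hfn hf'n) (hZ2 m3')
    have hyV : r f * r f' * r (q 3) ∈ Γ.VB (q 1) := mul_mem (mul_mem mf mf') m3
    obtain ⟨c', hc', e'⟩ := H.VB_act tn hyQ hv
    have h1 : ∃ c ∈ ZB G (q 1), v * (r f * r f' * r (q 3)) * v⁻¹ = (r f * r f' * r (q 3)) * c := by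
      rcases hYC v v1 with h | h
      · exact ⟨1, one_mem _, by rw [h, mul_one]⟩
      · exact ⟨r (q 1), (hr _ t1).1, h⟩
    obtain ⟨c, hc, e⟩ := h1
    exact comm_of e e' (H.VB_sq t1 hyV) (H.VB_sq tn hv) (hends c c' hc hc')
  obtain ⟨a, ha, b, hb, c, hc, rfl⟩ := H.VB_decomp t1 h12 (Γ.symm h01) hm' h02.symm hm2.symm hm0.symm hf hf' hf1
    hf'1 hs
  rcases (hr f tf).2 b hb with rfl | rfl <;> rcases (hr f' tf').2 c hc with rfl | rfl
  · rw [mul_one, mul_one]; exact aux1 a ha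
  · exfalso
    rw [mul_one] at hsQ
    exact hf'n ((mul_mem_cancel_left (hZ2 ha)).1 hsQ)
  · exfalso
    rw [mul_one] at hsQ
    exact hfn ((mul_mem_cancel_left (hZ2 ha)).1 hsQ)
  · have e1 : a * r f * r f' = a * (r f * r f' * r (q 3)) * (r (q 3))⁻¹ := by group
    have c1 := aux1 a ha
    have c2 := aux2
    have c3 := aux1 _ (inv_mem m3')
    rw [e1]
    calc a * (r f * r f' * r (q 3)) * (r (q 3))⁻¹ * v = a * (r f * r f' * r (q 3)) * ((r (q 3))⁻¹ * v) := by group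
      _ = a * ((r f * r f' * r (q 3)) * v) * (r (q 3))⁻¹ := by rw [c3]; group
      _ = (a * v) * (r f * r f' * r (q 3)) * (r (q 3))⁻¹ := by rw [c2]; group
      _ = v * (a * (r f * r f' * r (q 3)) * (r (q 3))⁻¹) := by rw [c1]; group

/-- G4 in the locally arc-transitive case -/
theorem G4_of_Mv : G4 Γ τ n := by
  have hn := H.hn
  have hodd := H.odd
  -- Claim X
  have claim : ∀ p : ℤ → V, Γ.Arc p 0 n → Γ.ty (p 0) = !τ → ∀ x ∈ Γ.VB (p n), x ∈ Γ.Q (p 1) → x ∈ Γ.Q (p 0) := by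
    intro p hp hty x hx hx1
    by_contra hx0
    have hA : Γ.A (p 0) (p 1) := hp.adj (k := 0) le_rfl (by omega)
    have t1 := CB.ty_nbr hty hA
    have tn : Γ.ty (p n) = τ := by
      rw [← t1]; exact hp.ty_even (by omega) (by omega) (by omega) le_rfl (by omega)
    have hAn : Γ.A (p n) (p (n - 1)) := hp.adj' (by omega) le_rfl
    have hX1 := H.X1 hM hp hty hx hx1 hx0
    have hZle : Γ.ZZ (p 0) ≤ Γ.Q (p (n - 1)) :=
      H.hmin p 0 (n - 1) (by omega) (hp.sub le_rfl (by omega)) hty (by omega)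
    obtain ⟨r, R, hr⟩ := H.cb.exists_Pts (H.cb.K1_of (w := p n) hty hA hX1 (fun x hx y hy hxQ hyQ =>
      mul_mem_Q hAn (Q_le_T' (Γ.symm hAn) (hZle hx)) (Q_le_T' (Γ.symm hAn) (hZle hy)) hxQ hyQ))
    have hcrit := fun (q : ℤ → V) (hq : Γ.Arc q 0 n) (hq' : Γ.ty (q 0) = !τ) => H.X2 hM hp hty hX1 hq hq'
    -- reverse
    obtain ⟨m, hm, hmn⟩ := exists_ne hAn
    have hrev := (hp.sub (i' := 1) (j' := n) (by omega) le_rfl).rev (1 + n)
    have e1 : 1 + n - n = 1 := by ring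
    have e2 : 1 + n - 1 = n := by ring
    rw [e1, e2] at hrev
    obtain ⟨q, hq, hqm, hqk⟩ := hrev.exists_cons (x := m) (by simp only [e2]; exact hm) (fun _ => by
      have e3 : 1 + n - (1 + 1) = n - 1 := by ring
      simp only [e3]; exact hmn)
    have e0 : (1 : ℤ) - 1 = 0 := by ring
    rw [e0] at hq hqm
    have q1 : q 1 = p n := by rw [hqk 1 le_rfl]; simp only [e2]
    have qn : q n = p 1 := by rw [hqk n (by omega)]; simp only [e1]
    have hcomm : ∀ y ∈ Γ.VB (p 1), x * y = y * x := by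
      intro y hy
      refine H.X3 hM R hr hcrit hq ?_ (s := x) (v := y) ?_ ?_ ?_
      · rw [hqm]; exact CB.ty_nbr' tn hm
      · rw [q1]; exact hx
      · rw [qn]; exact hx1
      · rw [qn]; exact hy
    exact hx0 ((H.mem_Q_of_VB t1 hx1.1 hcomm).2 _ (Γ.symm hA))
  intro p i j hij hp hty x hx hxQ y hy
  have tj : Γ.ty (p j) = τ := by
    rw [← hty]; exact hp.ty_even le_rfl (by omega) (by omega) le_rfl (by omega)
  have hA : Γ.A (p j) (p (j - 1)) := hp.adj' (by omega) le_rfl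
  have key : ∀ m, Γ.A (p j) m → x ∈ Γ.Q m := by
    intro m hm
    by_cases hmj : m = p (j - 1)
    · subst hmj
      exact H.VB_le (by omega) (hp.sub le_rfl (by omega)) hty (by omega) hx
    · -- the arc `m, p j, ..., p i`
      have hrev := hp.rev (j + 1)
      have e1 : j + 1 - j = 1 := by ring
      have e2 : j + 1 - i = n := by omega
      rw [e1, e2] at hrev
      obtain ⟨q, hq, hqm, hqk⟩ := hrev.exists_cons (x := m) (by
        have e3 : j + 1 - 1 = j := by ring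
        simp only [e3]; exact hm) (fun _ => by
        have e3 : j + 1 - (1 + 1) = j - 1 := by ring
        simp only [e3]; exact hmj)
      have e0 : (1 : ℤ) - 1 = 0 := by ring
      rw [e0] at hq hqm
      have q1 : q 1 = p j := by
        rw [hqk 1 le_rfl]; congr 1; ring
      have qn : q n = p i := by
        rw [hqk n (by omega)]; congr 1; omega
      have := claim q hq (by rw [hqm]; exact CB.ty_nbr' tj hm) x (by rw [qn]; exact hx) (by rw [q1]; exact hxQ)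
      rwa [hqm] at this
  unfold VB at hy
  induction hy using Subgroup.closure_induction with
  | mem y hy =>
    obtain ⟨m, hm, hy⟩ := hy
    exact (ZZ_comm hy (key m hm)).symm
  | one => simp
  | mul y z _ _ h1 h2 => rw [← mul_assoc, h1, mul_assoc, h2, mul_assoc]
  | inv y _ h1 =>
    calc x * y⁻¹ = y⁻¹ * (y * x) * y⁻¹ := by group
      _ = y⁻¹ * (x * y) * y⁻¹ := by rw [h1]
      _ = y⁻¹ * x := by group

end Mv

/-- the dichotomy -/
theorem main_dichotomy {p : ℤ → V} (hp : Γ.Arc p 0 n) (hty : Γ.ty (p 0) = !τ) (hc : ¬ Γ.ZZ (p 0) ≤ Γ.Q (p n)) :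
    (∃ j, 1 ≤ j ∧ j ≤ n ∧ Fx Γ j (!τ)) ∨ (∀ k : ℤ, 1 ≤ k → k ≤ n → ∀ τ', MvT Γ k τ') := by
  have hn := H.hn
  rcases dichotomy Γ n with hM | ⟨j, hj1, hjn, -, τ', hFx⟩
  · exact Or.inr hM
  · left
    by_cases hτ' : τ' = !τ
    · subst hτ'; exact ⟨j, hj1, hjn, hFx⟩
    · exfalso
      have hτ : τ' = τ := by cases τ <;> cases τ' <;> simp_all
      subst hτ
      apply hc
      intro x hx
      have h01 : Γ.A (p 0) (p 1) := hp.adj (k := 0) le_rfl (by omega)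
      have t1 := CB.ty_nbr hty h01
      have tn : Γ.ty (p (0 + n)) = τ' := by
        rw [zero_add, ← t1]
        exact hp.ty_even (by omega) (by omega) (by omega) le_rfl (by have := H.odd; omega)
      have := (hFx.mono (j' := n) (by omega)) p 0 (by rw [zero_add]; exact hp) tn x (by
        intro k h1 h2
        rw [zero_add] at h2
        rcases eq_or_lt_of_le h1 with h3 | h3
        · rw [← h3]; exact (H.cb.np.ZZ_le_Q hx).1
        · exact CB.ZZ_fix H.hmin hp hty h3 h2 (by omega) hx)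
      rwa [zero_add] at this

section G4

variable (h4 : G4 Γ τ n)

include h4

/-- an element of `VB (p j)` outside `Q (p (i + 1))` for a critical arc -/
theorem exists_v {p : ℤ → V} {i j : ℤ} (hij : j = i + n) (hp : Γ.Arc p i j) (hty : Γ.ty (p i) = !τ)
    (hc : ¬ Γ.ZZ (p i) ≤ Γ.Q (p j)) : ∃ v ∈ Γ.VB (p j), v ∉ Γ.Q (p (i + 1)) := by
  have hn := H.hn
  have hodd := H.odd
  by_contra hcon
  push Not at hcon
  have hA : Γ.A (p i) (p (i + 1)) := hp.adj le_rfl (by omega)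
  have t1 := CB.ty_nbr hty hA
  have tj : Γ.ty (p j) = τ := by
    rw [← t1]; exact hp.ty_even (by omega) (by omega) (by omega) le_rfl (by omega)
  apply hc
  intro x hx
  have hxV : x ∈ Γ.VB (p (i + 1)) := ZZ_le_VB (Γ.symm hA) hx
  refine (H.mem_Q_of_VB tj ?_ ?_).1
  · exact CB.ZZ_fix H.hmin hp hty (by omega) le_rfl (by omega) hx
  · intro y hy
    have hrev := (hp.sub (i' := i + 1) (j' := j) (by omega) le_rfl).rev (i + 1 + j)
    have e1 : i + 1 + j - j = i + 1 := by ring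
    have e2 : i + 1 + j - (i + 1) = j := by ring
    rw [e1, e2] at hrev
    have := h4 _ (i + 1) j (by omega) hrev (by simp only [e2]; exact tj) y (by simp only [e2]; exact hy)
      (by simp only [e1]; exact hcon y hy) x (by simp only [e1]; exact hxV)
    exact this.symm

theorem crit_Q {p : ℤ → V} {i j : ℤ} (hij : j = i + n) (hp : Γ.Arc p i j) (hty : Γ.ty (p i) = !τ)
    (hc : ¬ Γ.ZZ (p i) ≤ Γ.Q (p j)) (u : G) (hu : u ∈ Γ.ZZ (p i)) (huQ : u ∈ Γ.Q (p j)) : u ∈ ZB G (p (i + 1)) := by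
  have hn := H.hn
  have hodd := H.odd
  obtain ⟨v, hv, hvQ⟩ := H.exists_v h4 hij hp hty hc
  have hA : Γ.A (p i) (p (i + 1)) := hp.adj le_rfl (by omega)
  have hB : Γ.A (p (i + 1)) (p (i + 2)) := by
    have := hp.adj (k := i + 1) (by omega) (by omega)
    have e : i + 1 + 1 = i + 2 := by ring
    rwa [e] at this
  have hne : p i ≠ p (i + 2) := hp.ne le_rfl (by omega) (by ring)
  have t1 := CB.ty_nbr hty hA
  have tj : Γ.ty (p j) = τ := by
    rw [← t1]; exact hp.ty_even (by omega) (by omega) (by omega) le_rfl (by omega)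
  have v1 : v • p (i + 1) = p (i + 1) := H.VB_fix_rev hp tj (by omega) (by omega) (by omega) hv
  have v2 : v • p (i + 2) = p (i + 2) := H.VB_fix_rev hp tj (by omega) (by omega) (by omega) hv
  have v0 : v • p i ≠ p i := fun h => hvQ (mem_Q_of_two v1 (Γ.symm hA) hB hne h v2)
  have hcomm := h4 p (i + 1) j (by omega) (hp.sub (by omega) le_rfl) t1 u (ZZ_le_VB (Γ.symm hA) hu) huQ v hv
  have h1 : u ∈ Γ.ZZ (v • p i) := by
    have := conj_mem_ZZ hu v
    rwa [← hcomm, mul_inv_cancel_right] at this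
  exact H.cb.ZZ_inter t1 (Γ.symm hA) (A_of_fix v1 (Γ.symm hA)) v0.symm hu h1

/-- the involutions -/
theorem exists_r {p : ℤ → V} (hp : Γ.Arc p 0 n) (hty : Γ.ty (p 0) = !τ) (hc : ¬ Γ.ZZ (p 0) ≤ Γ.Q (p n)) :
    ∃ r : V → G, Pts Γ τ r ∧ ∀ p, Γ.ty p = τ → r p ∈ ZB G p ∧ ∀ x ∈ ZB G p, x = 1 ∨ x = r p := by
  have hn := H.hn
  have hA : Γ.A (p 0) (p 1) := hp.adj (k := 0) le_rfl (by omega)
  have hAn : Γ.A (p n) (p (n - 1)) := hp.adj' (by omega) le_rfl
  have hZle : Γ.ZZ (p 0) ≤ Γ.Q (p (n - 1)) :=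
    H.hmin p 0 (n - 1) (by omega) (hp.sub le_rfl (by omega)) hty (by omega)
  exact H.cb.exists_Pts (H.cb.K1_of (w := p n) hty hA (H.crit_Q h4 (i := 0) (by ring) hp hty hc)
    (fun x hx y hy hxQ hyQ =>
      mul_mem_Q hAn (Q_le_T' (Γ.symm hAn) (hZle hx)) (Q_le_T' (Γ.symm hAn) (hZle hy)) hxQ hyQ))

end G4

end CO

end Tri

end Cfsg.Agent.H209
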