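import Cfsg.Agent.H209.TriPUFour

/-!
# Local arc-transitivity of trivalent graphs
-/

set_option autoImplicit false

namespace Cfsg.Agent.H209

open MulAction

namespace Tri

variable {G V : Type*} [Group G] [MulAction G V] {Γ : Tri G V}
variable {u v w a b c d : V} {g h : G}

/-- `g` fixes `p k` for `k ∈ [i, j]` -/
def Fixes (g : G) (p : ℤ → V) (i j : ℤ) : Prop := ∀ k, i ≤ k → k ≤ j → g • p k = p k

omit Γ in
theorem Fixes.sub {p : ℤ → V} {i j i' j' : ℤ} (h : Fixes g p i j) (hi : i ≤ i') (hj : j' ≤ j) : Fixes g p i' j' :=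
  fun k h1 h2 => h k (by omega) (by omega)

omit Γ in
theorem Fixes.mul {p : ℤ → V} {i j : ℤ} (h1 : Fixes g p i j) (h2 : Fixes h p i j) : Fixes (g * h) p i j :=
  fun k hk hk' => mul_fix (h1 k hk hk') (h2 k hk hk')

omit Γ in
theorem Fixes.inv {p : ℤ → V} {i j : ℤ} (h1 : Fixes g p i j) : Fixes g⁻¹ p i j :=
  fun k hk hk' => inv_fix (h1 k hk hk')

/-- arcs of length `j` ending at type `τ`: some element fixing the arc moves the other neighbours of the end -/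
def MvT (Γ : Tri G V) (j : ℤ) (τ : Bool) : Prop :=
  ∀ (p : ℤ → V) (i : ℤ), Γ.Arc p i (i + j) → Γ.ty (p (i + j)) = τ → ∃ g : G, Fixes g p i (i + j) ∧ g ∉ Γ.Q (p (i + j))

/-- all elements fixing an arc of length `j` ending at type `τ` fix the neighbours of the end -/
def Fx (Γ : Tri G V) (j : ℤ) (τ : Bool) : Prop :=
  ∀ (p : ℤ → V) (i : ℤ), Γ.Arc p i (i + j) → Γ.ty (p (i + j)) = τ → ∀ g : G, Fixes g p i (i + j) → g ∈ Γ.Q (p (i + j))

theorem Fx.mono {j j' : ℤ} {τ : Bool} (h : Fx Γ j τ) (hj : j ≤ j') : Fx Γ j' τ := by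
  intro p i hp hty g hg
  have e : i + j' - j + j = i + j' := by ring
  have := h p (i + j' - j) (by rw [e]; exact hp.sub (by omega) le_rfl) (by rw [e]; exact hty) g
    (by rw [e]; exact hg.sub (by omega) le_rfl)
  rwa [e] at this

/-- arc transitivity -/
theorem arc_trans (n : ℕ) (hn : 1 ≤ n) (hM : ∀ k : ℤ, 1 ≤ k → k < n → ∀ τ, MvT Γ k τ) {p q : ℤ → V} {i : ℤ}
    (hp : Γ.Arc p i (i + n)) (hq : Γ.Arc q i (i + n)) (hty : Γ.ty (p i) = Γ.ty (q i)) :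
    ∃ g : G, ∀ k, i ≤ k → k ≤ i + n → g • p k = q k := by
  induction n, hn using Nat.le_induction with
  | base =>
    obtain ⟨g, hg1, hg2⟩ := Γ.trans (hp.adj (k := i) le_rfl (by omega)) (hq.adj (k := i) le_rfl (by omega)) hty
    refine ⟨g, fun k h1 h2 => ?_⟩
    have : k = i ∨ k = i + 1 := by push_cast at h2; omega
    rcases this with rfl | rfl
    · exact hg1
    · exact hg2
  | succ n hn ih =>
    push_cast at hp hq hM ⊢
    obtain ⟨g, hg⟩ := ih (fun k h1 h2 => hM k h1 (by omega)) (hp.sub le_rfl (by omega)) (hq.sub le_rfl (by omega))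
    have hA : Γ.A (q (i + n)) (g • p (i + n + 1)) := by
      have := Γ.smul g (hp.adj (k := i + n) (by omega) (by omega))
      rwa [hg (i + n) (by omega) le_rfl] at this
    have hB : Γ.A (q (i + n)) (q (i + n + 1)) := hq.adj (by omega) (by omega)
    have hC : Γ.A (q (i + n)) (q (i + n - 1)) := hq.adj' (by omega) (by omega)
    have hne1 : q (i + n - 1) ≠ g • p (i + n + 1) := by
      rw [← hg (i + n - 1) (by omega) (by omega)]
      intro h
      exact hp.ne (k := i + n - 1) (l := i + n + 1) (by omega) (by omega) (by ring) (MulAction.injective g h)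
    have hne2 : q (i + n - 1) ≠ q (i + n + 1) := hq.ne (by omega) (by omega) (by ring)
    by_cases h1 : g • p (i + n + 1) = q (i + n + 1)
    · refine ⟨g, fun k h2 h3 => ?_⟩
      by_cases h4 : k = i + n + 1
      · rw [h4]; exact h1
      · exact hg k h2 (by omega)
    · obtain ⟨h, hh, hhQ⟩ := hM n (by omega) (by omega) _ q i (hq.sub le_rfl (by omega)) rfl
      have h2 := swap_of_not_mem (hh (i + n) (by omega) le_rfl) hC hA hB hne1 hne2 h1
        (hh (i + n - 1) (by omega) (by omega)) hhQ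
      refine ⟨h * g, fun k h3 h4 => ?_⟩
      rw [mul_smul]
      by_cases h5 : k = i + n + 1
      · rw [h5]; exact h2.1
      · rw [hg k h3 (by omega)]
        exact hh k h3 (by omega)

/-- transport of the moving property -/
theorem MvT_of_one {j : ℤ} (hj : 1 ≤ j) (hM : ∀ k : ℤ, 1 ≤ k → k < j → ∀ τ, MvT Γ k τ) {p : ℤ → V} {i : ℤ}
    (hp : Γ.Arc p i (i + j)) (hg : Fixes g p i (i + j)) (hgQ : g ∉ Γ.Q (p (i + j))) : MvT Γ j (Γ.ty (p (i + j))) := by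
  intro q i' hq hty
  have hq' := hq.shift (i' - i)
  have e1 : i' - (i' - i) = i := by ring
  have e2 : i' + j - (i' - i) = i + j := by ring
  rw [e1, e2] at hq'
  have e3 : ((j.toNat : ℕ) : ℤ) = j := by omega
  have hty' : Γ.ty (p i) = Γ.ty (q i') := by
    rcases Int.emod_two_eq_zero_or_one j with h0 | h0
    · have h1 := hp.ty_even (k := i) (l := i + j) le_rfl (by omega) (by omega) le_rfl (by omega)
      have h2 := hq.ty_even (k := i') (l := i' + j) le_rfl (by omega) (by omega) le_rfl (by omega)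
      rw [← h1, ← h2, hty]
    · have h1 := hp.ty_odd (k := i) (l := i + j) le_rfl (by omega) (by omega) le_rfl (by omega)
      have h2 := hq.ty_odd (k := i') (l := i' + j) le_rfl (by omega) (by omega) le_rfl (by omega)
      rw [h1, h2] at hty
      simpa using hty.symm
  obtain ⟨k, hk⟩ := arc_trans (Γ := Γ) j.toNat (by omega) (by rw [e3]; exact hM) (p := p)
    (q := fun k => q (k + (i' - i))) (i := i) (by rw [e3]; exact hp) (by rw [e3]; exact hq') (by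
      have : i + (i' - i) = i' := by ring
      simp only [this]; exact hty')
  rw [e3] at hk
  have hk' : ∀ l, i' ≤ l → l ≤ i' + j → k • p (l - (i' - i)) = q l := by
    intro l h1 h2
    have := hk (l - (i' - i)) (by omega) (by omega)
    simp only [sub_add_cancel] at this
    exact this
  refine ⟨k * g * k⁻¹, fun l h1 h2 => ?_, fun hQ => hgQ ?_⟩
  · exact conj_fix_of_eq (hg (l - (i' - i)) (by omega) (by omega)) (hk' l h1 h2)
  · rw [← hk' (i' + j) (by omega) le_rfl, e2, mem_Q_smul] at hQ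
    have : k⁻¹ * (k * g * k⁻¹) * k = g := by group
    rwa [this] at hQ

/-- the dichotomy -/
theorem dichotomy (Γ : Tri G V) (m : ℤ) : (∀ k : ℤ, 1 ≤ k → k ≤ m → ∀ τ, MvT Γ k τ) ∨
    ∃ j : ℤ, 1 ≤ j ∧ j ≤ m ∧ (∀ k : ℤ, 1 ≤ k → k < j → ∀ τ, MvT Γ k τ) ∧ ∃ τ, Fx Γ j τ := by
  classical
  by_cases hall : ∀ k : ℤ, 1 ≤ k → k ≤ m → ∀ τ, MvT Γ k τ
  · exact Or.inl hall
  right
  push Not at hall
  have hex : ∃ n : ℕ, 1 ≤ n ∧ (n : ℤ) ≤ m ∧ ∃ τ, ¬ MvT Γ n τ := by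
    obtain ⟨k, h1, h2, τ, h3⟩ := hall
    refine ⟨k.toNat, by omega, by omega, τ, ?_⟩
    have : ((k.toNat : ℕ) : ℤ) = k := by omega
    rw [this]; exact h3
  obtain ⟨h1, h2, τ, h3⟩ := Nat.find_spec hex
  set j := Nat.find hex with hj
  have hM : ∀ k : ℤ, 1 ≤ k → k < j → ∀ τ, MvT Γ k τ := by
    intro k hk1 hk2 τ
    by_contra hcon
    refine Nat.find_min hex (m := k.toNat) (by omega) ⟨by omega, by omega, τ, ?_⟩
    have : ((k.toNat : ℕ) : ℤ) = k := by omega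
    rw [this]; exact hcon
  refine ⟨j, by omega, h2, hM, τ, ?_⟩
  intro p i hp hty g hg
  by_contra hgQ
  have := MvT_of_one (by omega) hM hp hg hgQ
  rw [hty] at this
  exact h3 this

/-- closure lemma along an arc -/
theorem arc_bot (Γ : Tri G V) (N : Subgroup G) {p : ℤ → V} {i j : ℤ} (hij : i ≤ j) (hp : Γ.Arc p i j)
    (hfix : ∀ n ∈ N, Fixes n p i j)
    (hl : ∀ x, Γ.A (p i) x → ∃ g : G, (∀ n ∈ N, g⁻¹ * n * g ∈ N) ∧ ∃ k, i ≤ k ∧ k ≤ j ∧ g • p k = x)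
    (hr : ∀ x, Γ.A (p j) x → ∃ g : G, (∀ n ∈ N, g⁻¹ * n * g ∈ N) ∧ ∃ k, i ≤ k ∧ k ≤ j ∧ g • p k = x)
    (hm : ∀ k, i < k → k < j → ∃ g : G, (∀ n ∈ N, g⁻¹ * n * g ∈ N) ∧ g • p k = p k ∧
      (g • p (k - 1) = p (k - 1) ∨ g • p (k + 1) = p (k + 1)) ∧ g ∉ Γ.Q (p k)) : ∀ n ∈ N, n = 1 := by
  apply closure_bot Γ N {v | ∃ k, i ≤ k ∧ k ≤ j ∧ v = p k} ⟨p i, i, le_rfl, hij, rfl⟩
  · rintro v ⟨k, h1, h2, rfl⟩ n hn
    exact hfix n hn k h1 h2
  · rintro v ⟨k, h1, h2, rfl⟩ x hx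
    by_cases hki : k = i
    · subst hki
      obtain ⟨g, hg, l, h3, h4, h5⟩ := hl x hx
      exact ⟨g, hg, p l, ⟨l, h3, h4, rfl⟩, h5⟩
    by_cases hkj : k = j
    · subst hkj
      obtain ⟨g, hg, l, h3, h4, h5⟩ := hr x hx
      exact ⟨g, hg, p l, ⟨l, h3, h4, rfl⟩, h5⟩
    have hA : Γ.A (p k) (p (k - 1)) := hp.adj' (by omega) h2
    have hB : Γ.A (p k) (p (k + 1)) := hp.adj h1 (by omega)
    have hAB : p (k - 1) ≠ p (k + 1) := hp.ne (by omega) (by omega) (by ring)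
    by_cases hxA : x = p (k - 1)
    · exact ⟨1, fun n hn => by simpa using hn, p (k - 1), ⟨k - 1, by omega, by omega, rfl⟩, by rw [one_smul, hxA]⟩
    by_cases hxB : x = p (k + 1)
    · exact ⟨1, fun n hn => by simpa using hn, p (k + 1), ⟨k + 1, by omega, by omega, rfl⟩, by rw [one_smul, hxB]⟩
    obtain ⟨g, hg, hgk, hor, hgQ⟩ := hm k (by omega) (by omega)
    rcases hor with h3 | h3
    · have := swap_of_not_mem hgk hA hB hx hAB (Ne.symm hxA) (Ne.symm hxB) h3 hgQ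
      exact ⟨g, hg, p (k + 1), ⟨k + 1, by omega, by omega, rfl⟩, this.1⟩
    · have := swap_of_not_mem hgk hB hA hx hAB.symm (Ne.symm hxB) (Ne.symm hxA) h3 hgQ
      exact ⟨g, hg, p (k - 1), ⟨k - 1, by omega, by omega, rfl⟩, this.1⟩

/-- closure lemma along an arc, for an element -/
theorem arc_bot_elt (Γ : Tri G V) (z : G) {p : ℤ → V} {i j : ℤ} (hij : i ≤ j) (hp : Γ.Arc p i j)
    (hfix : Fixes z p i j)
    (hl : ∀ x, Γ.A (p i) x → ∃ g : G, g * z = z * g ∧ ∃ k, i ≤ k ∧ k ≤ j ∧ g • p k = x)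
    (hr : ∀ x, Γ.A (p j) x → ∃ g : G, g * z = z * g ∧ ∃ k, i ≤ k ∧ k ≤ j ∧ g • p k = x)
    (hm : ∀ k, i < k → k < j → ∃ g : G, g * z = z * g ∧ g • p k = p k ∧
      (g • p (k - 1) = p (k - 1) ∨ g • p (k + 1) = p (k + 1)) ∧ g ∉ Γ.Q (p k)) : z = 1 := by
  have hz : ∀ g : G, g * z = z * g → ∀ n ∈ Subgroup.zpowers z, g⁻¹ * n * g ∈ Subgroup.zpowers z := by
    rintro g hg n ⟨m, rfl⟩
    have h1 : Commute g z := hg
    have h2 := (h1.zpow_right m).eq
    show g⁻¹ * (z ^ m) * g ∈ _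
    rw [mul_assoc, ← h2, inv_mul_cancel_left]
    exact ⟨m, rfl⟩
  apply arc_bot Γ (Subgroup.zpowers z) hij hp _ _ _ _ z (Subgroup.mem_zpowers z)
  · rintro n ⟨m, rfl⟩ k h1 h2
    show z ^ m • p k = p k
    have h3 : z ∈ stabilizer G (p k) := mem_stabilizer_iff.2 (hfix k h1 h2)
    exact mem_stabilizer_iff.1 (zpow_mem h3 m)
  · intro x hx
    obtain ⟨g, hg, h⟩ := hl x hx
    exact ⟨g, hz g hg, h⟩
  · intro x hx
    obtain ⟨g, hg, h⟩ := hr x hx
    exact ⟨g, hz g hg, h⟩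
  · intro k h1 h2
    obtain ⟨g, hg, h⟩ := hm k h1 h2
    exact ⟨g, hz g hg, h⟩

/-- the remaining case -/
structure NP (Γ : Tri G V) : Prop where
  nle : ∀ v w, Γ.A v w → ¬ Γ.Q v ≤ Γ.Q w
  npu : ∀ v a b, Γ.A v a → Γ.A v b → a ≠ b → ¬ Γ.Q v ⊓ Γ.Q a ≤ Γ.Q b
  cent : ∀ (v : V) (g : G), g • v = v → (∀ q ∈ Γ.Q v, g * q = q * g) → g ∈ Γ.Q v

/-- the case `C_{G_v}(Q_v)` not in `Q_v` -/
theorem card_le_of_cent (hne : ∃ (v : V) (g : G), g • v = v ∧ (∀ q ∈ Γ.Q v, g * q = q * g) ∧ g ∉ Γ.Q v)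
    (h : Γ.A v w) : Nat.card (T v w : Subgroup G) ≤ 16 := by
  obtain ⟨x, g, hg1, hg2, hg3⟩ := hne
  obtain ⟨a, ha⟩ := ex_adj Γ x
  rw [card_T_eq h ha]
  obtain ⟨y, z, hy, hz, hyx, hzx, hyz, hall⟩ := exists_others (Γ.symm ha)
  let N : Subgroup G := Γ.Q z ⊓ (Γ.Q y ⊓ (Γ.Q x ⊓ Γ.Q a))
  have hN : ∀ n ∈ N, n = 1 := by
    apply star_bot Γ a N
    · intro n hn; exact hn.2.2.2
    · intro t ht s hs
      have tyt : Γ.ty x = Γ.ty t := ty_eq_of_adj (Γ.symm ha) ht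
      obtain ⟨k, hk, -⟩ := Γ.trans ha hs tyt
      have h1 : ∃ g : G, g • t = t ∧ (∀ n ∈ Γ.Q t, g * n = n * g) ∧ g ∉ Γ.Q t := by
        refine ⟨k * g * k⁻¹, conj_fix_of_eq hg1 hk, fun n hn => ?_, fun hQ => hg3 ?_⟩
        · rw [← hk] at hn
          have h2 := hg2 _ (mem_Q_smul.1 hn)
          calc k * g * k⁻¹ * n = k * (g * (k⁻¹ * n * k)) * k⁻¹ := by group
            _ = k * ((k⁻¹ * n * k) * g) * k⁻¹ := by rw [h2]
            _ = n * (k * g * k⁻¹) := by group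
        · rw [← hk, mem_Q_smul] at hQ
          have : k⁻¹ * (k * g * k⁻¹) * k = g := by group
          rwa [this] at hQ
      obtain ⟨c, -, hc, hcs⟩ := cent_trans (N := Γ.Q t) (fun g hg n hn => conj_mem_Q_of_fix hn hg) h1 (Γ.symm ht) hs
      refine ⟨c, fun n hn => hc n ?_, hcs⟩
      rcases hall t ht with rfl | rfl | rfl
      · exact hn.2.2.1
      · exact hn.2.1
      · exact hn.1
  have c0 := card_le_one_of_forall hN
  have half1 : Half (Γ.Q x ⊓ Γ.Q a) (Γ.Q a) := (half_Q' ha |> fun h => (half_Q ha)).inf_left (Q_le_T' (Γ.symm ha))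
  have half2 : Half (Γ.Q y ⊓ (Γ.Q x ⊓ Γ.Q a)) (Γ.Q x ⊓ Γ.Q a) :=
    (half_Q' (Γ.symm hy)).inf_left (fun n hn => Q_le_T hy hn.2)
  have half3 : Half N (Γ.Q y ⊓ (Γ.Q x ⊓ Γ.Q a)) :=
    (half_Q' (Γ.symm hz)).inf_left (fun n hn => Q_le_T hz hn.2.2)
  have c1 := card_le_two_of_forall _ half3 (finSub Γ a fun x hx => hx.2.2.1) c0
  have c2 := card_le_two_of_forall _ half2 (finSub Γ a fun x hx => hx.2.1) c1
  have c3 := card_le_two_of_forall _ half1 (finSub (H := Γ.Q a) Γ a fun x hx => hx.1) c2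
  have c4 := card_T_le (Γ.symm ha) c3
  rw [T_comm]
  omega

/-- reduction to the remaining case -/
theorem card_le_or_NP (h : Γ.A v w) : Nat.card (T v w : Subgroup G) ≤ 64 ∨ NP Γ := by
  by_cases h1 : ∃ x y, Γ.A x y ∧ Γ.Q x ≤ Γ.Q y
  · obtain ⟨x, y, hxy, hle⟩ := h1
    left
    rw [card_T_eq h hxy]
    have := card_le_two_of_Q_le hxy hle
    omega
  by_cases h2 : ∃ v a b, Γ.A v a ∧ Γ.A v b ∧ a ≠ b ∧ Γ.Q v ⊓ Γ.Q a ≤ Γ.Q b
  · obtain ⟨v', a, b, ha, hb, hab, hle⟩ := h2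
    left
    exact (PU_of ha hb hab hle).card_le h
  by_cases h3 : ∃ (v : V) (g : G), g • v = v ∧ (∀ q ∈ Γ.Q v, g * q = q * g) ∧ g ∉ Γ.Q v
  · left
    have := card_le_of_cent h3 h
    omega
  push Not at h1 h2 h3
  right
  exact ⟨h1, fun v a b ha hb hab hle => h2 v a b ha hb hab hle, h3⟩

end Tri

end Cfsg.Agent.H209
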