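import Cfsg.Agent.H209.TriMv

/-!
# The remaining case: basic consequences, and the bound in the case of noncommuting four-groups at distance two
-/

set_option autoImplicit false

namespace Cfsg.Agent.H209

open MulAction

namespace Tri

variable {G V : Type*} [Group G] [MulAction G V] {Γ : Tri G V}
variable {u v w a b c d : V} {g h : G}

/-- a normal subgroup of `G_v`, not in `Q v`, contains an element whose square is not in `Q v` -/
theorem exists_sq_not_mem {N : Subgroup G} (hNv : ∀ n ∈ N, n • v = v)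
    (hN : ∀ g : G, g • v = v → ∀ n ∈ N, g * n * g⁻¹ ∈ N) (hne : ∃ n ∈ N, n ∉ Γ.Q v) :
    ∃ n ∈ N, n * n ∉ Γ.Q v := by
  obtain ⟨s, hs, hsQ⟩ := hne
  by_contra hcon
  push Not at hcon
  -- `s` fixes a neighbour
  have h1 : ∃ a, Γ.A v a ∧ s • a = a := by
    by_contra h2
    push Not at h2
    obtain ⟨a, ha⟩ := ex_adj Γ v
    have hsv := hNv s hs
    have h3 := A_of_fix hsv ha
    have h4 := A_of_fix hsv h3
    have h5 : s • s • a = a := by
      have := Q_fix' (hcon s hs) ha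
      rwa [mul_smul] at this
    obtain ⟨c, hc, hca, hcs, hall⟩ := exists_third ha h3 (h2 a ha).symm
    have h6 : s • c = c := by
      apply third_unique ha h3 (A_of_fix hsv hc) hc (h2 a ha).symm _ _ hca hcs
      · intro h7
        apply hcs
        apply MulAction.injective s
        show s • c = s • s • a
        rw [h5]; exact h7
      · intro h7
        exact hca (MulAction.injective s h7)
    exact h2 c hc h6
  obtain ⟨a, ha, hsa⟩ := h1
  obtain ⟨b, c, hb, hc, hba, hca, hbc, -⟩ := exists_others ha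
  have e1 := swap_of_not_mem (hNv s hs) ha hb hc hba.symm hca.symm hbc hsa hsQ
  obtain ⟨k, hk, hka, hkb⟩ := exists_two_trans ha hb hb ha hba.symm hba
  have hkc : k • c = c := by
    apply third_unique ha hb (A_of_fix hk hc) hc hba.symm _ _ hca hbc.symm
    · intro h7; exact hbc (MulAction.injective k (hkb.trans h7.symm))
    · intro h7; exact hca (MulAction.injective k (h7.trans hka.symm))
  have ht := hN k hk s hs
  have e2 : (k * s * k⁻¹) • b = b := by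
    rw [mul_smul, mul_smul, ← hka, inv_smul_smul, hsa]
  have e3 : (k * s * k⁻¹) • a = c := by
    have : k⁻¹ • a = b := by rw [← hkb, inv_smul_smul]
    rw [mul_smul, mul_smul, this, e1.1, hkc]
  have e4 : (k * s * k⁻¹) • c = a := by
    have : k⁻¹ • c = c := inv_fix hkc
    rw [mul_smul, mul_smul, this, e1.2, hkb]
  have h8 := hcon _ (mul_mem hs ht)
  have h9 := Q_fix' h8 ha
  have : (s * (k * s * k⁻¹) * (s * (k * s * k⁻¹))) • a = c := by
    rw [mul_smul (s * (k * s * k⁻¹)) (s * (k * s * k⁻¹)) a, mul_smul s (k * s * k⁻¹) a, e3, e1.2,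
      mul_smul s (k * s * k⁻¹) b, e2, e1.1]
  rw [this] at h9
  exact hca h9

/-- if `g²` centralises for all `g` in a normal subgroup not in `Q v`, the centraliser is not in `Q v` -/
theorem exists_cent_of_sq {N C : Subgroup G} (hNv : ∀ n ∈ N, n • v = v)
    (hN : ∀ g : G, g • v = v → ∀ n ∈ N, g * n * g⁻¹ ∈ N) (hne : ∃ n ∈ N, n ∉ Γ.Q v)
    (hsq : ∀ n ∈ N, ∀ c ∈ C, n * n * c = c * (n * n)) :
    ∃ g : G, g • v = v ∧ (∀ c ∈ C, g * c = c * g) ∧ g ∉ Γ.Q v := by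
  obtain ⟨n, hn, hnn⟩ := exists_sq_not_mem hNv hN hne
  exact ⟨n * n, mul_fix (hNv n hn) (hNv n hn), hsq n hn, hnn⟩

namespace NP

variable (H : NP Γ)

include H

/-- **Lemma (L)**: a normal subgroup of `G_v` outside `Q v` meets `Q v` outside `Q a` -/
theorem normal_Q {N : Subgroup G} (hNv : ∀ n ∈ N, n • v = v)
    (hN : ∀ g : G, g • v = v → ∀ n ∈ N, g * n * g⁻¹ ∈ N) (hne : ∃ n ∈ N, n ∉ Γ.Q v) (ha : Γ.A v a) :
    ∃ n ∈ N, n ∈ Γ.Q v ∧ n ∉ Γ.Q a := by
  by_contra hcon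
  push Not at hcon
  have hall : ∀ b, Γ.A v b → ∀ n ∈ N, n ∈ Γ.Q v → n ∈ Γ.Q b := by
    intro b hb n hn hnQ
    obtain ⟨k, hk, hkb⟩ := exists_trans hb ha
    have h1 := hcon (k * n * k⁻¹) (hN k hk n hn) (conj_mem_Q_of_fix hnQ hk)
    rw [← hkb, mem_Q_smul] at h1
    have : k⁻¹ * (k * n * k⁻¹) * k = n := by group
    rwa [this] at h1
  obtain ⟨b, hb, hba⟩ := exists_ne ha
  obtain ⟨n, hn, hnab⟩ := normal_trans hNv hN hne ha hb
  apply H.npu v a b ha hb hba.symm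
  intro x hx
  have hxv : x ∈ Γ.Q v := hx.1
  have hxa : x ∈ Γ.Q a := hx.2
  have h1 : n * x * n⁻¹ ∈ Γ.Q b := conj_mem_Q_of_eq hxa hnab
  have h2 : n * (x⁻¹ * n⁻¹ * x) ∈ N := by
    refine mul_mem hn ?_
    have := hN x⁻¹ (inv_fix hxv.1) n⁻¹ (inv_mem hn)
    rwa [inv_inv] at this
  have h3 : n * (x⁻¹ * n⁻¹ * x) ∈ Γ.Q v := by
    have h4 := conj_mem_Q_of_fix (inv_mem hxv) (hNv n hn)
    have : n * (x⁻¹ * n⁻¹ * x) = (n * x⁻¹ * n⁻¹) * x := by group
    rw [this]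
    exact mul_mem h4 hxv
  have h5 := hall b hb _ h2 h3
  have : x = (n * x * n⁻¹) * (n * (x⁻¹ * n⁻¹ * x)) := by group
  rw [this]
  exact mul_mem h1 h5

omit H in
theorem mv1 (τ : Bool) : MvT Γ 1 τ := by
  intro p i hp _
  obtain ⟨g, hg, hgQ⟩ := exists_T_not_mem_Q (Γ.symm (hp.adj (k := i) le_rfl (by omega)))
  obtain ⟨h1, h2⟩ := mem_T.1 hg
  refine ⟨g, fun k h3 h4 => ?_, hgQ⟩
  have : k = i ∨ k = i + 1 := by omega
  rcases this with rfl | rfl
  · exact h2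
  · exact h1

theorem mv2 (τ : Bool) : MvT Γ 2 τ := by
  intro p i hp _
  have h1 : Γ.A (p i) (p (i + 1)) := hp.adj le_rfl (by omega)
  have h2 : Γ.A (p (i + 1)) (p (i + 2)) := by
    have := hp.adj (k := i + 1) (by omega) (by omega)
    have e : i + 1 + 1 = i + 2 := by ring
    rwa [e] at this
  obtain ⟨g, hg, hgQ⟩ := Set.not_subset.1 (H.nle (p (i + 1)) (p (i + 2)) h2)
  refine ⟨g, fun k h3 h4 => ?_, hgQ⟩
  have : k = i ∨ k = i + 1 ∨ k = i + 2 := by omega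
  rcases this with rfl | rfl | rfl
  · exact Q_fix' hg (Γ.symm h1)
  · exact hg.1
  · exact Q_fix' hg h2

theorem mv3 (τ : Bool) : MvT Γ 3 τ := by
  intro p i hp _
  have h1 : Γ.A (p i) (p (i + 1)) := hp.adj le_rfl (by omega)
  have h2 : Γ.A (p (i + 1)) (p (i + 2)) := by
    have := hp.adj (k := i + 1) (by omega) (by omega)
    have e : i + 1 + 1 = i + 2 := by ring
    rwa [e] at this
  have h3 : Γ.A (p (i + 2)) (p (i + 3)) := by
    have := hp.adj (k := i + 2) (by omega) (by omega)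
    have e : i + 2 + 1 = i + 3 := by ring
    rwa [e] at this
  have h4 : p (i + 1) ≠ p (i + 3) := hp.ne (by omega) (by omega) (by ring)
  obtain ⟨g, hg, hgQ⟩ := Set.not_subset.1 (H.npu (p (i + 2)) (p (i + 1)) (p (i + 3)) (Γ.symm h2) h3 h4)
  refine ⟨g, fun k h5 h6 => ?_, hgQ⟩
  have hg1 : g ∈ Γ.Q (p (i + 2)) := hg.1
  have hg2 : g ∈ Γ.Q (p (i + 1)) := hg.2
  have : k = i ∨ k = i + 1 ∨ k = i + 2 ∨ k = i + 3 := by omega
  rcases this with rfl | rfl | rfl | rfl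
  · exact Q_fix' hg2 (Γ.symm h1)
  · exact hg2.1
  · exact hg1.1
  · exact Q_fix' hg1 h3

theorem mv_le_three (τ : Bool) {k : ℤ} (h1 : 1 ≤ k) (h2 : k ≤ 3) : MvT Γ k τ := by
  have : k = 1 ∨ k = 2 ∨ k = 3 := by omega
  rcases this with rfl | rfl | rfl
  · exact mv1 τ
  · exact H.mv2 τ
  · exact H.mv3 τ

end NP

/-- closure lemma for two vertices at distance two: `N` centralised by normal subgroups `C₁`, `C₃` of `G_v`, `G_w` -/
theorem two_bot (H : NP Γ) {v a w : V} (hva : Γ.A v a) (haw : Γ.A a w) (hvw : v ≠ w) (N C C' : Subgroup G)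
    (hN : ∀ n ∈ N, n • v = v ∧ n • a = a ∧ n • w = w) (hCv : ∀ c ∈ C, c • v = v)
    (hCn : ∀ g : G, g • v = v → ∀ c ∈ C, g * c * g⁻¹ ∈ C) (hCQ : ∃ c ∈ C, c ∉ Γ.Q v)
    (hCw : ∀ c ∈ C', c • w = w)
    (hCn' : ∀ g : G, g • w = w → ∀ c ∈ C', g * c * g⁻¹ ∈ C') (hCQ' : ∃ c ∈ C', c ∉ Γ.Q w)
    (hc : ∀ c ∈ C, ∀ n ∈ N, c * n = n * c) (hc' : ∀ c ∈ C', ∀ n ∈ N, c * n = n * c) : ∀ n ∈ N, n = 1 := by
  have hcomm : ∀ c : G, (∀ n ∈ N, c * n = n * c) → ∀ n ∈ N, c⁻¹ * n * c ∈ N := by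
    intro c hc n hn
    rw [mul_assoc, ← hc n hn, inv_mul_cancel_left]
    exact hn
  apply closure_bot Γ N ({v, a, w} : Set V) ⟨v, Or.inl rfl⟩
  · rintro p (rfl | rfl | rfl) n hn
    · exact (hN n hn).1
    · exact (hN n hn).2.1
    · exact (hN n hn).2.2
  · rintro p (rfl | rfl | hp) x hx
    · obtain ⟨c, hc1, hc2⟩ := normal_trans hCv hCn hCQ hva hx
      exact ⟨c, hcomm c (hc c hc1), a, Or.inr (Or.inl rfl), hc2⟩
    · by_cases h1 : x = v
      · exact ⟨1, fun n hn => by simpa using hn, v, Or.inl rfl, by rw [one_smul, h1]⟩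
      by_cases h2 : x = w
      · exact ⟨1, fun n hn => by simpa using hn, w, Or.inr (Or.inr rfl), by rw [one_smul, h2]⟩
      obtain ⟨c, hc1, hc2, hc3⟩ := H.normal_Q hCv hCn hCQ hva
      have := swap_of_not_mem (Q_fix' hc2 hva) (Γ.symm hva) haw hx hvw (Ne.symm h1) (Ne.symm h2) hc2.1 hc3
      exact ⟨c, hcomm c (hc c hc1), w, Or.inr (Or.inr rfl), this.1⟩
    · rw [Set.mem_singleton_iff] at hp
      subst hp
      obtain ⟨c, hc1, hc2⟩ := normal_trans hCw hCn' hCQ' (Γ.symm haw) hx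
      exact ⟨c, hcomm c (hc' c hc1), a, Or.inr (Or.inl rfl), hc2⟩

/-- the centraliser in `G_v` -/
def CC (v : V) (N : Subgroup G) : Subgroup G := stabilizer G v ⊓ Subgroup.centralizer (N : Set G)

omit Γ in
theorem mem_CC {N : Subgroup G} : g ∈ CC v N ↔ g • v = v ∧ ∀ n ∈ N, g * n = n * g := by
  unfold CC
  rw [Subgroup.mem_inf, mem_stabilizer_iff, Subgroup.mem_centralizer_iff]
  constructor
  · rintro ⟨h1, h2⟩; exact ⟨h1, fun n hn => (h2 n hn).symm⟩
  · rintro ⟨h1, h2⟩; exact ⟨h1, fun n hn => (h2 n hn).symm⟩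

omit Γ in
theorem CC_normal {N : Subgroup G} (hN : ∀ g : G, g • v = v → ∀ n ∈ N, g * n * g⁻¹ ∈ N) (hg : g • v = v)
    {n : G} (hn : n ∈ CC v N) : g * n * g⁻¹ ∈ CC v N := by
  obtain ⟨h1, h2⟩ := mem_CC.1 hn
  refine mem_CC.2 ⟨mul_fix (mul_fix hg h1) (inv_fix hg), fun m hm => ?_⟩
  have h3 := hN g⁻¹ (inv_fix hg) m hm
  rw [inv_inv] at h3
  have h4 := h2 _ h3
  calc g * n * g⁻¹ * m = g * (n * (g⁻¹ * m * g)) * g⁻¹ := by group
    _ = g * ((g⁻¹ * m * g) * n) * g⁻¹ := by rw [h4]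
    _ = m * (g * n * g⁻¹) := by group

end Tri

end Cfsg.Agent.H209
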