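import Cfsg.Agent.H209.TriArc

/-!
# Pushing up for trivalent graphs

If `Q v ∩ Q a = Q v ∩ Q b` for some vertex `v` and two different neighbours `a`, `b`, then the edge stabilizers
have order at most 64 (`Tri.PU.card_le`).
-/

set_option autoImplicit false

namespace Cfsg.Agent.H209

open MulAction

namespace Tri

variable {G V : Type*} [Group G] [MulAction G V] {Γ : Tri G V}
variable {u v w a b c d : V} {g h : G}

omit Γ in
theorem mem_T_smul : g ∈ (T (h • v) (h • w) : Subgroup G) ↔ h⁻¹ * g * h ∈ (T v w : Subgroup G) := by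
  rw [mem_T, mem_T, mul_smul, mul_smul, mul_smul, mul_smul, inv_smul_eq_iff, inv_smul_eq_iff]

omit Γ in
theorem card_T_smul (h : G) (v w : V) : Nat.card (T (h • v) (h • w) : Subgroup G) = Nat.card (T v w : Subgroup G) := by
  apply Nat.card_congr
  refine ⟨fun x => ⟨h⁻¹ * x * h, mem_T_smul.1 x.2⟩, fun x => ⟨h * x * h⁻¹, ?_⟩, fun x => ?_, fun x => ?_⟩
  · rw [mem_T_smul]
    have : h⁻¹ * (h * (x : G) * h⁻¹) * h = x := by group
    rw [this]; exact x.2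
  · apply Subtype.ext
    show h * (h⁻¹ * (x : G) * h) * h⁻¹ = x
    group
  · apply Subtype.ext
    show h⁻¹ * (h * (x : G) * h⁻¹) * h = x
    group

theorem card_T_eq (h1 : Γ.A v w) (h2 : Γ.A a b) : Nat.card (T v w : Subgroup G) = Nat.card (T a b : Subgroup G) := by
  by_cases hty : Γ.ty v = Γ.ty a
  · obtain ⟨g, rfl, rfl⟩ := Γ.trans h1 h2 hty
    rw [card_T_smul]
  · have hty' : Γ.ty v = Γ.ty b := by
      rw [Γ.ty_adj h2]
      cases hv : Γ.ty v <;> cases ha : Γ.ty a <;> simp_all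
    obtain ⟨g, rfl, rfl⟩ := Γ.trans h1 (Γ.symm h2) hty'
    rw [T_comm (g • w), card_T_smul]

theorem finT (Γ : Tri G V) (v w : V) : Finite (T v w : Subgroup G) := by
  have := Γ.fin v
  exact Finite.of_injective (Subgroup.inclusion (inf_le_left : (T v w : Subgroup G) ≤ stabilizer G v))
    (Subgroup.inclusion_injective _)

theorem finSub {H : Subgroup G} (Γ : Tri G V) (v : V) (hH : ∀ x ∈ H, x • v = v) : Finite H := by
  have := Γ.fin v
  have hle : H ≤ stabilizer G v := fun x hx => mem_stabilizer_iff.2 (hH x hx)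
  exact Finite.of_injective (Subgroup.inclusion hle) (Subgroup.inclusion_injective _)

theorem half_Q (h : Γ.A v w) : Half (Γ.Q v) (T v w) :=
  ⟨Q_le_T h, fun _ hx _ hy hxQ hyQ => mul_mem_Q h hx hy hxQ hyQ⟩

theorem half_Q' (h : Γ.A v w) : Half (Γ.Q v) (T w v) := by
  rw [T_comm]; exact half_Q h

theorem card_T_le (h : Γ.A v w) {m : ℕ} (hm : Nat.card (Γ.Q v) ≤ m) : Nat.card (T v w : Subgroup G) ≤ 2 * m :=
  card_le_two_of_forall _ (half_Q h) (finT Γ v w) hm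

theorem isPGroup_T (h : Γ.A v w) : IsPGroup 2 (T v w : Subgroup G) := Γ.two h

theorem isPGroup_of_le {H : Subgroup G} (h : Γ.A v w) (hH : H ≤ T v w) : IsPGroup 2 H :=
  (isPGroup_T h).to_le hH

/-- `Q v ≤ Q w` for an edge: the trivial case -/
theorem card_le_two_of_Q_le (h : Γ.A v w) (hle : Γ.Q v ≤ Γ.Q w) : Nat.card (T v w : Subgroup G) ≤ 2 := by
  have hle' : Γ.Q w ≤ Γ.Q v := by
    intro x hx
    by_contra hxv
    obtain ⟨t, ht, htQ⟩ := exists_T_not_mem_Q (Γ.symm h)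
    have htv : t ∉ Γ.Q v := fun h1 => htQ (hle h1)
    rw [T_comm] at ht
    have h1 := mul_mem_Q h (Q_le_T' (Γ.symm h) hx) ht hxv htv
    exact htQ (((Γ.Q w).mul_mem_cancel_left hx).1 (hle h1))
  have hbot : ∀ x ∈ Γ.Q v, x = 1 := by
    apply edge_bot Γ h (Γ.Q v) (fun n hn => ⟨hn.1, hn.2 w h⟩)
    · intro a ha
      obtain ⟨g, hg, hga⟩ := exists_trans h ha
      refine ⟨g, fun n hn => ?_, hga⟩
      have := conj_mem_Q_of_fix hn (inv_fix hg)
      rwa [inv_inv] at this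
    · intro a ha
      obtain ⟨g, hg, hga⟩ := exists_trans (Γ.symm h) ha
      refine ⟨g, fun n hn => hle' ?_, hga⟩
      have := conj_mem_Q_of_fix (hle hn) (inv_fix hg)
      rwa [inv_inv] at this
  have := card_T_le h (card_le_one_of_forall hbot)
  simpa using this

/-- transitivity on pairs of neighbours, for two vertices of the same type -/
theorem exists_two_trans' (ha : Γ.A v a) (hb : Γ.A v b) (hc : Γ.A w c) (hd : Γ.A w d) (hab : a ≠ b)
    (hcd : c ≠ d) (hty : Γ.ty v = Γ.ty w) : ∃ g : G, g • v = w ∧ g • a = c ∧ g • b = d := by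
  obtain ⟨g, hgv, hga⟩ := Γ.trans ha hc hty
  have h1 : Γ.A w (g • b) := by
    have := Γ.smul g hb
    rwa [hgv] at this
  have h2 : c ≠ g • b := by
    rw [← hga]; exact fun h => hab (MulAction.injective g h)
  obtain ⟨k, hk1, hk2, hk3⟩ := exists_two_trans hc h1 hc hd h2 hcd
  exact ⟨k * g, by rw [mul_smul, hgv, hk1], by rw [mul_smul, hga, hk2], by rw [mul_smul, hk3]⟩

/-- the pushing up hypothesis at the vertices of type `π` -/
def PU (Γ : Tri G V) (π : Bool) : Prop :=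
  ∀ v, Γ.ty v = π → ∀ a b, Γ.A v a → Γ.A v b → Γ.Q v ⊓ Γ.Q a ≤ Γ.Q b

theorem PU_of (ha : Γ.A v a) (hb : Γ.A v b) (hab : a ≠ b) (h : Γ.Q v ⊓ Γ.Q a ≤ Γ.Q b) : PU Γ (Γ.ty v) := by
  intro w hw c d hc hd x hx
  by_cases hcd : c = d
  · rw [← hcd]; exact hx.2
  obtain ⟨g, hgv, hga, hgb⟩ := exists_two_trans' ha hb hc hd hab hcd hw.symm
  have h1 : g⁻¹ * x * g ∈ Γ.Q v ⊓ Γ.Q a := by
    refine ⟨?_, ?_⟩
    · show g⁻¹ * x * g ∈ Γ.Q v
      rw [← mem_Q_smul, hgv]; exact hx.1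
    · show g⁻¹ * x * g ∈ Γ.Q a
      rw [← mem_Q_smul, hga]; exact hx.2
  have h2 := h h1
  rwa [← mem_Q_smul, hgb] at h2

/-- `D v = Q v ∩ ⋂ Q a` -/
def D (Γ : Tri G V) (v : V) : Subgroup G where
  carrier := {g | g ∈ Γ.Q v ∧ ∀ a, Γ.A v a → g ∈ Γ.Q a}
  mul_mem' := fun hg hh => ⟨mul_mem hg.1 hh.1, fun a ha => mul_mem (hg.2 a ha) (hh.2 a ha)⟩
  one_mem' := ⟨one_mem _, fun _ _ => one_mem _⟩
  inv_mem' := fun hg => ⟨inv_mem hg.1, fun a ha => inv_mem (hg.2 a ha)⟩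

theorem mem_D : g ∈ Γ.D v ↔ g ∈ Γ.Q v ∧ ∀ a, Γ.A v a → g ∈ Γ.Q a := Iff.rfl

theorem D_le_Q : Γ.D v ≤ Γ.Q v := fun _ hg => hg.1

theorem D_le_Q' (ha : Γ.A v a) : Γ.D v ≤ Γ.Q a := fun _ hg => hg.2 a ha

theorem conj_mem_D (hg : g ∈ Γ.D v) (h : G) : h * g * h⁻¹ ∈ Γ.D (h • v) := by
  refine ⟨conj_mem_Q hg.1 h, fun a ha => ?_⟩
  have h1 : Γ.A v (h⁻¹ • a) := by
    have := Γ.smul h⁻¹ ha
    rwa [inv_smul_smul] at this
  have := conj_mem_Q (hg.2 _ h1) h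
  rwa [smul_inv_smul] at this

theorem conj_mem_D_of_fix (hg : g ∈ Γ.D v) (hh : h • v = v) : h * g * h⁻¹ ∈ Γ.D v := by
  have := conj_mem_D hg h
  rwa [hh] at this

theorem conj_mem_D_of_eq (hg : g ∈ Γ.D v) (hh : h • v = w) : h * g * h⁻¹ ∈ Γ.D w := by
  have := conj_mem_D hg h
  rwa [hh] at this

/-- three neighbours: the closure lemma for a group fixing `w` and its neighbours, centralised by groups which
are transitive on the neighbours of the neighbours of `w` -/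
theorem star_bot (Γ : Tri G V) (w : V) (N : Subgroup G) (hN : ∀ n ∈ N, n ∈ Γ.Q w)
    (h1 : ∀ v, Γ.A w v → ∀ a, Γ.A v a → ∃ g : G, (∀ n ∈ N, g * n = n * g) ∧ g • w = a) : ∀ n ∈ N, n = 1 := by
  apply closure_bot Γ N ({w} ∪ {v | Γ.A w v}) ⟨w, Or.inl rfl⟩
  · rintro p (hp | hp) n hn
    · rw [Set.mem_singleton_iff] at hp; subst hp; exact (hN n hn).1
    · exact (hN n hn).2 p hp
  · rintro p (hp | hp) x hx
    · rw [Set.mem_singleton_iff] at hp; subst hp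
      exact ⟨1, fun n hn => by simpa using hn, x, Or.inr hx, one_smul _ _⟩
    · obtain ⟨g, hg, hgx⟩ := h1 p hp x hx
      refine ⟨g, fun n hn => ?_, w, Or.inl rfl, hgx⟩
      rw [mul_assoc, ← hg n hn, inv_mul_cancel_left]
      exact hn

/-- the centraliser of a normal subgroup is transitive or in `Q` -/
theorem cent_trans {N : Subgroup G} (hN : ∀ g : G, g • v = v → ∀ n ∈ N, g * n * g⁻¹ ∈ N)
    (hne : ∃ g : G, g • v = v ∧ (∀ n ∈ N, g * n = n * g) ∧ g ∉ Γ.Q v) (ha : Γ.A v a) (hb : Γ.A v b) :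
    ∃ g : G, g • v = v ∧ (∀ n ∈ N, g * n = n * g) ∧ g • a = b := by
  let C : Subgroup G := stabilizer G v ⊓ Subgroup.centralizer (N : Set G)
  have hmem : ∀ x, x ∈ C ↔ x • v = v ∧ ∀ n ∈ N, x * n = n * x := by
    intro x
    show x ∈ stabilizer G v ⊓ Subgroup.centralizer (N : Set G) ↔ _
    rw [Subgroup.mem_inf, mem_stabilizer_iff, Subgroup.mem_centralizer_iff]
    constructor
    · rintro ⟨h1, h2⟩; exact ⟨h1, fun n hn => (h2 n hn).symm⟩
    · rintro ⟨h1, h2⟩; exact ⟨h1, fun n hn => (h2 n hn).symm⟩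
  have h1 : ∀ g : G, g • v = v → ∀ n ∈ C, g * n * g⁻¹ ∈ C := by
    intro g hg n hn
    obtain ⟨h1, h2⟩ := (hmem n).1 hn
    refine (hmem _).2 ⟨mul_fix (mul_fix hg h1) (inv_fix hg), fun m hm => ?_⟩
    have h3 := hN g⁻¹ (inv_fix hg) m hm
    rw [inv_inv] at h3
    have h4 := h2 _ h3
    calc g * n * g⁻¹ * m = g * (n * (g⁻¹ * m * g)) * g⁻¹ := by group
      _ = g * ((g⁻¹ * m * g) * n) * g⁻¹ := by rw [h4]
      _ = m * (g * n * g⁻¹) := by group
  have h2 : ∃ n ∈ C, n ∉ Γ.Q v := by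
    obtain ⟨g, h1, h2, h3⟩ := hne
    exact ⟨g, (hmem g).2 ⟨h1, h2⟩, h3⟩
  obtain ⟨n, hn, hnab⟩ := normal_trans (fun n hn => ((hmem n).1 hn).1) h1 h2 ha hb
  exact ⟨n, ((hmem n).1 hn).1, ((hmem n).1 hn).2, hnab⟩

namespace PU

variable {π : Bool} (hPU : PU Γ π)

include hPU

theorem mem_D (hv : Γ.ty v = π) (ha : Γ.A v a) (hg : g ∈ Γ.Q v) (hga : g ∈ Γ.Q a) : g ∈ Γ.D v :=
  ⟨hg, fun b hb => hPU v hv a b ha hb ⟨hg, hga⟩⟩

theorem half_D (hv : Γ.ty v = π) (ha : Γ.A v a) : Half (Γ.D v) (Γ.Q a) := by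
  refine ⟨D_le_Q' ha, fun x hx y hy hxD hyD => ?_⟩
  have hxv : x ∉ Γ.Q v := fun h => hxD (hPU.mem_D hv ha h hx)
  have hyv : y ∉ Γ.Q v := fun h => hyD (hPU.mem_D hv ha h hy)
  have h1 := mul_mem_Q ha (Q_le_T' (Γ.symm ha) hx) (Q_le_T' (Γ.symm ha) hy) hxv hyv
  exact hPU.mem_D hv ha h1 (mul_mem hx hy)

/-- `D` is not contained in another `D` around the same vertex -/
theorem card_le_four (hv : Γ.ty v = π) (ha : Γ.A v a) (hw : Γ.A a w) (hvw : v ≠ w) (hle : Γ.D v ≤ Γ.D w) :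
    Nat.card (T v a : Subgroup G) ≤ 4 := by
  have h1 : ∀ x ∈ Γ.D v, x = 1 := by
    apply fam_bot Γ (F := fun v => Γ.D v) (fun g v x hx => conj_mem_D hx g) (Γ.symm ha) hw hvw hle
    intro x hx
    exact ⟨hx.1.2 a ha, hx.1.1⟩
  have h2 : Nat.card (Γ.Q a) ≤ 2 * 1 :=
    card_le_two_of_forall _ (hPU.half_D hv ha) (finSub Γ a fun x hx => hx.1) (card_le_one_of_forall h1)
  have := card_T_le (Γ.symm ha) h2
  rw [T_comm]
  omega

/-- the case where `D v` is centralised -/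
theorem card_le_of_cent (hv : Γ.ty v = π) (ha : Γ.A v a)
    (hne : ∃ g : G, g • v = v ∧ (∀ n ∈ Γ.D v, g * n = n * g) ∧ g ∉ Γ.Q v) :
    Nat.card (T v a : Subgroup G) ≤ 16 := by
  obtain ⟨w, u, hw, hu, hwv, huv, hwu, hall⟩ := exists_others (Γ.symm ha)
  have tyw : Γ.ty w = π := by rw [← hv]; exact ty_eq_of_adj hw (Γ.symm ha)
  have tyu : Γ.ty u = π := by rw [← hv]; exact ty_eq_of_adj hu (Γ.symm ha)
  -- all vertices of the type of `v` have the property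
  have hne' : ∀ x, Γ.ty x = π → ∃ g : G, g • x = x ∧ (∀ n ∈ Γ.D x, g * n = n * g) ∧ g ∉ Γ.Q x := by
    intro x hx
    obtain ⟨g, hg1, hg2, hg3⟩ := hne
    obtain ⟨y, hy⟩ : ∃ y, Γ.A x y := by
      obtain ⟨y, _, _, hy, _⟩ := Γ.three x
      exact ⟨y, hy⟩
    obtain ⟨k, hk, -⟩ := Γ.trans ha hy (hv.trans hx.symm)
    refine ⟨k * g * k⁻¹, conj_fix_of_eq hg1 hk, fun n hn => ?_, fun hQ => hg3 ?_⟩
    · have h1 : k⁻¹ * n * k ∈ Γ.D v := by
        have := conj_mem_D hn k⁻¹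
        rwa [inv_inv, ← hk, inv_smul_smul] at this
      have h2 := hg2 _ h1
      calc k * g * k⁻¹ * n = k * (g * (k⁻¹ * n * k)) * k⁻¹ := by group
        _ = k * ((k⁻¹ * n * k) * g) * k⁻¹ := by rw [h2]
        _ = n * (k * g * k⁻¹) := by group
    · rw [← hk, mem_Q_smul] at hQ
      have : k⁻¹ * (k * g * k⁻¹) * k = g := by group
      rwa [this] at hQ
  let N : Subgroup G := Γ.D u ⊓ (Γ.D w ⊓ Γ.D v)
  have hN : ∀ n ∈ N, n = 1 := by
    apply star_bot Γ a N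
    · intro n hn
      exact D_le_Q' ha hn.2.2
    · intro x hx y hy
      have tyx : Γ.ty x = π := by rw [← hv]; exact ty_eq_of_adj hx (Γ.symm ha)
      obtain ⟨g, -, hg, hgy⟩ := cent_trans (N := Γ.D x) (fun g hg n hn => conj_mem_D_of_fix hn hg) (hne' x tyx)
        (Γ.symm hx) hy
      refine ⟨g, fun n hn => hg n ?_, hgy⟩
      rcases hall x hx with rfl | rfl | rfl
      · exact hn.2.2
      · exact hn.2.1
      · exact hn.1
  have c1 := card_le_one_of_forall hN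
  have f1 : Finite (Γ.Q a) := finSub Γ a fun x hx => hx.1
  have f2 : Finite (Γ.D v) := finSub Γ v fun x hx => hx.1.1
  have f3 : Finite ↥(Γ.D w ⊓ Γ.D v) := finSub Γ v fun x hx => hx.2.1.1
  have h3 : Half N (Γ.D w ⊓ Γ.D v) :=
    (hPU.half_D tyu (Γ.symm hu)).inf_left (fun x hx => D_le_Q' ha hx.2)
  have h2 : Half (Γ.D w ⊓ Γ.D v) (Γ.D v) :=
    (hPU.half_D tyw (Γ.symm hw)).inf_left (D_le_Q' ha)
  have c2 := card_le_two_of_forall _ h3 f3 c1
  have c3 := card_le_two_of_forall _ h2 f2 c2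
  have c4 := card_le_two_of_forall _ (hPU.half_D hv ha) f1 c3
  have c5 := card_T_le (Γ.symm ha) c4
  rw [T_comm]
  omega

end PU

end Tri

end Cfsg.Agent.H209
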