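import Cfsg.Agent.H209.TriPUThree

/-!
# Pushing up for trivalent graphs: the bound 64
-/

set_option autoImplicit false

namespace Cfsg.Agent.H209

open MulAction

namespace Tri

variable {G V : Type*} [Group G] [MulAction G V] {Γ : Tri G V}
variable {u v w a b c d : V} {g h : G}

theorem ex_adj (Γ : Tri G V) (v : V) : ∃ a, Γ.A v a := by
  obtain ⟨a, _, _, ha, _⟩ := Γ.three v
  exact ⟨a, ha⟩

namespace PUH

variable {π : Bool} (H : PUH Γ π)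

include H

/-- the case of distance two -/
theorem card_le_of_two (hall : ∀ v w a, Γ.ty v = π → Γ.A v a → Γ.A a w → v ≠ w → ¬ Γ.VV v ≤ Γ.Q w)
    (hv : Γ.ty v = π) (ha : Γ.A v a) : Nat.card (T v a : Subgroup G) ≤ 64 := by
  -- squares
  have sq_sub : ∀ v w a, Γ.ty v = π → Γ.A v a → Γ.A a w → v ≠ w → ∀ x ∈ Γ.D v, ∃ y ∈ Γ.D w, x * x = y * y := by
    intro v w a hv ha hw hvw x hx
    have tyw : Γ.ty w = π := H.ty_of_adj' (H.ty_of_adj hv ha) hw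
    obtain ⟨z, hz, hzw⟩ := Set.not_subset.1 (hall v w a hv ha hw hvw)
    have hzD : z ∈ Γ.D v := H.VV_le_D hv hz
    by_cases hxw : x ∈ Γ.D w
    · exact ⟨x, hxw, rfl⟩
    · have h1 : z * x ∈ Γ.D w := (H.pu.half_D tyw (Γ.symm hw)).2 z (D_le_Q' ha hzD) x (D_le_Q' ha hx)
        (fun h => hzw h.1) hxw
      refine ⟨z * x, h1, ?_⟩
      have h2 : z * x = x * z := VV_comm hz hx
      have h3 : z * z = 1 := H.VV_sq hv hz
      calc x * x = (z * z) * (x * x) := by rw [h3, one_mul]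
        _ = z * (z * x) * x := by group
        _ = z * (x * z) * x := by rw [h2]
        _ = z * x * (z * x) := by group
  have hsq : ∀ v, Γ.ty v = π → ∀ x ∈ Γ.D v, x * x = 1 := by
    intro v hv
    obtain ⟨a, ha⟩ := ex_adj Γ v
    obtain ⟨w, hw, hwv⟩ := exists_ne (Γ.symm ha)
    let F : V → Subgroup G := fun v => Subgroup.closure {x | ∃ y ∈ Γ.D v, x = y * y}
    have hle : F v ≤ F w := by
      show Subgroup.closure _ ≤ _
      rw [Subgroup.closure_le]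
      rintro x ⟨y, hy, rfl⟩
      obtain ⟨z, hz, e⟩ := sq_sub v w a hv ha hw hwv.symm y hy
      exact Subgroup.subset_closure ⟨z, hz, e⟩
    have hFD : F v ≤ Γ.D v := by
      show Subgroup.closure _ ≤ _
      rw [Subgroup.closure_le]
      rintro x ⟨y, hy, rfl⟩
      exact mul_mem hy hy
    have key := fam_bot Γ (F := F) (fun g v x hx => ?_) (Γ.symm ha) hw hwv.symm hle
      (fun x hx => ⟨Q_fix' (hFD hx).1 ha, (hFD hx).1.1⟩)
    · intro x hx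
      exact key _ (Subgroup.subset_closure ⟨x, hx, rfl⟩)
    · refine conj_mem_closure g ?_ hx
      rintro x ⟨y, hy, rfl⟩
      refine Subgroup.subset_closure ⟨g * y * g⁻¹, conj_mem_D hy g, by group⟩
  have hDcomm : ∀ v, Γ.ty v = π → ∀ x ∈ Γ.D v, ∀ y ∈ Γ.D v, x * y = y * x := by
    intro v hv x hx y hy
    have h1 := hsq v hv x hx
    have h2 := hsq v hv y hy
    have h3 := hsq v hv _ (mul_mem hx hy)
    calc x * y = x * (x * y * (x * y)) * y := by rw [h3, mul_one]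
      _ = (x * x) * (y * x) * (y * y) := by group
      _ = y * x := by rw [h1, h2, one_mul, mul_one]
  -- `D v ∩ D w` is centralised by `Q a`
  have hE : ∀ v w a, Γ.ty v = π → Γ.A v a → Γ.A a w → v ≠ w → ∀ x ∈ Γ.D v, x ∈ Γ.D w → ∀ y ∈ Γ.Q a,
      y * x = x * y := by
    intro v w a hv ha hw hvw x hx hxw y hy
    have tyw : Γ.ty w = π := H.ty_of_adj' (H.ty_of_adj hv ha) hw
    obtain ⟨z, hz, hzw⟩ := Set.not_subset.1 (hall v w a hv ha hw hvw)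
    have hzD : z ∈ Γ.D v := H.VV_le_D hv hz
    by_cases hyw : y ∈ Γ.D w
    · exact hDcomm w tyw y hyw x hxw
    · have h1 : z * y ∈ Γ.D w := (H.pu.half_D tyw (Γ.symm hw)).2 z (D_le_Q' ha hzD) y hy
        (fun h => hzw h.1) hyw
      have h2 := hDcomm w tyw _ h1 x hxw
      have h3 := hDcomm v hv z hzD x hx
      calc y * x = z⁻¹ * ((z * y) * x) := by group
        _ = z⁻¹ * (x * (z * y)) := by rw [h2]
        _ = z⁻¹ * (x * z) * y := by group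
        _ = z⁻¹ * (z * x) * y := by rw [h3]
        _ = x * y := by group
  -- the neighbours of `a`
  obtain ⟨w, u, hw, hu, hwv, huv, hwu, hall3⟩ := exists_others (Γ.symm ha)
  have hta : Γ.ty a ≠ π := H.ty_of_adj hv ha
  have hEall : ∀ x ∈ Γ.D v ⊓ Γ.D w, ∀ t, Γ.A a t → x ∈ Γ.D t := by
    intro x hx t ht
    have tyt : Γ.ty t = π := H.ty_of_adj' hta ht
    apply H.mem_D_of_comm tyt (Γ.symm ht) (D_le_Q' ha hx.1)
    intro y hy
    exact (hE v w a hv ha hw hwv.symm x hx.1 hx.2 y (D_le_Q' (Γ.symm ht) (H.VV_le_D tyt hy))).symm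
  have hEQ : ∀ x ∈ Γ.D v ⊓ Γ.D w, ∀ y ∈ Γ.Q a, y * x = x * y := fun x hx y hy =>
    hE v w a hv ha hw hwv.symm x hx.1 hx.2 y hy
  -- for every neighbour `t` of `a` choose `μ t` and `τ t`
  have hch : ∀ t, Γ.A a t → ∃ μ τ, Γ.A t μ ∧ μ ≠ a ∧ Γ.A μ τ ∧ t ≠ τ := by
    intro t ht
    obtain ⟨μ, hμ, hμa⟩ := exists_ne (Γ.symm ht)
    obtain ⟨τ, hτ, hτt⟩ := exists_ne (Γ.symm hμ)
    exact ⟨μ, τ, hμ, hμa, hτ, hτt.symm⟩
  obtain ⟨μv, τv, hμv, hμva, hτv, hvτ⟩ := hch v (Γ.symm ha)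
  obtain ⟨μw, τw, hμw, hμwa, hτw, hwτ⟩ := hch w hw
  obtain ⟨μu, τu, hμu, hμua, hτu, huτ⟩ := hch u hu
  let E : Subgroup G := Γ.D v ⊓ Γ.D w
  have tyw : Γ.ty w = π := H.ty_of_adj' hta hw
  have tyu : Γ.ty u = π := H.ty_of_adj' hta hu
  have hhalf : ∀ t μ τ, Γ.A a t → Γ.ty t = π → Γ.A t μ → Γ.A μ τ → ∀ L : Subgroup G, L ≤ E → Half (Γ.D τ ⊓ L) L := by
    intro t μ τ ht tyt hμ hτ L hL
    have tyτ : Γ.ty τ = π := H.ty_of_adj' (H.ty_of_adj tyt hμ) hτ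
    refine (H.pu.half_D tyτ (Γ.symm hτ)).inf_left (fun x hx => ?_)
    exact D_le_Q' hμ (hEall x (hL hx) t ht)
  -- transitivity on the neighbours of `t` of elements centralising `x ∈ E ∩ D τ`
  have htrans : ∀ t μ τ, Γ.A a t → Γ.A t μ → μ ≠ a → Γ.A μ τ → t ≠ τ → ∀ y, Γ.A t y →
      ∃ g : G, (∀ x ∈ E, x ∈ Γ.D τ → g * x = x * g) ∧ g • a = y := by
    intro t μ τ ht hμ hμa hτ htτ y hy
    have tyt : Γ.ty t = π := H.ty_of_adj' hta ht
    obtain ⟨c, hc, hca, hcμ, hcall⟩ := exists_third (Γ.symm ht) hμ hμa.symm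
    obtain ⟨z, hz, hzt⟩ := Set.not_subset.1 (H.nle a t ht)
    obtain ⟨s, hs, hst⟩ := Set.not_subset.1 (H.nle μ t (Γ.symm hμ))
    have ez := swap_of_not_mem (Q_fix' hz ht) (Γ.symm ht) hμ hc hμa.symm hca.symm hcμ.symm hz.1 hzt
    have es := swap_of_not_mem (Q_fix' hs (Γ.symm hμ)) hμ (Γ.symm ht) hc hμa hcμ.symm hca.symm hs.1 hst
    have cz : ∀ x ∈ E, z * x = x * z := fun x hx => hEQ x hx z hz
    have cs : ∀ x ∈ E, x ∈ Γ.D τ → s * x = x * s := by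
      intro x hx hxτ
      exact hE t τ μ tyt hμ hτ htτ x (hEall x hx t ht) hxτ s hs
    rcases hcall y hy with rfl | rfl | rfl
    · exact ⟨1, fun x _ _ => by simp, one_smul _ _⟩
    · refine ⟨z * s, fun x hx hxτ => ?_, ?_⟩
      · rw [mul_assoc, cs x hx hxτ, ← mul_assoc, cz x hx, mul_assoc]
      · rw [mul_smul, es.1, ez.2]
    · exact ⟨s, fun x hx hxτ => cs x hx hxτ, es.1⟩
  -- the final group
  let F : Subgroup G := Γ.D τu ⊓ (Γ.D τw ⊓ (Γ.D τv ⊓ E))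
  have hF : ∀ x ∈ F, x = 1 := by
    apply star_bot Γ a F
    · intro x hx
      exact D_le_Q' ha hx.2.2.2.1
    · intro t ht y hy
      rcases hall3 t ht with rfl | rfl | rfl
      · obtain ⟨g, hg, hgy⟩ := htrans t μv τv ht hμv hμva hτv hvτ y hy
        exact ⟨g, fun x hx => hg x hx.2.2.2 hx.2.2.1, hgy⟩
      · obtain ⟨g, hg, hgy⟩ := htrans t μw τw ht hμw hμwa hτw hwτ y hy
        exact ⟨g, fun x hx => hg x hx.2.2.2 hx.2.1, hgy⟩
      · obtain ⟨g, hg, hgy⟩ := htrans t μu τu ht hμu hμua hτu huτ y hy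
        exact ⟨g, fun x hx => hg x hx.2.2.2 hx.1, hgy⟩
  have c0 := card_le_one_of_forall hF
  have fE : ∀ L : Subgroup G, L ≤ E → Finite L := fun L hL => finSub Γ v fun x hx => (hL hx).1.1.1
  have c1 := card_le_two_of_forall _ (hhalf u μu τu hu tyu hμu hτu (Γ.D τw ⊓ (Γ.D τv ⊓ E)) (fun x hx => hx.2.2))
    (fE _ (fun x hx => hx.2.2)) c0
  have c2 := card_le_two_of_forall _ (hhalf w μw τw hw tyw hμw hτw (Γ.D τv ⊓ E) (fun x hx => hx.2))
    (fE _ (fun x hx => hx.2)) c1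
  have c3 := card_le_two_of_forall _ (hhalf v μv τv (Γ.symm ha) hv hμv hτv E le_rfl) (fE _ le_rfl) c2
  have hh4 : Half (Γ.D v ⊓ Γ.D w) (Γ.D w) := (H.pu.half_D hv ha).inf_left (D_le_Q' (Γ.symm hw))
  have c4 : Nat.card (Γ.D w) ≤ 2 * (2 * (2 * (2 * 1))) :=
    card_le_two_of_forall _ hh4 (finSub (H := Γ.D w) Γ w fun x hx => hx.1.1) c3
  have c5 := card_le_two_of_forall _ (H.pu.half_D tyw (Γ.symm hw)) (finSub (H := Γ.Q a) Γ a fun x hx => hx.1) c4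
  have c6 := card_T_le (Γ.symm ha) c5
  rw [T_comm]
  omega

end PUH

/-- **Pushing up**: the edge stabilizers have order at most 64. -/
theorem PU.card_le {π : Bool} (hPU : PU Γ π) (h : Γ.A v w) : Nat.card (T v w : Subgroup G) ≤ 64 := by
  by_cases h1 : ∃ x y, Γ.A x y ∧ Γ.Q x ≤ Γ.Q y
  · obtain ⟨x, y, hxy, hle⟩ := h1
    rw [card_T_eq h hxy]
    have := card_le_two_of_Q_le hxy hle
    omega
  by_cases h2 : ∃ x y a, Γ.ty x = π ∧ Γ.A x a ∧ Γ.A a y ∧ x ≠ y ∧ Γ.D x ≤ Γ.D y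
  · obtain ⟨x, y, a, hx, hxa, hay, hxy, hle⟩ := h2
    rw [card_T_eq h hxa]
    have := hPU.card_le_four hx hxa hay hxy hle
    omega
  by_cases h3 : ∃ x, Γ.ty x = π ∧ ∃ g : G, g • x = x ∧ (∀ n ∈ Γ.D x, g * n = n * g) ∧ g ∉ Γ.Q x
  · obtain ⟨x, hx, hg⟩ := h3
    obtain ⟨a, ha⟩ := ex_adj Γ x
    rw [card_T_eq h ha]
    have := hPU.card_le_of_cent hx ha hg
    omega
  by_cases h4 : ∃ x, Γ.ty x ≠ π ∧ ∀ y ∈ Γ.Q x, y = 1
  · obtain ⟨x, -, hx⟩ := h4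
    obtain ⟨a, ha⟩ := ex_adj Γ x
    rw [card_T_eq h ha]
    have := card_T_le ha (card_le_one_of_forall hx)
    omega
  push Not at h1 h2 h3 h4
  have H : PUH Γ π := ⟨hPU, fun x hx g hg hc => h3 x hx g hg hc, h4, h1, fun x y a hx ha hy hxy => h2 x y a hx ha hy hxy⟩
  -- a vertex of type `π`
  obtain ⟨x, hx⟩ : ∃ x, Γ.ty x = π := by
    by_cases hv : Γ.ty v = π
    · exact ⟨v, hv⟩
    · exact ⟨w, H.ty_of_adj' hv h⟩
  obtain ⟨a, ha⟩ := ex_adj Γ x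
  have hne : ∃ z ∈ Γ.VV x, z ≠ 1 := by
    obtain ⟨z, hz, hz1⟩ := H.exists_OZ_Q hx ha
    exact ⟨z, OZ_le_VV ha hz, hz1⟩
  obtain ⟨n, hn0, ⟨p, hp, hty, hc⟩, hmin⟩ := exists_min (Γ := Γ) Γ.VV (fun t => t = π) x hx hne
  have hn2 := H.eq_two hmin hn0 hp hty hc
  subst hn2
  rw [card_T_eq h ha]
  refine H.card_le_of_two ?_ hx ha
  intro v w a hv hva haw hvw hle
  apply hc
  have h01 : Γ.A (p 0) (p 1) := hp.adj (k := 0) le_rfl (by norm_num)
  have h12 : Γ.A (p 1) (p 2) := hp.adj (k := 1) (by norm_num) (by norm_num)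
  have hne : p 0 ≠ p 2 := hp.ne (by norm_num) (by norm_num) (by norm_num)
  have hta : Γ.ty a = Γ.ty (p 1) := by rw [Γ.ty_adj hva, Γ.ty_adj h01, hv, hty]
  obtain ⟨g, hg1, hg2, hg3⟩ := exists_two_trans' (Γ.symm hva) haw (Γ.symm h01) h12 hvw hne hta
  intro x hx
  have h5 : g⁻¹ * x * g ∈ Γ.VV v := by
    have := conj_mem_VV hx g⁻¹
    rwa [inv_inv, ← hg2, inv_smul_smul] at this
  have h6 := hle h5
  rwa [← mem_Q_smul, hg3] at h6

end Tri

end Cfsg.Agent.H209
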