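import Cfsg.Agent.H209.TriPUTwo

/-!
# Pushing up for trivalent graphs: the first noncommuting pair is at distance two
-/

set_option autoImplicit false

namespace Cfsg.Agent.H209

open MulAction

namespace Tri

variable {G V : Type*} [Group G] [MulAction G V] {Γ : Tri G V}
variable {u v w a b c d : V} {g h : G}

namespace PUH

variable {π : Bool} (H : PUH Γ π)

include H

theorem isR_of (hv : Γ.ty v = π) (ha : Γ.A v a) {x0 y0 : G} (hx0 : x0 ∈ Γ.VV v) (hy0 : y0 ∈ Γ.Q a)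
    (hne : y0 * x0 ≠ x0 * y0) (hh : ∀ x ∈ Γ.VV v, y0 * x = x * y0 ∨ y0 * (x0 * x) = (x0 * x) * y0) :
    IsR Γ v a (x0⁻¹ * (y0 * x0 * y0⁻¹)) := by
  have hyv : y0 • v = v := Q_fix' hy0 (Γ.symm ha)
  have hcx : y0 * x0 * y0⁻¹ ∈ Γ.VV v := conj_mem_VV_of_eq hx0 hyv
  have hr : x0⁻¹ * (y0 * x0 * y0⁻¹) ∈ Γ.VV v := mul_mem (inv_mem hx0) hcx
  have hy0D : y0 ∉ Γ.D v := fun h => hne (VV_comm hx0 h).symm
  refine ⟨?_, hr, ?_, x0, hx0, y0, hy0, by group⟩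
  · intro h1
    apply hne
    calc y0 * x0 = x0 * (x0⁻¹ * (y0 * x0 * y0⁻¹)) * y0 := by group
      _ = x0 * y0 := by rw [h1, mul_one]
  · intro x hx y hy
    have hsq : y0 * y0 ∈ Γ.D v := (H.pu.half_D hv ha).2 y0 hy0 y0 hy0 hy0D hy0D
    by_cases hyD : y ∈ Γ.D v
    · left
      rw [← VV_comm hx hyD, mul_inv_cancel_right]
    · have h1 : y0 * y ∈ Γ.D v := (H.pu.half_D hv ha).2 y0 hy0 y hy hy0D hyD
      have h2 : y * x * y⁻¹ = y0 * x * y0⁻¹ := by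
        have e1 := VV_comm hx h1
        have e2 := VV_comm hx hsq
        have e3 : y * x * y⁻¹ = y0⁻¹ * ((y0 * y) * x) * (y0 * y)⁻¹ * y0 := by group
        have e4 : y0 * x * y0⁻¹ = y0⁻¹ * ((y0 * y0) * x) * (y0 * y0)⁻¹ * y0 := by group
        rw [e3, e4, ← e1, ← e2]; group
      rw [h2]
      rcases hh x hx with h3 | h3
      · left; rw [h3, mul_inv_cancel_right]
      · right
        have e1 : (y0 * x0 * y0⁻¹) * (y0 * x * y0⁻¹) = x0 * x := by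
          calc (y0 * x0 * y0⁻¹) * (y0 * x * y0⁻¹) = y0 * (x0 * x) * y0⁻¹ := by group
            _ = x0 * x := by rw [h3, mul_inv_cancel_right]
        have e2 : y0 * x * y0⁻¹ = (x0⁻¹ * (y0 * x0 * y0⁻¹))⁻¹ * x := by
          calc y0 * x * y0⁻¹ = (y0 * x0 * y0⁻¹)⁻¹ * ((y0 * x0 * y0⁻¹) * (y0 * x * y0⁻¹)) := by group
            _ = (y0 * x0 * y0⁻¹)⁻¹ * (x0 * x) := by rw [e1]
            _ = _ := by group
        rw [e2, H.VV_inv hv hr]
        exact VV_comm hr (H.VV_le_D hv hx)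

variable {n : ℤ} (hmin : ∀ (p : ℤ → V) (i j : ℤ), i ≤ j → Γ.Arc p i j → Γ.ty (p i) = π → j - i < n →
    Γ.VV (p i) ≤ Γ.Q (p j))

include hmin

theorem two_le {p : ℤ → V} (hn : 0 ≤ n) (hp : Γ.Arc p 0 n) (hty : Γ.ty (p 0) = π) (hc : ¬ Γ.VV (p 0) ≤ Γ.Q (p n)) :
    2 ≤ n := by
  by_contra hcon
  have h1 : n = 0 ∨ n = 1 := by omega
  rcases h1 with rfl | rfl
  · exact hc ((H.VV_le_D hty).trans D_le_Q)
  · have := hp.adj (k := 0) le_rfl (by omega)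
    exact hc ((H.VV_le_D hty).trans (D_le_Q' this))

theorem ty_end {p : ℤ → V} {i j : ℤ} (hij : j = i + n) (hn : 2 ≤ n) (hp : Γ.Arc p i j) (hty : Γ.ty (p i) = π)
    (hc : ¬ Γ.VV (p i) ≤ Γ.Q (p j)) : Γ.ty (p j) = π := by
  by_contra hcon
  apply hc
  have h1 : Γ.A (p j) (p (j - 1)) := hp.adj' (by omega) le_rfl
  have h2 : Γ.A (p (j - 1)) (p (j - 1 - 1)) := hp.adj' (by omega) (by omega)
  have h3 : Γ.ty (p (j - 1)) = π := H.ty_of_adj' hcon h1
  have h4 := hmin p i (j - 1) (by omega) (hp.sub le_rfl (by omega)) hty (by omega)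
  have h5 := hmin p i (j - 1 - 1) (by omega) (hp.sub le_rfl (by omega)) hty (by omega)
  intro x hx
  exact D_le_Q' (Γ.symm h1) (H.pu.mem_D h3 h2 (h4 hx) (h5 hx))

/-- commutators in a critical pair -/
theorem crit_comm {p : ℤ → V} {i j : ℤ} (hij : j = i + n) (hn : 2 ≤ n) (hp : Γ.Arc p i j)
    (hty : Γ.ty (p i) = π) (hc : ¬ Γ.VV (p i) ≤ Γ.Q (p j)) :
    ∃ r y, IsR Γ (p i) (p (i + 1)) r ∧ IsR Γ (p j) (p (j - 1)) r ∧ y ∈ Γ.VV (p j) ∧ y ∉ Γ.D (p i) ∧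
      y ∈ Γ.Q (p (i + 1)) := by
  have hty' := H.ty_end hmin hij hn hp hty hc
  obtain ⟨x0, hx0, hx0Q⟩ := Set.not_subset.1 hc
  have hadj : Γ.A (p i) (p (i + 1)) := hp.adj le_rfl (by omega)
  have hadj' : Γ.A (p j) (p (j - 1)) := hp.adj' (by omega) le_rfl
  have h1 : Γ.VV (p i) ≤ Γ.Q (p (j - 1)) :=
    hmin p i (j - 1) (by omega) (hp.sub le_rfl (by omega)) hty (by omega)
  have h2 : Γ.VV (p j) ≤ Γ.Q (p (i + 1)) := by
    have := hmin (fun k => p (i + j - k)) i (j - 1) (by omega)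
      (((hp.rev (i + j)).sub (by omega) (by omega))) (by simpa using hty') (by omega)
    have e1 : i + j - i = j := by ring
    have e2 : i + j - (j - 1) = i + 1 := by ring
    simp only [e1, e2] at this
    exact this
  have hxj : x0 • p j = p j := Q_fix' (h1 hx0) (Γ.symm hadj')
  obtain ⟨y0, hy0, hne⟩ : ∃ y ∈ Γ.VV (p j), x0 * y ≠ y * x0 := by
    by_contra hcon
    push Not at hcon
    exact hx0Q (H.mem_Q_of_comm hty' hxj hcon)
  have hx0D : x0 ∉ Γ.D (p j) := fun h => hne (VV_comm hy0 h).symm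
  have hy0D : y0 ∉ Γ.D (p i) := fun h => hne (VV_comm hx0 h)
  have r1 : IsR Γ (p i) (p (i + 1)) (x0⁻¹ * (y0 * x0 * y0⁻¹)) := by
    apply H.isR_of hty hadj hx0 (h2 hy0) (Ne.symm hne)
    intro x hx
    by_cases hxD : x ∈ Γ.D (p j)
    · left; exact VV_comm hy0 hxD
    · right
      exact VV_comm hy0 ((H.pu.half_D hty' hadj').2 x0 (h1 hx0) x (h1 hx) hx0D hxD)
  have r2 : IsR Γ (p j) (p (j - 1)) (y0⁻¹ * (x0 * y0 * x0⁻¹)) := by
    apply H.isR_of hty' hadj' hy0 (h1 hx0) hne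
    intro x hx
    by_cases hxD : x ∈ Γ.D (p i)
    · left; exact VV_comm hx0 hxD
    · right
      exact VV_comm hx0 ((H.pu.half_D hty hadj).2 y0 (h2 hy0) x (h2 hx) hy0D hxD)
  have e : y0⁻¹ * (x0 * y0 * x0⁻¹) = x0⁻¹ * (y0 * x0 * y0⁻¹) := by
    have e1 : x0⁻¹ = x0 := H.VV_inv hty hx0
    have e2 : y0⁻¹ = y0 := H.VV_inv hty' hy0
    have e3 := H.VV_inv hty r1.2.1
    rw [← e3, mul_inv_rev, mul_inv_rev, mul_inv_rev, inv_inv, inv_inv, e1, e2]
    group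
  rw [e] at r2
  exact ⟨_, y0, r1, r2, hy0, hy0D, h2 hy0⟩

/-- a critical pair cannot be shifted to a noncritical one -/
theorem no_noncrit {q : ℤ → V} (hn : 4 ≤ n) (hq : Γ.Arc q (-2) n) (hty : Γ.ty (q 0) = π)
    (hc : ¬ Γ.VV (q 0) ≤ Γ.Q (q n)) (hnc : Γ.VV (q (-2)) ≤ Γ.Q (q (n - 2))) : False := by
  obtain ⟨r, y0, r1, r2, hy0, hy0D, hy1⟩ := H.crit_comm hmin (by ring) (by omega) (hq.sub (by omega) le_rfl) hty hc
  simp only [zero_add] at r1 hy1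
  have hty2 : Γ.ty (q (-2)) = π := by
    rw [← hty]; exact (hq.ty_two (k := -2) (l := 0) le_rfl (by omega) (by ring)).symm
  have htyn : Γ.ty (q n) = π := H.ty_end hmin (by ring) (by omega) (hq.sub (by omega) le_rfl) hty hc
  have htyn2 : Γ.ty (q (n - 2)) = π := by
    rw [← htyn]; exact (hq.ty_two (k := n - 2) (l := n) (by omega) le_rfl (by ring)).symm
  have hadj1 : Γ.A (q 0) (q 1) := hq.adj (k := 0) (by omega) (by omega)
  have hadjm : Γ.A (q 0) (q (-1)) := hq.adj' (k := 0) (by omega) (by omega)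
  have hadjm2 : Γ.A (q (-1)) (q (-2)) := hq.adj' (k := -1) (by omega) (by omega)
  have hy0v : y0 • q 0 = q 0 := Q_fix' hy1 (Γ.symm hadj1)
  have hy0Q : y0 ∉ Γ.Q (q 0) := fun h => hy0D (H.pu.mem_D hty hadj1 h hy1)
  have hy0i : y0⁻¹ = y0 := H.VV_inv htyn hy0
  -- `N`
  set N : Subgroup G := Γ.VV (q (-2)) ⊔ Γ.VV (q 0) with hNdef
  have hN1 : Γ.VV (q (-2)) ≤ N := le_sup_left
  have hN2 : Γ.VV (q 0) ≤ N := le_sup_right
  have hNm : ∀ g : G, (∀ x ∈ Γ.VV (q (-2)), g * x * g⁻¹ ∈ N) → (∀ x ∈ Γ.VV (q 0), g * x * g⁻¹ ∈ N) →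
      ∀ x ∈ N, g * x * g⁻¹ ∈ N := by
    intro g h1 h2 x hx
    have h3 : N ≤ N.comap (MulAut.conj g).toMonoidHom := by
      rw [hNdef, sup_le_iff]
      exact ⟨fun x hx => h1 x hx, fun x hx => h2 x hx⟩
    exact h3 hx
  -- `y0` normalises `N`
  have hy0N : ∀ x ∈ N, y0 * x * y0⁻¹ ∈ N := by
    apply hNm
    · intro x hx
      have h3 : Γ.VV (q (-2)) ≤ Γ.Q (q (n - 3)) := hmin q (-2) (n - 3) (by omega) (hq.sub le_rfl (by omega)) hty2 (by omega)
      have hadjn : Γ.A (q (n - 2)) (q (n - 3)) := by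
        have := hq.adj' (k := n - 2) (by omega) (by omega)
        have e : n - 2 - 1 = n - 3 := by ring
        rwa [e] at this
      have hadjn' : Γ.A (q (n - 2)) (q (n - 1)) := by
        have := hq.adj (k := n - 2) (by omega) (by omega)
        have e : n - 2 + 1 = n - 1 := by ring
        rwa [e] at this
      have h4 : x ∈ Γ.Q (q (n - 1)) := D_le_Q' hadjn' (H.pu.mem_D htyn2 hadjn (hnc hx) (h3 hx))
      rcases r2.2.2.1 y0 hy0 x h4 with h5 | h5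
      · have : y0 * x * y0⁻¹ = x := by
          calc y0 * x * y0⁻¹ = (x * y0 * x⁻¹) * x * y0⁻¹ := by rw [h5]
            _ = x := by group
        rw [this]; exact hN1 hx
      · have : y0 * x * y0⁻¹ = r * x := by
          have e : y0 * r * x = x * y0 := by rw [← h5]; group
          calc y0 * x * y0⁻¹ = y0 * x * y0 := by rw [hy0i]
            _ = y0 * (x * y0) := by group
            _ = y0 * (y0 * r * x) := by rw [e]
            _ = (y0 * y0) * (r * x) := by group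
            _ = r * x := by rw [H.VV_sq htyn hy0, one_mul]
        rw [this]
        exact mul_mem (hN2 r1.2.1) (hN1 hx)
    · intro x hx
      exact hN2 (conj_mem_VV_of_eq hx hy0v)
  have hQm : ∀ z ∈ Γ.Q (q (-1)), ∀ x ∈ N, z * x * z⁻¹ ∈ N := by
    intro z hz
    apply hNm
    · intro x hx; exact hN1 (conj_mem_VV_of_eq hx (Q_fix' hz hadjm2))
    · intro x hx; exact hN2 (conj_mem_VV_of_eq hx (Q_fix' hz (Γ.symm hadjm)))
  have hQ1 : ∀ z ∈ Γ.Q (q 1), ∀ x ∈ N, z * x * z⁻¹ ∈ N := by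
    intro z hz x hx
    by_cases hzD : z ∈ Γ.D (q 0)
    · exact hQm z (D_le_Q' hadjm hzD) x hx
    · have h1 := (H.pu.half_D hty hadj1).2 y0 hy1 z hz hy0D hzD
      have h2 := hQm _ (D_le_Q' hadjm h1) x hx
      have h3 := hy0N _ h2
      have e : y0 * (y0 * z * x * (y0 * z)⁻¹) * y0⁻¹ = z * x * z⁻¹ := by
        have e1 : y0 * y0 = 1 := H.VV_sq htyn hy0
        calc y0 * (y0 * z * x * (y0 * z)⁻¹) * y0⁻¹ = (y0 * y0) * (z * x * z⁻¹) * (y0 * y0)⁻¹ := by group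
          _ = z * x * z⁻¹ := by rw [e1]; group
      rwa [e] at h3
  have hne1 : q (-1) ≠ q 1 := hq.ne (by omega) (by omega) (by ring)
  have hall : ∀ a, Γ.A (q 0) a → ∀ z ∈ Γ.Q a, ∀ x ∈ N, z * x * z⁻¹ ∈ N := by
    intro a ha z hz x hx
    by_cases h1 : a = q 1
    · subst h1; exact hQ1 z hz x hx
    by_cases h2 : a = q (-1)
    · subst h2; exact hQm z hz x hx
    have h3 := swap_of_not_mem hy0v hadj1 hadjm ha hne1.symm (Ne.symm h1) (Ne.symm h2) hy1.1 hy0Q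
    rw [← h3.1, mem_Q_smul] at hz
    have h4 := hy0N _ hx
    have h5 := hQm _ hz _ h4
    have h6 := hy0N _ h5
    have e1 : y0 * y0 = 1 := H.VV_sq htyn hy0
    have e : y0 * (y0⁻¹ * z * y0 * (y0 * x * y0⁻¹) * (y0⁻¹ * z * y0)⁻¹) * y0⁻¹
        = z * x * z⁻¹ := by
      calc y0 * (y0⁻¹ * z * y0 * (y0 * x * y0⁻¹) * (y0⁻¹ * z * y0)⁻¹) * y0⁻¹
          = z * (y0 * y0) * x * (y0 * y0)⁻¹ * z⁻¹ := by group
        _ = z * x * z⁻¹ := by rw [e1]; group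
    rwa [e] at h6
  -- transport
  have hne2 : q 0 ≠ q (-2) := hq.ne' (by omega) (by omega) (by ring)
  have htr : ∀ v w a : V, Γ.A v a → Γ.A w a → v ≠ w → Γ.ty v = π → ∀ c, Γ.A v c → ∀ z ∈ Γ.Q c,
      ∀ x ∈ Γ.VV w, z * x * z⁻¹ ∈ Γ.VV w ⊔ Γ.VV v := by
    intro v w a hva hwa hvw hvty c hc z hz x hx
    have hta : Γ.ty (q (-1)) = Γ.ty a := by rw [Γ.ty_adj hadjm, Γ.ty_adj hva, hty, hvty]
    obtain ⟨k, hk1, hk2, hk3⟩ := exists_two_trans' (Γ.symm hadjm) hadjm2 (Γ.symm hva) (Γ.symm hwa) hne2 hvw hta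
    have h1 : k⁻¹ * x * k ∈ Γ.VV (q (-2)) := by
      have := conj_mem_VV hx k⁻¹
      rwa [inv_inv, ← hk3, inv_smul_smul] at this
    have h2 : Γ.A (q 0) (k⁻¹ • c) := by
      have := Γ.smul k⁻¹ hc
      rwa [← hk2, inv_smul_smul] at this
    have h3 : k⁻¹ * z * k ∈ Γ.Q (k⁻¹ • c) := by
      have := conj_mem_Q hz k⁻¹
      rwa [inv_inv] at this
    have h4 := hall _ h2 _ h3 _ (hN1 h1)
    have h5 : N ≤ (Γ.VV w ⊔ Γ.VV v).comap (MulAut.conj k).toMonoidHom := by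
      rw [hNdef, sup_le_iff]
      constructor
      · intro x hx
        exact (le_sup_left : Γ.VV w ≤ Γ.VV w ⊔ Γ.VV v) (conj_mem_VV_of_eq hx hk3)
      · intro x hx
        exact (le_sup_right : Γ.VV v ≤ Γ.VV w ⊔ Γ.VV v) (conj_mem_VV_of_eq hx hk2)
    have h6 : k * (k⁻¹ * z * k * (k⁻¹ * x * k) * (k⁻¹ * z * k)⁻¹) * k⁻¹ ∈ Γ.VV w ⊔ Γ.VV v := h5 h4
    have e : k * (k⁻¹ * z * k * (k⁻¹ * x * k) * (k⁻¹ * z * k)⁻¹) * k⁻¹ = z * x * z⁻¹ := by group
    rwa [e] at h6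
  -- the contradiction
  let U : Subgroup G := Subgroup.closure {x | ∃ w, Γ.A (q 1) w ∧ x ∈ Γ.VV w}
  have hty1 : Γ.ty (q 1) ≠ π := H.ty_of_adj hty hadj1
  have hU1 : ∀ w, Γ.A (q 1) w → Γ.VV w ≤ U := fun w hw x hx => Subgroup.subset_closure ⟨w, hw, hx⟩
  have hUQ : U ≤ Γ.Q (q 1) := by
    show Subgroup.closure _ ≤ _
    rw [Subgroup.closure_le]
    rintro x ⟨w, hw, hx⟩
    exact D_le_Q' (Γ.symm hw) (H.VV_le_D (H.ty_of_adj' hty1 hw) hx)
  have hUm : ∀ c, Γ.A (q 0) c → ∀ z ∈ Γ.Q c, ∀ x ∈ U, z * x * z⁻¹ ∈ U := by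
    intro c hc z hz x hx
    refine conj_mem_closure z ?_ hx
    rintro y ⟨w, hw, hy⟩
    by_cases hwv : q 0 = w
    · subst hwv
      exact hU1 _ hw (conj_mem_VV_of_eq hy (Q_fix' hz (Γ.symm hc)))
    · have h1 := htr (q 0) w (q 1) hadj1 (Γ.symm hw) hwv hty c hc z hz y hy
      exact (sup_le (hU1 w hw) (hU1 _ (Γ.symm hadj1))) h1
  have hbot : ∀ x ∈ U, x = 1 := by
    apply edge_bot Γ hadj1 U
    · intro x hx
      exact ⟨Q_fix' (hUQ hx) (Γ.symm hadj1), (hUQ hx).1⟩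
    · intro c hc
      by_cases hc1 : q 1 = c
      · exact ⟨1, fun n hn => by simpa using hn, by rw [one_smul, hc1]⟩
      · obtain ⟨b, hb, hb1, hbc, -⟩ := exists_third hadj1 hc hc1
        obtain ⟨z, hz, hzv⟩ := Set.not_subset.1 (H.nle b (q 0) (Γ.symm hb))
        have h1 := swap_of_not_mem (Q_fix' hz (Γ.symm hb)) hb hadj1 hc hb1 hbc hc1 hz.1 hzv
        refine ⟨z, fun n hn => ?_, h1.1⟩
        have := hUm b hb z⁻¹ (inv_mem hz) n hn
        rwa [inv_inv] at this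
    · intro w hw
      obtain ⟨k, hk1, hk2⟩ := exists_trans (Γ.symm hadj1) hw
      refine ⟨k, fun n hn => ?_, hk2⟩
      have : k⁻¹ * n * k⁻¹⁻¹ ∈ U := by
        refine conj_mem_closure k⁻¹ ?_ hn
        rintro y ⟨x, hx, hy⟩
        exact hU1 _ (A_of_fix (inv_fix hk1) hx) (conj_mem_VV hy k⁻¹)
      rwa [inv_inv] at this
  exact r1.1 (hbot r (hU1 _ (Γ.symm hadj1) r1.2.1))

/-- the minimal distance is two -/
theorem eq_two {p : ℤ → V} (hn : 0 ≤ n) (hp : Γ.Arc p 0 n) (hty : Γ.ty (p 0) = π)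
    (hc : ¬ Γ.VV (p 0) ≤ Γ.Q (p n)) : n = 2 := by
  have h2 := H.two_le hmin hn hp hty hc
  by_contra hne
  have htyn := H.ty_end hmin (by ring) h2 hp hty hc
  have h3 : n ≠ 3 := by
    rintro rfl
    have := hp.ty_odd (k := 0) (l := 3) le_rfl (by omega) (by omega) le_rfl (by norm_num)
    rw [htyn, hty] at this
    cases π <;> simp at this
  have h4 : 4 ≤ n := by omega
  -- extend to the left by one step
  obtain ⟨a, ha, hane⟩ := exists_ne (hp.adj (k := 0) le_rfl (by omega))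
  obtain ⟨q, hq, hqa, hqk⟩ := hp.exists_cons ha (fun _ => by simpa using hane)
  simp only [zero_sub] at hq hqa
  have e0 : q 0 = p 0 := hqk 0 (by omega)
  have en : q n = p n := hqk n (by omega)
  have e1 : q 1 = p 1 := hqk 1 (by omega)
  have hadj0 : Γ.A (q (-1)) (q 0) := hq.adj (k := -1) le_rfl (by omega)
  obtain ⟨b, c, hb, hc', hb0, hc0, hbc, hall⟩ := exists_others hadj0
  -- both extensions are critical
  have key : ∀ x, Γ.A (q (-1)) x → x ≠ q 0 → ∃ r, IsR Γ x (q (-1)) r ∧ IsR Γ (q (n - 2)) (q (n - 3)) r := by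
    intro x hx hx0
    obtain ⟨s, hs, hsx, hsk⟩ := hq.exists_cons hx (fun _ => by simpa using hx0)
    have e : (-1 : ℤ) - 1 = -2 := by norm_num
    rw [e] at hs hsx
    have f0 : s 0 = p 0 := by rw [hsk 0 (by omega), e0]
    have fn : s n = p n := by rw [hsk n (by omega), en]
    have f2 : s (n - 2) = q (n - 2) := hsk _ (by omega)
    have f3 : s (n - 3) = q (n - 3) := hsk _ (by omega)
    have f1 : s (-1) = q (-1) := hsk _ (by omega)
    have hcr : ¬ Γ.VV (s (-2)) ≤ Γ.Q (s (n - 2)) := by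
      intro hnc
      exact H.no_noncrit hmin h4 hs (by rw [f0]; exact hty) (by rw [f0, fn]; exact hc) hnc
    have hty2 : Γ.ty (s (-2)) = π := by
      rw [← hty, ← f0]; exact (hs.ty_two (k := -2) (l := 0) le_rfl (by omega) (by ring)).symm
    obtain ⟨r, -, r1, r2, -⟩ := H.crit_comm hmin (i := -2) (j := n - 2) (by ring) (by omega)
      (hs.sub le_rfl (by omega)) hty2 hcr
    refine ⟨r, ?_, ?_⟩
    · have e' : (-2 : ℤ) + 1 = -1 := by norm_num
      rwa [e', hsx, f1] at r1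
    · have e' : n - 2 - 1 = n - 3 := by ring
      rwa [e', f2, f3] at r2
  obtain ⟨r, rb1, rb2⟩ := key b hb hb0
  obtain ⟨r', rc1, rc2⟩ := key c hc' hc0
  have hrr : r' = r := rc2.unique rb2
  subst hrr
  -- the same `r` for `q 0`
  obtain ⟨k, hk1, hk2, hk3⟩ := exists_two_trans hb hc' hb hadj0 hbc hb0
  have h5 := rb1.conj k
  rw [hk2, hk1] at h5
  have h6 := h5.unique rb1
  have h7 := rc1.conj k
  rw [hk3, hk1, h6] at h7
  -- the contradiction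
  obtain ⟨-, y0, -, -, hy0, hy0D, hy1⟩ := H.crit_comm hmin (i := 0) (j := n) (by ring) h2 hp hty hc
  simp only [zero_add] at hy1
  have hadj1 : Γ.A (q 0) (q 1) := hq.adj (k := 0) (by omega) (by omega)
  rw [← e1] at hy1
  have hty0 : Γ.ty (q 0) = π := by rw [e0]; exact hty
  have hy0v : y0 • q 0 = q 0 := Q_fix' hy1 (Γ.symm hadj1)
  rw [← e0] at hy0D
  have hy0Q : y0 ∉ Γ.Q (q 0) := fun h => hy0D (H.pu.mem_D hty0 hadj1 h hy1)
  have hne1 : q (-1) ≠ q 1 := hq.ne (by omega) (by omega) (by ring)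
  have hmv : y0 • q (-1) ≠ q (-1) := by
    intro h
    exact hy0Q (mem_Q_of_two hy0v hadj1 (Γ.symm hadj0) hne1.symm hy1.1 h)
  have htyn2 : Γ.ty (q (n - 2)) = π := by
    rw [← htyn, ← en]; exact (hq.ty_two (k := n - 2) (l := n) (by omega) le_rfl (by ring)).symm
  have hcomm : y0 * r' = r' * y0 := by
    have h8 : Γ.VV (q (n - 2)) ≤ Γ.Q (q n) :=
      hmin q (n - 2) n (by omega) (hq.sub (by omega) le_rfl) htyn2 (by omega)
    have h9 : Γ.VV (q (n - 2)) ≤ Γ.Q (q (n - 1)) :=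
      hmin q (n - 2) (n - 1) (by omega) (hq.sub (by omega) (by omega)) htyn2 (by omega)
    have hadjn : Γ.A (q n) (q (n - 1)) := hq.adj' (by omega) le_rfl
    rw [← en] at hy0 htyn
    exact VV_comm hy0 (H.pu.mem_D htyn hadjn (h8 rb2.2.1) (h9 rb2.2.1))
  have h10 := h7.conj y0
  have e4 : y0 * r' * y0⁻¹ = r' := by rw [hcomm, mul_inv_cancel_right]
  rw [e4, hy0v] at h10
  exact H.IsR_ne hty0 (Γ.symm hadj0) (A_of_fix hy0v (Γ.symm hadj0)) hmv.symm h7 h10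

end PUH

end Tri

end Cfsg.Agent.H209
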