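import Cfsg.Agent.H209.TriPU

/-!
# Pushing up for trivalent graphs, the main argument
-/

set_option autoImplicit false

namespace Cfsg.Agent.H209

open MulAction

namespace Tri

variable {G V : Type*} [Group G] [MulAction G V] {Γ : Tri G V}
variable {u v w a b c d : V} {g h : G}

/-- `VV v = ⟨Ω₁ Z(Q a) | a ~ v⟩` -/
def VV (Γ : Tri G V) (v : V) : Subgroup G := Subgroup.closure {x | ∃ a, Γ.A v a ∧ x ∈ OZ (Γ.Q a)}

theorem OZ_le_VV (ha : Γ.A v a) : OZ (Γ.Q a) ≤ Γ.VV v := fun _ hx => Subgroup.subset_closure ⟨a, ha, hx⟩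

theorem conj_mem_OZ_Q {x : G} (hx : x ∈ OZ (Γ.Q v)) (h : G) : h * x * h⁻¹ ∈ OZ (Γ.Q (h • v)) := by
  obtain ⟨h1, h2, h3⟩ := hx
  refine ⟨conj_mem_Q h1 h, ?_, fun y hy => ?_⟩
  · calc h * x * h⁻¹ * (h * x * h⁻¹) = h * (x * x) * h⁻¹ := by group
      _ = 1 := by rw [h2]; group
  · have h4 := h3 _ (mem_Q_smul.1 hy)
    calc h * x * h⁻¹ * y = h * (x * (h⁻¹ * y * h)) * h⁻¹ := by group
      _ = h * ((h⁻¹ * y * h) * x) * h⁻¹ := by rw [h4]
      _ = y * (h * x * h⁻¹) := by group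

/-- conjugation maps a closure into a closure -/
theorem conj_mem_closure {S S' : Set G} (h : G) (hS : ∀ x ∈ S, h * x * h⁻¹ ∈ Subgroup.closure S') {x : G}
    (hx : x ∈ Subgroup.closure S) : h * x * h⁻¹ ∈ Subgroup.closure S' := by
  induction hx using Subgroup.closure_induction with
  | mem x hx => exact hS x hx
  | one => simp
  | mul x y _ _ h1 h2 =>
    have := mul_mem h1 h2
    have e : h * x * h⁻¹ * (h * y * h⁻¹) = h * (x * y) * h⁻¹ := by group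
    rwa [e] at this
  | inv x _ h1 =>
    have := inv_mem h1
    have e : (h * x * h⁻¹)⁻¹ = h * x⁻¹ * h⁻¹ := by group
    rwa [e] at this

theorem conj_mem_VV {x : G} (hx : x ∈ Γ.VV v) (h : G) : h * x * h⁻¹ ∈ Γ.VV (h • v) := by
  refine conj_mem_closure h ?_ hx
  rintro y ⟨a, ha, hy⟩
  exact Subgroup.subset_closure ⟨h • a, Γ.smul h ha, conj_mem_OZ_Q hy h⟩

theorem conj_mem_VV_of_eq {x : G} (hx : x ∈ Γ.VV v) (hh : h • v = w) : h * x * h⁻¹ ∈ Γ.VV w := by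
  have := conj_mem_VV hx h
  rwa [hh] at this

/-- the hypotheses of the main part of the pushing up argument -/
structure PUH (Γ : Tri G V) (π : Bool) : Prop where
  pu : PU Γ π
  cent : ∀ v, Γ.ty v = π → ∀ g : G, g • v = v → (∀ d ∈ Γ.D v, g * d = d * g) → g ∈ Γ.Q v
  ne : ∀ v, Γ.ty v ≠ π → ∃ x ∈ Γ.Q v, x ≠ 1
  nle : ∀ v w, Γ.A v w → ¬ Γ.Q v ≤ Γ.Q w
  dne : ∀ v w a, Γ.ty v = π → Γ.A v a → Γ.A a w → v ≠ w → ¬ Γ.D v ≤ Γ.D w

/-- `r` is the generator of `[VV v, Q a]` -/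
def IsR (Γ : Tri G V) (v a : V) (r : G) : Prop :=
  r ≠ 1 ∧ r ∈ Γ.VV v ∧ (∀ x ∈ Γ.VV v, ∀ y ∈ Γ.Q a, y * x * y⁻¹ = x ∨ y * x * y⁻¹ = x * r) ∧
    ∃ x ∈ Γ.VV v, ∃ y ∈ Γ.Q a, y * x * y⁻¹ = x * r

theorem IsR.unique {r r' : G} (h1 : IsR Γ v a r) (h2 : IsR Γ v a r') : r = r' := by
  obtain ⟨x, hx, y, hy, e⟩ := h2.2.2.2
  rcases h1.2.2.1 x hx y hy with h | h
  · rw [h] at e
    exact absurd (mul_eq_left.1 e.symm) h2.1
  · rw [h] at e
    exact mul_left_cancel e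

theorem IsR.conj {r : G} (h : IsR Γ v a r) (g : G) : IsR Γ (g • v) (g • a) (g * r * g⁻¹) := by
  obtain ⟨h1, h2, h3, x, hx, y, hy, e⟩ := h
  refine ⟨?_, conj_mem_VV h2 g, ?_, g * x * g⁻¹, conj_mem_VV hx g, g * y * g⁻¹, conj_mem_Q hy g, ?_⟩
  · intro h4
    apply h1
    have : r = g⁻¹ * (g * r * g⁻¹) * g := by group
    rw [this, h4]; group
  · intro x hx y hy
    have h5 : g⁻¹ * x * g ∈ Γ.VV v := by
      have := conj_mem_VV hx g⁻¹
      rwa [inv_inv, inv_smul_smul] at this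
    rcases h3 _ h5 _ (mem_Q_smul.1 hy) with h6 | h6
    · left
      calc y * x * y⁻¹ = g * ((g⁻¹ * y * g) * (g⁻¹ * x * g) * (g⁻¹ * y * g)⁻¹) * g⁻¹ := by group
        _ = x := by rw [h6]; group
    · right
      calc y * x * y⁻¹ = g * ((g⁻¹ * y * g) * (g⁻¹ * x * g) * (g⁻¹ * y * g)⁻¹) * g⁻¹ := by group
        _ = x * (g * r * g⁻¹) := by rw [h6]; group
  · calc g * y * g⁻¹ * (g * x * g⁻¹) * (g * y * g⁻¹)⁻¹ = g * (y * x * y⁻¹) * g⁻¹ := by group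
      _ = g * x * g⁻¹ * (g * r * g⁻¹) := by rw [e]; group

namespace PUH

variable {π : Bool} (H : PUH Γ π)

include H

theorem ty_of_adj (hv : Γ.ty v = π) (ha : Γ.A v a) : Γ.ty a ≠ π := by
  rw [Γ.ty_adj ha, hv]; cases π <;> simp

theorem ty_of_adj' (hv : Γ.ty v ≠ π) (ha : Γ.A v a) : Γ.ty a = π := by
  rw [Γ.ty_adj ha]; cases hvt : Γ.ty v <;> cases π <;> simp_all

theorem exists_OZ_Q (hv : Γ.ty v = π) (ha : Γ.A v a) : ∃ z ∈ OZ (Γ.Q a), z ≠ 1 := by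
  apply exists_OZ (finSub (H := Γ.Q a) Γ a fun x hx => hx.1) (isPGroup_of_le (Γ.symm ha) (Q_le_T (Γ.symm ha)))
  exact H.ne a (H.ty_of_adj hv ha)

theorem OZ_le_D (hv : Γ.ty v = π) (ha : Γ.A v a) : OZ (Γ.Q a) ≤ Γ.D v := by
  intro x hx
  have h1 : x ∈ Γ.Q v := by
    apply H.cent v hv x (Q_fix' hx.1 (Γ.symm ha))
    intro d hd
    exact hx.2.2 d (D_le_Q' ha hd)
  exact H.pu.mem_D hv ha h1 hx.1

theorem VV_le_D (hv : Γ.ty v = π) : Γ.VV v ≤ Γ.D v := by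
  unfold VV
  rw [Subgroup.closure_le]
  rintro x ⟨a, ha, hx⟩
  exact H.OZ_le_D hv ha hx

omit H in
theorem VV_comm {x d : G} (hx : x ∈ Γ.VV v) (hd : d ∈ Γ.D v) : x * d = d * x := by
  unfold VV at hx
  induction hx using Subgroup.closure_induction with
  | mem x hx =>
    obtain ⟨a, ha, hx⟩ := hx
    exact hx.2.2 d (D_le_Q' ha hd)
  | one => simp
  | mul x y _ _ h1 h2 => rw [mul_assoc, h2, ← mul_assoc, h1, mul_assoc]
  | inv x _ h1 =>
    calc x⁻¹ * d = x⁻¹ * (d * x) * x⁻¹ := by group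
      _ = x⁻¹ * (x * d) * x⁻¹ := by rw [h1]
      _ = d * x⁻¹ := by group

theorem VV_sq (hv : Γ.ty v = π) {x : G} (hx : x ∈ Γ.VV v) : x * x = 1 := by
  have hx' := hx
  unfold VV at hx
  induction hx using Subgroup.closure_induction with
  | mem x hx =>
    obtain ⟨a, ha, hx⟩ := hx
    exact hx.2.1
  | one => simp
  | mul x y hx hy h1 h2 =>
    have h3 := VV_comm hy (H.VV_le_D hv hx)
    calc x * y * (x * y) = x * (y * x) * y := by group
      _ = (x * x) * (y * y) := by rw [h3]; group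
      _ = 1 := by rw [h1 hx, h2 hy, one_mul]
  | inv x hx h1 =>
    have h1' := h1 hx
    rw [← mul_inv_rev, h1', inv_one]

theorem VV_inv (hv : Γ.ty v = π) {x : G} (hx : x ∈ Γ.VV v) : x⁻¹ = x :=
  inv_eq_of_mul_eq_one_left (H.VV_sq hv hx)

/-- the centraliser of `VV v` -/
theorem mem_Q_of_comm (hv : Γ.ty v = π) (hg : g • v = v) (hc : ∀ x ∈ Γ.VV v, g * x = x * g) : g ∈ Γ.Q v := by
  by_contra hgQ
  obtain ⟨a, -, -, ha, -⟩ := Γ.three v
  have key : ∀ z ∈ OZ (Γ.Q a), z = 1 := by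
    apply edge_cent_bot Γ (Γ.symm ha) (OZ (Γ.Q a))
    · intro n hn
      exact ⟨hn.1.1, Q_fix' hn.1 (Γ.symm ha)⟩
    · intro k hk n hn
      have := conj_mem_OZ_Q hn k
      rwa [hk] at this
    · intro x hx
      obtain ⟨k, -, hk2, hk3⟩ := cent_trans (N := Γ.VV v) (fun k hk n hn => conj_mem_VV_of_eq hn hk)
        ⟨g, hg, hc, hgQ⟩ ha hx
      exact ⟨k, fun n hn => hk2 n (OZ_le_VV ha hn), hk3⟩
  obtain ⟨z, hz, hz1⟩ := H.exists_OZ_Q hv ha
  exact hz1 (key z hz)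

theorem mem_D_of_comm (hv : Γ.ty v = π) (ha : Γ.A v a) (hg : g ∈ Γ.Q a) (hc : ∀ x ∈ Γ.VV v, g * x = x * g) :
    g ∈ Γ.D v :=
  H.pu.mem_D hv ha (H.mem_Q_of_comm hv (Q_fix' hg (Γ.symm ha)) hc) hg

/-- `[VV v, Q a] ≠ [VV v, Q b]` -/
theorem IsR_ne (hv : Γ.ty v = π) (ha : Γ.A v a) (hb : Γ.A v b) (hab : a ≠ b) {r : G} (h1 : IsR Γ v a r)
    (h2 : IsR Γ v b r) : False := by
  obtain ⟨y, hy, hyv⟩ := Set.not_subset.1 (H.nle a v (Γ.symm ha))
  obtain ⟨z, hz, hzv⟩ := Set.not_subset.1 (H.nle b v (Γ.symm hb))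
  obtain ⟨c, hc, hca, hcb, -⟩ := exists_third ha hb hab
  have ey := swap_of_not_mem (Q_fix' hy (Γ.symm ha)) ha hb hc hab hca.symm hcb.symm hy.1 hyv
  have ez := swap_of_not_mem (Q_fix' hz (Γ.symm hb)) hb ha hc hab.symm hcb.symm hca.symm hz.1 hzv
  have hrr : r * r = 1 := H.VV_sq hv h1.2.1
  have cy : y * r * y⁻¹ = r := by
    rcases h1.2.2.1 r h1.2.1 y hy with h | h
    · exact h
    · rw [hrr] at h
      exact absurd (by calc r = y⁻¹ * (y * r * y⁻¹) * y := by group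
                         _ = 1 := by rw [h]; group) h1.1
  have cz : z * r * z⁻¹ = r := by
    rcases h2.2.2.1 r h1.2.1 z hz with h | h
    · exact h
    · rw [hrr] at h
      exact absurd (by calc r = z⁻¹ * (z * r * z⁻¹) * z := by group
                         _ = 1 := by rw [h]; group) h1.1
  -- `(y z)` acts by `x ↦ x` or `x r`
  have h3 : ∀ x ∈ Γ.VV v, (y * z) * x * (y * z)⁻¹ = x ∨ (y * z) * x * (y * z)⁻¹ = x * r := by
    intro x hx
    have e : (y * z) * x * (y * z)⁻¹ = y * (z * x * z⁻¹) * y⁻¹ := by group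
    rw [e]
    rcases h2.2.2.1 x hx z hz with h | h
    · rw [h]; exact h1.2.2.1 x hx y hy
    · rw [h]
      have e2 : y * (x * r) * y⁻¹ = (y * x * y⁻¹) * (y * r * y⁻¹) := by group
      rw [e2, cy]
      rcases h1.2.2.1 x hx y hy with h' | h'
      · right; rw [h']
      · left; rw [h', mul_assoc, hrr, mul_one]
  have h3r : (y * z) * r * (y * z)⁻¹ = r := by
    calc (y * z) * r * (y * z)⁻¹ = y * (z * r * z⁻¹) * y⁻¹ := by group
      _ = r := by rw [cz, cy]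
  have h4 : ∀ x ∈ Γ.VV v, (y * z * (y * z)) * x = x * (y * z * (y * z)) := by
    intro x hx
    have e : (y * z * (y * z)) * x * (y * z * (y * z))⁻¹ = (y * z) * ((y * z) * x * (y * z)⁻¹) * (y * z)⁻¹ := by group
    have h5 : (y * z * (y * z)) * x * (y * z * (y * z))⁻¹ = x := by
      rw [e]
      rcases h3 x hx with h | h
      · rw [h, h]
      · rw [h]
        have e2 : (y * z) * (x * r) * (y * z)⁻¹ = ((y * z) * x * (y * z)⁻¹) * ((y * z) * r * (y * z)⁻¹) := by group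
        rw [e2, h3r, h, mul_assoc, hrr, mul_one]
    calc (y * z * (y * z)) * x = ((y * z * (y * z)) * x * (y * z * (y * z))⁻¹) * (y * z * (y * z)) := by group
      _ = x * (y * z * (y * z)) := by rw [h5]
  have hyv' : y • v = v := Q_fix' hy (Γ.symm ha)
  have hzv' : z • v = v := Q_fix' hz (Γ.symm hb)
  have h5 := H.mem_Q_of_comm hv (mul_fix (mul_fix hyv' hzv') (mul_fix hyv' hzv')) h4
  have h6 := Q_fix' h5 ha
  rw [mul_smul, mul_smul, mul_smul, ez.1, ey.2, hz.1, ey.1] at h6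
  exact hca h6

end PUH

end Tri

end Cfsg.Agent.H209
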