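import Cfsg.Agent.H209.TriCBOddTwo

/-!
# An element normalised modulo `r p` and modulo `r q` with `p`, `q` at distance four is trivial
-/

set_option autoImplicit false

namespace Cfsg.Agent.H209

open MulAction

namespace Tri

variable {G V : Type*} [Group G] [MulAction G V] {Γ : Tri G V}
variable {u v w a b c d l m s : V} {g h t x y z : G} {τ : Bool}

section YC

variable {r : V → G}

theorem YC.comm_mul (R : Pts Γ τ r) {p : V} (hp : Γ.ty p = τ) (hY : YC r p y) (hg : g • p = p) (hh : h • p = p)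
    (h1 : g * y ≠ y * g) (h2 : h * y ≠ y * h) : g * h * y = y * (g * h) := by
  rcases hY g hg with e1 | e1
  · exact absurd (by calc g * y = (g * y * g⁻¹) * g := by group
                       _ = y * g := by rw [e1]) h1
  rcases hY h hh with e2 | e2
  · exact absurd (by calc h * y = (h * y * h⁻¹) * h := by group
                       _ = y * h := by rw [e2]) h2
  have hz := R.comm hp hg
  calc g * h * y = g * (h * y * h⁻¹) * h := by group
    _ = g * (y * r p) * h := by rw [e2]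
    _ = (g * y * g⁻¹) * (g * r p) * h := by group
    _ = y * r p * (r p * g) * h := by rw [e1, hz]
    _ = y * (r p * r p) * (g * h) := by group
    _ = y * (g * h) := by rw [R.sq p hp, mul_one]

theorem YC.comm_conj (R : Pts Γ τ r) {p : V} (hp : Γ.ty p = τ) (hY : YC r p y) (hg : g • p = p) (hh : h • p = p)
    (h1 : h * y = y * h) : (g * h * g⁻¹) * y = y * (g * h * g⁻¹) := by
  have hz := R.comm hp hh
  have key : h * (g⁻¹ * y * g⁻¹⁻¹) = (g⁻¹ * y * g⁻¹⁻¹) * h := by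
    rcases hY g⁻¹ (inv_fix hg) with e | e
    · rw [e]; exact h1
    · rw [e, ← mul_assoc, h1, mul_assoc, hz, ← mul_assoc]
  calc (g * h * g⁻¹) * y = g * (h * (g⁻¹ * y * g⁻¹⁻¹)) * g⁻¹ := by group
    _ = g * ((g⁻¹ * y * g⁻¹⁻¹) * h) * g⁻¹ := by rw [key]
    _ = y * (g * h * g⁻¹) := by group

theorem YC.conj (R : Pts Γ τ r) {p : V} (hp : Γ.ty p = τ) (hY : YC r p y) (g : G) :
    YC r (g • p) (g * y * g⁻¹) := by
  intro k hk
  have h1 : (g⁻¹ * k * g) • p = p := by
    rw [mul_smul, mul_smul, inv_smul_eq_iff]; exact hk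
  rcases hY _ h1 with e | e
  · left
    calc k * (g * y * g⁻¹) * k⁻¹ = g * ((g⁻¹ * k * g) * y * (g⁻¹ * k * g)⁻¹) * g⁻¹ := by group
      _ = g * y * g⁻¹ := by rw [e]
  · right
    calc k * (g * y * g⁻¹) * k⁻¹ = g * ((g⁻¹ * k * g) * y * (g⁻¹ * k * g)⁻¹) * g⁻¹ := by group
      _ = g * y * g⁻¹ * (g * r p * g⁻¹) := by rw [e]; group
      _ = g * y * g⁻¹ * r (g • p) := by rw [R.conj p g hp]

end YC

/-- folding an arc -/
theorem Arc.fold {P : ℤ → V} {m : ℤ} (hP : Γ.Arc P (-m) 0) {v : G} (hv : v • P 0 = P 0)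
    (hne : v • P (-1) ≠ P (-1)) : Γ.Arc (fun k => if k ≤ 0 then P k else v • P (-k)) (-m) m := by
  refine ⟨fun k h1 h2 => ?_, fun k h1 h2 => ?_⟩
  · by_cases hk : k < 0
    · simp only [if_pos hk.le, if_pos (show k + 1 ≤ 0 by omega)]
      exact hP.adj h1 hk
    · by_cases hk0 : k = 0
      · subst hk0
        simp only [if_pos le_rfl, zero_add, if_neg (show ¬ (1 : ℤ) ≤ 0 by omega)]
        have := Γ.smul v (hP.adj' (k := 0) (by omega) le_rfl)
        rw [hv] at this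
        exact this
      · simp only [if_neg (show ¬ k ≤ 0 by omega), if_neg (show ¬ k + 1 ≤ 0 by omega)]
        have := Γ.smul v (hP.adj' (k := -k) (by omega) (by omega))
        have e : -k - 1 = -(k + 1) := by ring
        rwa [e] at this
  · by_cases hk : k + 2 ≤ 0
    · simp only [if_pos (show k ≤ 0 by omega), if_pos hk]
      exact hP.2 k h1 hk
    · by_cases hk1 : k = -1
      · subst hk1
        simp only [if_pos (show (-1 : ℤ) ≤ 0 by omega), if_neg hk]
        have e : -((-1 : ℤ) + 2) = -1 := by ring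
        rw [e]
        exact hne.symm
      · by_cases hk0 : k = 0
        · subst hk0
          simp only [if_pos le_rfl, zero_add, if_neg (show ¬ (2 : ℤ) ≤ 0 by omega)]
          rw [← hv]
          intro h
          exact hP.ne (k := -2) (l := 0) (by omega) le_rfl (by ring) (MulAction.injective v h).symm
        · simp only [if_neg (show ¬ k ≤ 0 by omega), if_neg hk]
          intro h
          exact hP.ne (k := -(k + 2)) (l := -k) (by omega) (by omega) (by ring) (MulAction.injective v h).symm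

namespace CB

variable (H : CB Γ τ) {r : V → G} (R : Pts Γ τ r)
  (hr : ∀ p, Γ.ty p = τ → r p ∈ ZB G p ∧ ∀ x ∈ ZB G p, x = 1 ∨ x = r p)

include H R

theorem theta_one {q : ℤ → V} {i : ℤ} (hq : Γ.Arc q i (i + 4)) (hty : Γ.ty (q i) = τ) (hY : YC r (q (i + 4)) (r (q i))) :
    False := by
  have h01 : Γ.A (q (i + 1)) (q i) := by
    have := hq.adj' (k := i + 1) (by omega) (by omega)
    rwa [add_sub_cancel_right] at this
  have h12 : Γ.A (q (i + 1)) (q (i + 2)) := by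
    have := hq.adj (k := i + 1) (by omega) (by omega)
    have e : i + 1 + 1 = i + 2 := by ring
    rwa [e] at this
  have h32 : Γ.A (q (i + 3)) (q (i + 2)) := by
    have := hq.adj' (k := i + 3) (by omega) (by omega)
    have e : i + 3 - 1 = i + 2 := by ring
    rwa [e] at this
  have h34 : Γ.A (q (i + 3)) (q (i + 4)) := by
    have := hq.adj (k := i + 3) (by omega) (by omega)
    have e : i + 3 + 1 = i + 4 := by ring
    rwa [e] at this
  have n02 : q i ≠ q (i + 2) := hq.ne (by omega) (by omega) (by ring)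
  have n24 : q (i + 2) ≠ q (i + 4) := hq.ne (by omega) (by omega) (by ring)
  have t2 : Γ.ty (q (i + 2)) = τ := by rw [← hty]; exact hq.ty_two (by omega) (by omega) (by ring)
  have hrev := (hq.sub (i' := i + 1) (j' := i + 4) (by omega) le_rfl).rev (i + 4)
  have e1 : i + 4 - (i + 4) = 0 := by ring
  have e2 : i + 4 - (i + 1) = 3 := by ring
  rw [e1, e2] at hrev
  have e3 : i + 4 - 3 = i + 1 := by ring
  obtain ⟨g, hg, hgQ⟩ := H.np.mv3 (Γ.ty (q (i + 1))) (fun k => q (i + 4 - k)) 0 (by simpa using hrev) (by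
    simp only [zero_add, e3])
  simp only [zero_add, e3] at hgQ
  have f4 : g • q (i + 4) = q (i + 4) := by
    have := hg 0 le_rfl (by omega)
    simpa using this
  have f2 : g • q (i + 2) = q (i + 2) := by
    have := hg 2 (by omega) (by omega)
    have e : i + 4 - 2 = i + 2 := by ring
    simp only [e] at this
    exact this
  have f1 : g • q (i + 1) = q (i + 1) := by
    have := hg 3 (by omega) (by omega)
    simp only [e3] at this
    exact this
  have hne : g • q i ≠ q i := fun h => hgQ (mem_Q_of_two f1 h01 h12 n02 h f2)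
  have hA : Γ.A (q (i + 1)) (g • q i) := A_of_fix f1 h01
  have hne2 : g • q i ≠ q (i + 2) := by
    intro h
    rw [← f2] at h
    exact n02 (MulAction.injective g h)
  have hm := R.mul (q (i + 1)) (q i) (q (i + 2)) (g • q i) h01 h12 hA n02 hne.symm hne2.symm hty
  rcases hY g f4 with e | e
  · rw [R.conj _ g hty] at e
    exact hne (R.inj hA h01 (by rw [Γ.ty_smul]; exact hty) e)
  · rw [R.conj _ g hty, ← hm] at e
    exact n24 (R.inj h32 h34 t2 (mul_left_cancel e))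

/-- `r` takes different values at distance four -/
theorem Z4 {q : ℤ → V} {i j : ℤ} (hij : j = i + 4) (hq : Γ.Arc q i j) (hty : Γ.ty (q i) = τ) :
    r (q i) ≠ r (q j) := by
  subst hij
  intro h
  apply H.theta_one R hq hty
  intro g hg
  left
  rw [h]
  have t4 : Γ.ty (q (i + 4)) = τ := by
    rw [← hty]; exact hq.ty_even (by omega) (by omega) (by omega) (by omega) (by omega)
  rw [R.comm t4 hg, mul_inv_cancel_right]

include hr

theorem theta_side {q0 q1 q2 : V} (h01 : Γ.A q0 q1) (h12 : Γ.A q1 q2) (h02 : q0 ≠ q2) (hty : Γ.ty q0 = τ)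
    (hyT : y ∈ (T q0 q1 : Subgroup G)) (hy2 : y * y = 1) (hy1 : y ≠ 1) (hyr : y ≠ r q0) (hY : YC r q0 y) :
    (∀ x, Γ.A q0 x → ∃ g : G, g * y = y * g ∧ g • q1 = x) ∧
    (∃ g ∈ (T q0 q1 : Subgroup G), g * y = y * g ∧ g ∉ Γ.Q q1) ∧
    (∃ g ∈ Γ.Q q1, g * y = y * g ∧ g ∉ Γ.Q q2) := by
  -- `T q0 q1` does not centralise `y`
  have hT : ∃ t ∈ (T q0 q1 : Subgroup G), t * y ≠ y * t := by
    by_contra hcon
    push Not at hcon
    have h1 : y ∈ OZ (T q0 q1 : Subgroup G) := ⟨hyT, hy2, fun t ht => (hcon t ht).symm⟩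
    rw [H.OZ_T_eq hty h01] at h1
    rcases (hr q0 hty).2 y h1 with h | h
    · exact hy1 h
    · exact hyr h
  let C : Subgroup G :=
    { carrier := {g | g • q0 = q0 ∧ g * y = y * g}
      one_mem' := ⟨one_smul _ _, by simp⟩
      mul_mem' := by
        rintro g h ⟨h1, h2⟩ ⟨h3, h4⟩
        exact ⟨mul_fix h1 h3, by rw [mul_assoc, h4, ← mul_assoc, h2, mul_assoc]⟩
      inv_mem' := by
        rintro g ⟨h1, h2⟩
        refine ⟨inv_fix h1, ?_⟩
        calc g⁻¹ * y = g⁻¹ * (y * g) * g⁻¹ := by group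
          _ = g⁻¹ * (g * y) * g⁻¹ := by rw [h2]
          _ = y * g⁻¹ := by group }
  have hCn : ∀ g : G, g • q0 = q0 → ∀ n ∈ C, g * n * g⁻¹ ∈ C := by
    intro g hg n hn
    exact ⟨mul_fix (mul_fix hg hn.1) (inv_fix hg), hY.comm_conj R hty hg hn.1 hn.2⟩
  have hmul : ∀ g h : G, g • q0 = q0 → h • q0 = q0 → g ∉ C → h ∉ C → g * h ∈ C := by
    intro g h hg hh hgC hhC
    exact ⟨mul_fix hg hh, hY.comm_mul R hty hg hh (fun h1 => hgC ⟨hg, h1⟩) (fun h1 => hhC ⟨hh, h1⟩)⟩
  refine ⟨?_, ?_, ?_⟩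
  · intro x hx
    obtain ⟨n, hn, hnn⟩ := exists_sq_not_mem (Γ := Γ) (v := q0) (N := stabilizer G q0)
      (fun n hn => mem_stabilizer_iff.1 hn) (fun g hg n hn => mem_stabilizer_iff.2
        (mul_fix (mul_fix hg (mem_stabilizer_iff.1 hn)) (inv_fix hg))) (by
        obtain ⟨g, hg, hgQ⟩ := exists_T_not_mem_Q h01
        exact ⟨g, mem_stabilizer_iff.2 (mem_T.1 hg).1, hgQ⟩)
    have hn0 := mem_stabilizer_iff.1 hn
    have hnC : n * n ∈ C := by
      by_cases h : n ∈ C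
      · exact mul_mem h h
      · exact hmul n n hn0 hn0 h h
    obtain ⟨k, hk, hkx⟩ := normal_trans (N := C) (fun n hn => hn.1) hCn ⟨_, hnC, hnn⟩ h01 hx
    exact ⟨k, hk.2, hkx⟩
  · by_contra hcon
    push Not at hcon
    -- `Q q1` centralises `y`
    have h1 : ∀ g ∈ Γ.Q q1, g ∈ C := by
      intro g hg
      by_contra hgC
      obtain ⟨t, ht, htQ⟩ := exists_T_not_mem_Q (Γ.symm h01)
      rw [T_comm] at ht
      have ht0 := (mem_T.1 ht).1
      have htC : t ∉ C := fun h => htQ (hcon t ht h.2)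
      have hg0 : g • q0 = q0 := hg.2 _ (Γ.symm h01)
      have h2 := hmul t g ht0 hg0 htC hgC
      have h3 := hcon (t * g) (mul_mem ht (Q_le_T' (Γ.symm h01) hg)) h2.2
      exact htQ ((mul_mem_cancel_right hg).1 h3)
    obtain ⟨l, hl, hl1⟩ := exists_ne h01
    obtain ⟨k, hk, hkl⟩ := exists_trans h01 hl
    apply H.np.npu q0 q1 l h01 hl hl1.symm
    intro x hx
    have hx0 : x ∈ Γ.Q q0 := hx.1
    have hx1 : x ∈ Γ.Q q1 := hx.2
    have h2 := h1 x hx1
    -- conjugate to `q1`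
    have h3 : k⁻¹ * x * k⁻¹⁻¹ ∈ C := hCn k⁻¹ (inv_fix hk) x h2
    have h4 : k⁻¹ * x * k⁻¹⁻¹ ∈ Γ.Q q0 := conj_mem_Q_of_fix hx0 (inv_fix hk)
    have h5 := hcon _ (Q_le_T h01 h4) h3.2
    have h6 := conj_mem_Q_of_eq h5 hkl
    have e : k * (k⁻¹ * x * k⁻¹⁻¹) * k⁻¹ = x := by group
    rwa [e] at h6
  · by_contra hcon
    push Not at hcon
    obtain ⟨k, hk, hkQ⟩ := Set.not_subset.1 (H.np.nle q1 q2 h12)
    have hk' : k ∈ Γ.Q q1 := hk
    have hk0 : k • q0 = q0 := hk'.2 _ (Γ.symm h01)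
    have hkC : k ∉ C := fun h => hkQ (hcon k hk' h.2)
    have h1 : ∀ g ∈ Γ.Q q1, g ∈ Γ.Q q2 → g ∈ C := by
      intro g hg hg2
      by_contra hgC
      have h2 := hmul k g hk0 (hg.2 _ (Γ.symm h01)) hkC hgC
      have h3 := hcon (k * g) (mul_mem hk' hg) h2.2
      exact hkQ ((mul_mem_cancel_right hg2).1 h3)
    obtain ⟨s, hs, hs0, hs2, -⟩ := exists_third (Γ.symm h01) h12 h02
    obtain ⟨t, ht, htQ⟩ := exists_T_not_mem_Q (Γ.symm h01)
    obtain ⟨ht1, ht0⟩ := mem_T.1 ht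
    have sw := swap_of_not_mem ht1 (Γ.symm h01) h12 hs h02 hs0.symm hs2.symm ht0 htQ
    apply H.np.npu q1 q2 s h12 hs hs2.symm
    intro x hx
    have hx1 : x ∈ Γ.Q q1 := hx.1
    have hx2 : x ∈ Γ.Q q2 := hx.2
    have h2 := hCn t⁻¹ (inv_fix ht0) x (h1 x hx1 hx2)
    have h3 := hcon _ (conj_mem_Q_of_fix hx1 (inv_fix ht1)) h2.2
    have h4 := conj_mem_Q_of_eq h3 sw.1
    have e : t * (t⁻¹ * x * t⁻¹⁻¹) * t⁻¹ = x := by group
    rwa [e] at h4

/-- **Lemma Θ** -/
theorem theta {q : ℤ → V} (hq : Γ.Arc q 0 4) (hty : Γ.ty (q 0) = τ) (hfix : ∀ k, 0 ≤ k → k ≤ 4 → y • q k = q k)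
    (hy2 : y * y = 1) (h0 : YC r (q 0) y) (h4 : YC r (q 4) y) : y = 1 := by
  by_contra hy1
  have h01 : Γ.A (q 0) (q 1) := hq.adj (k := 0) le_rfl (by omega)
  have h12 : Γ.A (q 1) (q 2) := hq.adj (k := 1) (by omega) (by omega)
  have h23 : Γ.A (q 2) (q 3) := hq.adj (k := 2) (by omega) (by omega)
  have h34 : Γ.A (q 3) (q 4) := hq.adj (k := 3) (by omega) (by omega)
  have n02 : q 0 ≠ q 2 := hq.ne le_rfl (by omega) (by ring)
  have n13 : q 1 ≠ q 3 := hq.ne (by omega) (by omega) (by ring)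
  have n24 : q 2 ≠ q 4 := hq.ne (by omega) (by omega) (by ring)
  have t4 : Γ.ty (q 4) = τ := by
    rw [← hty]; exact hq.ty_even (by omega) (by omega) (by omega) (by omega) (by omega)
  have hy0 : y ≠ r (q 0) := by
    intro h
    rw [h] at h4
    exact H.theta_one R (i := 0) (by simpa using hq) hty (by simpa using h4)
  have hy4 : y ≠ r (q 4) := by
    intro h
    rw [h] at h0
    have hrev := hq.rev 4
    exact H.theta_one R (q := fun k => q (4 - k)) (i := 0) (by simpa using hrev) (by simpa using t4) (by simpa using h0)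
  obtain ⟨A1, ⟨g2, hg2, c2, hg2Q⟩, ⟨g3, hg3, c3, hg3Q⟩⟩ := H.theta_side R hr h01 h12 n02 hty
    (mem_T.2 ⟨hfix 0 le_rfl (by omega), hfix 1 (by omega) (by omega)⟩) hy2 hy1 hy0 h0
  obtain ⟨-, -, ⟨g4, hg4, c4, hg4Q⟩⟩ := H.theta_side R hr (Γ.symm h34) (Γ.symm h23) n24.symm t4
    (mem_T.2 ⟨hfix 4 (by omega) le_rfl, hfix 3 (by omega) (by omega)⟩) hy2 hy1 hy4 h4
  have hz : ∀ g : G, g * y = y * g → ∀ n ∈ Subgroup.zpowers y, g⁻¹ * n * g ∈ Subgroup.zpowers y := by
    rintro g hg n ⟨m, rfl⟩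
    have h1 : Commute g y := hg
    have h2 := (h1.zpow_right m).eq
    show g⁻¹ * (y ^ m) * g ∈ _
    rw [mul_assoc, ← h2, inv_mul_cancel_left]
    exact ⟨m, rfl⟩
  apply hy1
  apply closure_bot Γ (Subgroup.zpowers y) ({q 0, q 1, q 2} : Set V) ⟨q 0, Or.inl rfl⟩ _ _ y (Subgroup.mem_zpowers y)
  · rintro p hp n ⟨m, rfl⟩
    have h3 : y • p = p := by
      rcases hp with rfl | rfl | hp
      · exact hfix 0 le_rfl (by omega)
      · exact hfix 1 (by omega) (by omega)
      · rw [Set.mem_singleton_iff] at hp; subst hp; exact hfix 2 (by omega) (by omega)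
    show y ^ m • p = p
    exact mem_stabilizer_iff.1 (zpow_mem (mem_stabilizer_iff.2 h3) m)
  · rintro p (rfl | rfl | hp) x hx
    · obtain ⟨g, hg, hgx⟩ := A1 x hx
      exact ⟨g, hz g hg, q 1, Or.inr (Or.inl rfl), hgx⟩
    · obtain ⟨s, hs, hs0, hs2, hall⟩ := exists_third (Γ.symm h01) h12 n02
      obtain ⟨g20, g21⟩ := mem_T.1 hg2
      have sw := swap_of_not_mem g21 (Γ.symm h01) h12 hs n02 hs0.symm hs2.symm g20 hg2Q
      rcases eq_or (Γ.symm h01) h12 hs hx n02 hs0.symm hs2.symm with rfl | rfl | rfl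
      · exact ⟨1, hz 1 (by simp), q 0, Or.inl rfl, one_smul _ _⟩
      · exact ⟨1, hz 1 (by simp), q 2, Or.inr (Or.inr rfl), one_smul _ _⟩
      · exact ⟨g2, hz g2 c2, q 2, Or.inr (Or.inr rfl), sw.1⟩
    · rw [Set.mem_singleton_iff] at hp
      subst hp
      obtain ⟨s, hs, hs1, hs3, hall⟩ := exists_third (Γ.symm h12) h23 n13
      have s3 := swap_of_not_mem (hg3.2 _ h12) (Γ.symm h12) h23 hs n13 hs1.symm hs3.symm hg3.1 hg3Q
      have s4 := swap_of_not_mem (hg4.2 _ (Γ.symm h23)) h23 (Γ.symm h12) hs n13.symm hs3.symm hs1.symm hg4.1 hg4Q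
      rcases eq_or (Γ.symm h12) h23 hs hx n13 hs1.symm hs3.symm with rfl | rfl | rfl
      · exact ⟨1, hz 1 (by simp), q 1, Or.inr (Or.inl rfl), one_smul _ _⟩
      · refine ⟨g3 * g4, hz _ ?_, q 1, Or.inr (Or.inl rfl), by rw [mul_smul, s4.1, s3.2]⟩
        rw [mul_assoc, c4, ← mul_assoc, c3, mul_assoc]
      · exact ⟨g4, hz g4 c4, q 1, Or.inr (Or.inl rfl), s4.1⟩

end CB

end Tri

end Cfsg.Agent.H209
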