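import Cfsg.Agent.H209.TriCBFiveB

/-!
# Case B, critical distance three
-/

set_option autoImplicit false

namespace Cfsg.Agent.H209

open MulAction

namespace Tri

variable {G V : Type*} [Group G] [MulAction G V] {Γ : Tri G V}
variable {u v w a b c d e l m s : V} {g h t x y z : G} {τ : Bool} {r : V → G}

/-- the walk `a b c d e` -/
def arc5 (a b c d e : V) : ℤ → V := fun k => if k = 0 then a else if k = 1 then b else if k = 2 then c else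
  if k = 3 then d else e

theorem arc5_arc (h1 : Γ.A a b) (h2 : Γ.A b c) (h3 : Γ.A c d) (h4 : Γ.A d e) (n1 : a ≠ c) (n2 : b ≠ d) (n3 : c ≠ e) :
    Γ.Arc (arc5 a b c d e) 0 4 := by
  refine ⟨fun k k1 k2 => ?_, fun k k1 k2 => ?_⟩
  · have : k = 0 ∨ k = 1 ∨ k = 2 ∨ k = 3 := by omega
    rcases this with rfl | rfl | rfl | rfl <;> simp only [arc5] <;> norm_num <;> assumption
  · have : k = 0 ∨ k = 1 ∨ k = 2 := by omega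
    rcases this with rfl | rfl | rfl <;> simp only [arc5] <;> norm_num <;> assumption

omit Γ in
theorem arc5_0 : arc5 a b c d e 0 = a := by simp [arc5]
omit Γ in
theorem arc5_1 : arc5 a b c d e 1 = b := by simp [arc5]
omit Γ in
theorem arc5_2 : arc5 a b c d e 2 = c := by simp [arc5]
omit Γ in
theorem arc5_3 : arc5 a b c d e 3 = d := by simp [arc5]
omit Γ in
theorem arc5_4 : arc5 a b c d e 4 = e := by simp [arc5]

theorem YC.mul_r (R : Pts Γ τ r) {p : V} (hp : Γ.ty p = τ) (hY : YC r p y) : YC r p (y * r p) := by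
  intro g hg
  have h1 := R.comm hp hg
  have e0 : g * (y * r p) * g⁻¹ = (g * y * g⁻¹) * (g * r p) * g⁻¹ := by group
  have e1 : g * (y * r p) * g⁻¹ = (g * y * g⁻¹) * r p := by rw [e0, h1]; group
  rcases hY g hg with h | h
  · left; rw [e1, h]
  · right; rw [e1, h]

/-- the pointwise stabilizer of the ball of radius three -/
def D3 (Γ : Tri G V) (p : V) : Subgroup G where
  carrier := {g | g ∈ Γ.D p ∧ ∀ l q, Γ.A p l → Γ.A l q → g ∈ Γ.Q q}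
  mul_mem' := fun hg hh => ⟨mul_mem hg.1 hh.1, fun l q h1 h2 => mul_mem (hg.2 l q h1 h2) (hh.2 l q h1 h2)⟩
  one_mem' := ⟨one_mem _, fun _ _ _ _ => one_mem _⟩
  inv_mem' := fun hg => ⟨inv_mem hg.1, fun l q h1 h2 => inv_mem (hg.2 l q h1 h2)⟩

theorem conj_mem_D3 {p : V} (hg : g ∈ Γ.D3 p) (h : G) : h * g * h⁻¹ ∈ Γ.D3 (h • p) := by
  refine ⟨conj_mem_D hg.1 h, fun l q h1 h2 => ?_⟩
  have h3 : Γ.A p (h⁻¹ • l) := by
    have := Γ.smul h⁻¹ h1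
    rwa [inv_smul_smul] at this
  have h4 : Γ.A (h⁻¹ • l) (h⁻¹ • q) := Γ.smul h⁻¹ h2
  have := conj_mem_Q (hg.2 _ _ h3 h4) h
  rwa [smul_inv_smul] at this

theorem conj_mem_D3_of_fix {p : V} (hg : g ∈ Γ.D3 p) (hh : h • p = p) : h * g * h⁻¹ ∈ Γ.D3 p := by
  have := conj_mem_D3 hg h
  rwa [hh] at this

/-- the case of critical distance three -/
structure C3 (Γ : Tri G V) (τ : Bool) (r : V → G) : Prop where
  cr : CR Γ τ 3 r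
  ex : ∃ p : ℤ → V, Γ.Arc p 0 3 ∧ Γ.ty (p 0) = !τ ∧ ¬ Γ.ZZ (p 0) ≤ Γ.Q (p 3)

namespace C3

variable (H : C3 Γ τ r)

include H

theorem r_ZB {p : V} (hp : Γ.ty p = τ) : r p ∈ ZB G p := (H.cr.hr p hp).1

/-- distance four -/
theorem far (h1 : Γ.A a b) (h2 : Γ.A b c) (h3 : Γ.A c d) (h4 : Γ.A d e) (n1 : a ≠ c) (n2 : b ≠ d) (n3 : c ≠ e)
    (hty : Γ.ty a = τ) : r a ∉ Γ.Q e := by
  intro hQ
  have tb := CB.ty_nbr' hty h1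
  have tc := CB.ty_nbr tb h2
  have hq := arc5_arc h1 h2 h3 h4 n1 n2 n3
  obtain ⟨p, hp, hpt, hpc⟩ := H.ex
  have hM : ∀ k : ℤ, 1 ≤ k → k ≤ 3 → ∀ τ', MvT Γ k τ' := fun k k1 k2 τ' => H.cr.co.cb.np.mv_le_three τ' k1 k2
  have hcr := crit_all (Γ := Γ) (n := 3) (by omega) hM (p := p) (i := 0) (by simpa using hp) (by simpa using hpc)
    (q := arc5 a b c d e) (i' := 1) (hq.sub (by omega) (by omega)) (by rw [hpt, arc5_1, tb])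
  have := H.cr.co.crit_Q H.cr.g4 (p := arc5 a b c d e) (i := 1) (j := 1 + 3) rfl (hq.sub (by omega) (by omega))
    (by rw [arc5_1]; exact tb) hcr (r a) (by rw [arc5_1]; exact H.cr.r_mem_ZZ (Γ.symm h1) hty)
    (by norm_num; rw [arc5_4]; exact hQ)
  norm_num at this
  rw [arc5_2] at this
  exact H.cr.R.ne a hty (H.cr.co.cb.ZB_inf (Γ.symm h1) h2 n1 hty (H.r_ZB hty) this)

theorem Z4' (h1 : Γ.A a b) (h2 : Γ.A b c) (h3 : Γ.A c d) (h4 : Γ.A d e) (n1 : a ≠ c) (n2 : b ≠ d) (n3 : c ≠ e)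
    (hty : Γ.ty a = τ) : r a ≠ r e := by
  have hq := arc5_arc h1 h2 h3 h4 n1 n2 n3
  have := H.cr.co.cb.Z4 H.cr.R (q := arc5 a b c d e) (i := 0) (j := 4) (by ring) hq (by rw [arc5_0]; exact hty)
  rwa [arc5_0, arc5_4] at this

theorem G4' {p1 p2 p3 : V} (h1 : Γ.A p1 p2) (h2 : Γ.A p2 p3) (hne : p1 ≠ p3) (hty : Γ.ty p1 = τ)
    (hx : x ∈ Γ.VB p1) (hxQ : x ∈ Γ.Q p3) (hy : y ∈ Γ.VB p3) : x * y = y * x := by
  obtain ⟨p4, h4, n4⟩ := exists_ne (Γ.symm h2)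
  obtain ⟨p5, h5, n5⟩ := exists_ne (Γ.symm h4)
  have hq := arc5_arc h1 h2 h4 h5 hne n4.symm n5.symm
  exact H.cr.g4 (arc5 p1 p2 p3 p4 p5) 0 2 (by ring) (hq.sub (by omega) (by omega)) (by rw [arc5_0]; exact hty) x
    (by rw [arc5_0]; exact hx) (by rw [arc5_2]; exact hxQ) y (by rw [arc5_2]; exact hy)

theorem VB_le_D {p : V} (hp : Γ.ty p = τ) : Γ.VB p ≤ Γ.D p := fun _ hx =>
  ⟨H.cr.co.cb.VB_le_Q hp hx, fun _ ha => H.cr.co.VB_le_Q_nbr hp ha hx⟩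

omit H in
theorem ty2 {p1 p2 p3 : V} (h1 : Γ.A p1 p2) (h2 : Γ.A p2 p3) (hty : Γ.ty p1 = τ) : Γ.ty p3 = τ :=
  CB.ty_nbr (CB.ty_nbr' hty h1) h2

theorem VB_fix2 {p1 p2 p3 : V} (h1 : Γ.A p1 p2) (h2 : Γ.A p2 p3) (hty : Γ.ty p1 = τ) (hx : x ∈ Γ.VB p1) :
    x • p2 = p2 ∧ x • p3 = p3 := by
  have := H.cr.co.VB_le_Q_nbr hty h1 hx
  exact ⟨this.1, this.2 _ h2⟩

theorem VB_T {p1 p2 p3 : V} (h1 : Γ.A p1 p2) (h2 : Γ.A p2 p3) (hty : Γ.ty p1 = τ) (hx : x ∈ Γ.VB p1) :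
    x ∈ (T p3 p2 : Subgroup G) := by
  obtain ⟨h3, h4⟩ := H.VB_fix2 h1 h2 hty hx
  exact mem_T.2 ⟨h4, h3⟩

/-- the commutator does not depend on the elements -/
theorem t_indep {p1 p2 p3 : V} (h1 : Γ.A p1 p2) (h2 : Γ.A p2 p3) (hne : p1 ≠ p3) (hty : Γ.ty p1 = τ) {u u' v v' : G}
    (hu : u ∈ Γ.VB p1) (hu' : u' ∈ Γ.VB p1) (hv : v ∈ Γ.VB p3) (hv' : v' ∈ Γ.VB p3) (huQ : u ∉ Γ.Q p3)
    (huQ' : u' ∉ Γ.Q p3) (hvQ : v ∉ Γ.Q p1) (hvQ' : v' ∉ Γ.Q p1) : u' * (v' * u' * v'⁻¹) = u * (v * u * v⁻¹) := by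
  have t3 := ty2 h1 h2 hty
  have hw : v⁻¹ * v' ∈ Γ.Q p1 := mul_mem_Q h1 (H.VB_T (Γ.symm h2) (Γ.symm h1) t3 (inv_mem hv))
    (H.VB_T (Γ.symm h2) (Γ.symm h1) t3 hv') (fun h => hvQ (inv_mem_iff.1 h)) hvQ'
  have hs : u⁻¹ * u' ∈ Γ.Q p3 := mul_mem_Q (Γ.symm h2) (H.VB_T h1 h2 hty (inv_mem hu))
    (H.VB_T h1 h2 hty hu') (fun h => huQ (inv_mem_iff.1 h)) huQ'
  have c1 := H.G4' (Γ.symm h2) (Γ.symm h1) hne.symm t3 (mul_mem (inv_mem hv) hv') hw hu'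
  have hsV : u⁻¹ * u' ∈ Γ.VB p1 := mul_mem (inv_mem hu) hu'
  have c2 := H.G4' h1 h2 hne hty hsV hs hv
  have v1 : v • p1 = p1 := (H.VB_fix2 (Γ.symm h2) (Γ.symm h1) t3 hv).2
  have c3 : (u⁻¹ * u') * (v * u * v⁻¹) = (v * u * v⁻¹) * (u⁻¹ * u') :=
    H.cr.co.VB_comm hty hsV (conj_mem_VB_of_eq hu v1)
  have c4 := H.cr.co.VB_sq hty hsV
  have e1 : v' * u' * v'⁻¹ = v * u' * v⁻¹ := by
    calc v' * u' * v'⁻¹ = v * ((v⁻¹ * v') * u') * (v⁻¹ * v')⁻¹ * v⁻¹ := by group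
      _ = v * (u' * (v⁻¹ * v')) * (v⁻¹ * v')⁻¹ * v⁻¹ := by rw [c1]
      _ = v * u' * v⁻¹ := by group
  have e2 : v * u' * v⁻¹ = (v * u * v⁻¹) * (u⁻¹ * u') := by
    calc v * u' * v⁻¹ = v * u * v⁻¹ * (v * (u⁻¹ * u')) * v⁻¹ := by group
      _ = v * u * v⁻¹ * ((u⁻¹ * u') * v) * v⁻¹ := by rw [c2]
      _ = (v * u * v⁻¹) * (u⁻¹ * u') := by group
  calc u' * (v' * u' * v'⁻¹) = u' * ((v * u * v⁻¹) * (u⁻¹ * u')) := by rw [e1, e2]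
    _ = u * ((u⁻¹ * u') * (v * u * v⁻¹)) * (u⁻¹ * u') := by group
    _ = u * ((v * u * v⁻¹) * (u⁻¹ * u')) * (u⁻¹ * u') := by rw [c3]
    _ = u * (v * u * v⁻¹) * ((u⁻¹ * u') * (u⁻¹ * u')) := by group
    _ = u * (v * u * v⁻¹) := by rw [c4, mul_one]

/-- moved neighbours -/
theorem moved {p0 p1 p2 p3 : V} (h0 : Γ.A p1 p0) (h1 : Γ.A p1 p2) (h2 : Γ.A p2 p3) (n02 : p0 ≠ p2)
    (hty : Γ.ty p1 = τ) {v : G} (hv : v ∈ Γ.VB p3) (hvQ : v ∉ Γ.Q p1) :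
    v • p1 = p1 ∧ v • p2 = p2 ∧ v • p0 ≠ p0 ∧ v • p0 ≠ p2 ∧ Γ.A p1 (v • p0) := by
  have t3 := ty2 h1 h2 hty
  obtain ⟨f2, f1⟩ := H.VB_fix2 (Γ.symm h2) (Γ.symm h1) t3 hv
  refine ⟨f1, f2, fun h => hvQ (mem_Q_of_two f1 h0 h1 n02 h f2), fun h => ?_, A_of_fix f1 h0⟩
  rw [← f2] at h
  exact n02 (MulAction.injective v h)

/-- elements of `VB p` normalised modulo `r p` are in `D3 p` -/
theorem D3_of_YC {p : V} (hty : Γ.ty p = τ) (hy : y ∈ Γ.VB p) (hY : YC r p y) : y ∈ Γ.D3 p := by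
  refine ⟨H.VB_le_D hty hy, fun p2 p3 h1 h2 => ?_⟩
  by_cases hne : p3 = p
  · rw [hne]; exact H.cr.co.cb.VB_le_Q hty hy
  by_contra hyQ
  have t3 := ty2 h1 h2 hty
  obtain ⟨p0, h0, n0⟩ := exists_ne h1
  obtain ⟨f, hf, nf⟩ := exists_ne (Γ.symm h0)
  obtain ⟨p4, h4, n4⟩ := exists_ne (Γ.symm h2)
  obtain ⟨f', hf', nf'⟩ := exists_ne (Γ.symm h4)
  have tf := ty2 h0 hf hty
  have tf' := ty2 h4 hf' t3
  have u0 : r f ∉ Γ.Q p3 := H.far (Γ.symm hf) (Γ.symm h0) h1 h2 nf n0 (Ne.symm hne) tf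
  have v0 : r f' ∉ Γ.Q p := H.far (Γ.symm hf') (Γ.symm h4) (Γ.symm h2) (Γ.symm h1) nf' n4 hne tf'
  have mu : r f ∈ Γ.VB p := H.cr.r_mem_VB h0 hf hty
  have mv : r f' ∈ Γ.VB p3 := H.cr.r_mem_VB h4 hf' t3
  have key := H.t_indep h1 h2 (Ne.symm hne) hty mu hy mv mv u0 hyQ v0 v0
  obtain ⟨v1, v2, v3, v4, v5⟩ := H.moved h0 h1 h2 n0 hty mv v0
  rw [H.cr.R.conj f (r f') tf] at key
  have hvf : Γ.A (r f' • p0) (r f' • f) := Γ.smul _ hf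
  have nvf : p ≠ r f' • f := by
    intro h
    rw [← v1] at h
    exact nf (MulAction.injective _ h).symm
  have tvf : Γ.ty (r f' • f) = τ := by rw [Γ.ty_smul, tf]
  rcases hY (r f') v1 with e | e
  · rw [e, H.cr.co.VB_sq hty hy] at key
    have h3 : r f = r (r f' • f) := by
      rw [← H.cr.R.inv tf]
      exact inv_eq_of_mul_eq_one_right key.symm
    exact H.Z4' (Γ.symm hf) (Γ.symm h0) v5 hvf nf v3.symm nvf tf h3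
  · rw [e, ← mul_assoc, H.cr.co.VB_sq hty hy, one_mul] at key
    obtain ⟨f2, hf2, nf2, nf2f, -⟩ := exists_third (Γ.symm h0) hf nf.symm
    have tf2 := ty2 h0 hf2 hty
    have h3 : r (r f' • f) = r f2 := by
      rw [← H.cr.R.mul p0 f p f2 hf (Γ.symm h0) hf2 nf nf2f.symm nf2.symm tf, key, ← mul_assoc, H.cr.R.sq f tf,
        one_mul]
    exact H.Z4' (Γ.symm hf2) (Γ.symm h0) v5 hvf nf2 v3.symm nvf tf2 h3.symm

theorem r_mem_D3 {p : V} (hty : Γ.ty p = τ) : r p ∈ Γ.D3 p := by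
  obtain ⟨l, hl⟩ := ex_adj Γ p
  apply H.D3_of_YC hty (H.cr.r_mem_VB hl (Γ.symm hl) hty)
  intro g hg
  left
  rw [H.cr.R.comm hty hg, mul_inv_cancel_right]

theorem D3_comm {p1 p2 p3 : V} (h1 : Γ.A p1 p2) (h2 : Γ.A p2 p3) (hne : p1 ≠ p3) (hty : Γ.ty p1 = τ)
    (hx : x ∈ Γ.D3 p1) (hy : y ∈ Γ.VB p3) : x * y = y * x := by
  have t3 := ty2 h1 h2 hty
  have hxQ : x ∈ Γ.Q p3 := hx.2 _ _ h1 h2
  obtain ⟨c, hc, e⟩ := H.cr.co.VB_act t3 hxQ hy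
  have f1 : y • p1 = p1 := (H.VB_fix2 (Γ.symm h2) (Γ.symm h1) t3 hy).2
  have hcD : c ∈ Γ.D3 p1 := by
    have e2 : c = (y⁻¹ * x * y⁻¹⁻¹) * x⁻¹ := by
      calc c = y⁻¹ * (x * y * x⁻¹) := by rw [e]; group
        _ = (y⁻¹ * x * y⁻¹⁻¹) * x⁻¹ := by group
    rw [e2]
    exact mul_mem (conj_mem_D3_of_fix hx (inv_fix f1)) (inv_mem hx)
  rcases (H.cr.hr p3 t3).2 c hc with h | h
  · rw [h, mul_one] at e
    calc x * y = (x * y * x⁻¹) * x := by group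
      _ = y * x := by rw [e]
  · exfalso
    obtain ⟨l, hl, nl⟩ := exists_ne h1
    obtain ⟨q, hq, nq⟩ := exists_ne (Γ.symm hl)
    rw [h] at hcD
    exact H.far (Γ.symm h2) (Γ.symm h1) hl hq hne.symm nl.symm nq.symm t3 (hcD.2 _ _ hl hq)

theorem exists_v3 {p1 p2 p3 : V} (h1 : Γ.A p1 p2) (h2 : Γ.A p2 p3) (hne : p1 ≠ p3) (hty : Γ.ty p1 = τ) :
    ∃ v ∈ Γ.VB p3, v ∉ Γ.Q p1 := by
  have t3 := ty2 h1 h2 hty
  obtain ⟨p4, h4, n4⟩ := exists_ne (Γ.symm h2)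
  obtain ⟨f', hf', nf'⟩ := exists_ne (Γ.symm h4)
  exact ⟨r f', H.cr.r_mem_VB h4 hf' t3, H.far (Γ.symm hf') (Γ.symm h4) (Γ.symm h2) (Γ.symm h1) nf' n4 hne.symm
    (ty2 h4 hf' t3)⟩

theorem D3_inf {p1 p2 p3 : V} (h1 : Γ.A p1 p2) (h2 : Γ.A p2 p3) (hne : p1 ≠ p3) (hty : Γ.ty p1 = τ)
    (hx : x ∈ Γ.D3 p1) (hx' : x ∈ Γ.D3 p3) : x = 1 := by
  have t3 := ty2 h1 h2 hty
  have key : ∀ n ∈ Γ.D3 p1 ⊓ Γ.D3 p3, n = 1 := by
    apply two_bot H.cr.co.cb.np h1 h2 hne _ (CC p1 (Γ.D3 p1)) (CC p3 (Γ.D3 p3))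
    · intro n hn
      exact ⟨hn.1.1.1.1, hn.1.1.1.2 _ h1, hn.2.1.1.1⟩
    · intro c hc; exact (mem_CC.1 hc).1
    · intro g hg c hc
      exact CC_normal (fun g hg n hn => conj_mem_D3_of_fix hn hg) hg hc
    · obtain ⟨v, hv, hvQ⟩ := H.exists_v3 h1 h2 hne hty
      exact ⟨v, mem_CC.2 ⟨(H.VB_fix2 (Γ.symm h2) (Γ.symm h1) t3 hv).2,
        fun n hn => (H.D3_comm h1 h2 hne hty hn hv).symm⟩, hvQ⟩
    · intro c hc; exact (mem_CC.1 hc).1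
    · intro g hg c hc
      exact CC_normal (fun g hg n hn => conj_mem_D3_of_fix hn hg) hg hc
    · obtain ⟨v, hv, hvQ⟩ := H.exists_v3 (Γ.symm h2) (Γ.symm h1) hne.symm t3
      exact ⟨v, mem_CC.2 ⟨(H.VB_fix2 h1 h2 hty hv).2,
        fun n hn => (H.D3_comm (Γ.symm h2) (Γ.symm h1) hne.symm t3 hn hv).symm⟩, hvQ⟩
    · intro c hc n hn; exact (mem_CC.1 hc).2 n hn.1
    · intro c hc n hn; exact (mem_CC.1 hc).2 n hn.2
  exact key x ⟨hx, hx'⟩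

/-- the commutator relation -/
theorem rel3 {p0 p1 p2 p3 f : V} (h0 : Γ.A p1 p0) (hf : Γ.A p0 f) (h1 : Γ.A p1 p2) (h2 : Γ.A p2 p3) (n02 : p0 ≠ p2)
    (nf : f ≠ p1) (hne : p1 ≠ p3) (hty : Γ.ty p1 = τ) {v : G} (hv : v ∈ Γ.VB p3) (hvQ : v ∉ Γ.Q p1) :
    r f * (v * r f * v⁻¹) = r p1 * r p3 := by
  have t3 := ty2 h1 h2 hty
  have tf := ty2 h0 hf hty
  obtain ⟨p4, h4, n4⟩ := exists_ne (Γ.symm h2)
  obtain ⟨f', hf', nf'⟩ := exists_ne (Γ.symm h4)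
  have tf' := ty2 h4 hf' t3
  have u0 : r f ∉ Γ.Q p3 := H.far (Γ.symm hf) (Γ.symm h0) h1 h2 nf n02 hne tf
  have v0 : r f' ∉ Γ.Q p1 := H.far (Γ.symm hf') (Γ.symm h4) (Γ.symm h2) (Γ.symm h1) nf' n4 hne.symm tf'
  have mu : r f ∈ Γ.VB p1 := H.cr.r_mem_VB h0 hf hty
  have mv : r f' ∈ Γ.VB p3 := H.cr.r_mem_VB h4 hf' t3
  rw [H.t_indep h1 h2 hne hty mu mu mv hv u0 u0 v0 hvQ]
  obtain ⟨a1, a2, a3, a4, a5⟩ := H.moved h0 h1 h2 n02 hty mv v0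
  obtain ⟨b1, b2, b3, b4, b5⟩ := H.moved h4 (Γ.symm h2) (Γ.symm h1) n4 t3 mu u0
  have c1 : Γ.A (r f' • p0) (r f' • f) := Γ.smul _ hf
  have c2 : r f' • f ≠ p1 := by
    intro h
    rw [← a1] at h
    exact nf (MulAction.injective _ h)
  have d1 : Γ.A (r f • p4) (r f • f') := Γ.smul _ hf'
  have d2 : r f • f' ≠ p3 := by
    intro h
    rw [← b1] at h
    exact nf' (MulAction.injective _ h)
  have m1 : r (r f' • f) ∈ Γ.VB p1 := H.cr.r_mem_VB a5 c1 hty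
  have m3 : r p3 ∈ Γ.VB p1 := H.cr.r_mem_VB h1 h2 hty
  have k1 : r (r f • f') ∈ Γ.VB p3 := H.cr.r_mem_VB b5 d1 t3
  have k3 : r p1 ∈ Γ.VB p3 := H.cr.r_mem_VB (Γ.symm h2) (Γ.symm h1) t3
  have m11 : r p1 ∈ Γ.VB p1 := H.cr.r_mem_VB h1 (Γ.symm h1) hty
  have k33 : r p3 ∈ Γ.VB p3 := H.cr.r_mem_VB (Γ.symm h2) h2 t3
  have Y1 : YC r p1 (r f * r (r f' • f) * r p3) :=
    H.cr.R.YC_prod hty h0 a5 h1 a3.symm n02 a4 hf c1 h2 nf c2 hne.symm (H.cr.co.VB_comm hty mu m1)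
      (H.cr.co.VB_comm hty mu m3) (H.cr.co.VB_comm hty m1 m3)
  have Y3 : YC r p3 (r f' * r (r f • f') * r p1) :=
    H.cr.R.YC_prod t3 h4 b5 (Γ.symm h2) b3.symm n4 b4 hf' d1 (Γ.symm h1) nf' d2 hne (H.cr.co.VB_comm t3 mv k1)
      (H.cr.co.VB_comm t3 mv k3) (H.cr.co.VB_comm t3 k1 k3)
  have i1 := H.cr.R.inv tf
  have i2 := H.cr.R.inv tf'
  have i3 := H.cr.R.sq p1 hty
  have i4 := H.cr.R.sq p3 t3
  have tt : r f' * r (r f • f') = r f * r (r f' • f) := by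
    have e1 : r f * r (r f' • f) = (r f * r (r f' • f))⁻¹ := (H.cr.co.VB_inv hty (mul_mem mu m1)).symm
    rw [e1, ← H.cr.R.conj f _ tf, ← H.cr.R.conj f' _ tf', mul_inv_rev, mul_inv_rev, mul_inv_rev, inv_inv, i1, i2]
    group
  have c13 : r p1 * r p3 = r p3 * r p1 := H.cr.R.comm_nbr (Γ.symm h1) h2 hty
  rw [H.cr.R.conj f _ tf]
  set t := r f * r (r f' • f) with ht
  have e3 : t * r p1 * r p3 = t * r p3 * r p1 := by rw [mul_assoc, c13, ← mul_assoc]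
  have hy1 : t * r p3 * r p1 ∈ Γ.D3 p1 := by
    apply H.D3_of_YC hty (mul_mem (mul_mem (mul_mem mu m1) m3) m11)
    exact Y1.mul_r H.cr.R hty
  have hy3 : t * r p3 * r p1 ∈ Γ.D3 p3 := by
    rw [← e3]
    apply H.D3_of_YC t3
    · rw [← tt]; exact mul_mem (mul_mem (mul_mem mv k1) k3) k33
    · rw [← tt]; exact Y3.mul_r H.cr.R t3
  have h5 := H.D3_inf h1 h2 hne hty hy1 hy3
  calc t = (t * r p3 * r p1) * (r p1 * (r p3 * r p3) * (r p1)⁻¹ * (r p1)⁻¹ * (r p3)⁻¹) := by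
        rw [i4]; group
    _ = r p1 * r p3 := by
        rw [h5, i4, H.cr.R.inv hty, H.cr.R.inv t3]
        calc 1 * (r p1 * 1 * r p1 * r p1 * r p3) = (r p1 * r p1) * (r p1 * r p3) := by group
          _ = r p1 * r p3 := by rw [i3, one_mul]

end C3

end Tri

end Cfsg.Agent.H209
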